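import Cfsg.Statements.S0486
import Cfsg.Agent.EqAll
import Cfsg.Agent.Ly.Fin
import Cfsg.Agent.Ly.ArD
-- import your own Cfsg.Agent.* helpers here

set_option autoImplicit false
open Cfsg

namespace Cfsg.Agent.S0486

/-- A finite simple group whose Sylow 2-subgroups are isomorphic to a Sylow 2-subgroup of the projective special
unitary group of dimension 3 over the field with 16 elements is isomorphic to that unitary group. -/
theorem result {G : Type*} [Group G] [Finite G] [IsSimpleGroup G]
    {F : Type*} [Field F] [Fintype F] (hF : Fintype.card F = 16) (S : Sylow 2 G) (P : Sylow 2 (Cfsg.PSU 3 F 4))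
    (hS : Nonempty ((S : Subgroup G) ≃* (P : Subgroup (Cfsg.PSU 3 F 4)))) :
    Nonempty (G ≃* Cfsg.PSU 3 F 4) := by
  exact CA.Ly.s0486_of CA.Ly.ar_main CA.Ly.ar_main hF S P hS

end Cfsg.Agent.S0486
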