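import Cfsg.Statements.S1057
import Cfsg.Agent.EqAll
import Cfsg.Agent.Chev.Pairs
import Cfsg.Agent.Chev.Tab
import Cfsg.Agent.Chev.LieInst
import Cfsg.Agent.S1059
import Cfsg.Agent.Lin.SmallIso
import Cfsg.Agent.Unit.Six

set_option autoImplicit false
open Cfsg

namespace Cfsg.Agent.S1057

open CA.Chev Cfsg.Lie Cfsg.Lie.ChevalleyDatum Matrix Cfsg.Agent.Lin

theorem mem_SU {g : SpecialLinearGroup (Fin 3) F9} (h : g.1ᵀ * g.1.map (starRingEnd F9) = 1) : g ∈ SU 3 F9 3 := by
  have h3 : ∀ u v, hermForm 3 F9 3 u v = u ⬝ᵥ (starRingEnd F9 ∘ v) := fun u v =>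
    Finset.sum_congr rfl fun i _ => congrArg (u i * ·) ((by decide : ∀ x : F9, x ^ 3 = starRingEnd F9 x) (v i))
  intro u v
  have h4 : starRingEnd F9 ∘ (g.1 *ᵥ v) = g.1.map (starRingEnd F9) *ᵥ (starRingEnd F9 ∘ v) :=
    funext fun i => RingHom.map_mulVec _ _ _ i
  show hermForm 3 F9 3 (g.1 *ᵥ u) (g.1 *ᵥ v) = _
  rw [h3, h3, h4, dotProduct_mulVec, ← vecMul_transpose, vecMul_vecMul, h, vecMul_one]

/-- a matrix packed in a natural number -/
def mat (x : ℕ) : Matrix (Fin 3) (Fin 3) F9 :=
  Matrix.of fun i j => ⟨(Tab.d4 x (3 * i + j) % 4 : ℕ), (Tab.d4 x (3 * i + j) / 4 : ℕ)⟩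
/-- the defining equations of the special unitary group -/
def Ok (A : Matrix (Fin 3) (Fin 3) F9) : Prop :=
  A 0 0 * A 1 1 * A 2 2 - A 0 0 * A 1 2 * A 2 1 - A 0 1 * A 1 0 * A 2 2 + A 0 1 * A 1 2 * A 2 0 +
    A 0 2 * A 1 0 * A 2 1 - A 0 2 * A 1 1 * A 2 0 = 1 ∧ Aᵀ * A.map (starRingEnd F9) = 1
instance decOk (A : Matrix (Fin 3) (Fin 3) F9) : Decidable (Ok A) := by unfold Ok; infer_instance
/-- an element of the special unitary group -/
def su (A : Matrix (Fin 3) (Fin 3) F9) (h : Ok A) : SU 3 F9 3 :=
  ⟨⟨A, (det_fin_three A).trans h.1⟩, mem_SU h.2⟩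
/-- the long root vectors -/
def vec (y : Fin 63) : chevG2.Idx → ZMod 2 := unp2 2 2 (List.getD
    [67108864, 67108881, 67174400, 68161600, 71581696, 83886080, 67174481, 68161873, 71582737, 83902481, 
    68227345, 88343569, 16, 68227136, 71651600, 83968004, 89194496, 65536, 72635477, 85202000, 85218625, 64, 
    89133125, 72634708, 71652673, 88358912, 72695812, 16384, 83951685, 16777216, 89212241, 22352977, 82004, 
    80, 17040725, 69968, 87316, 17056784, 16793685, 22368529, 16400, 85267733, 69904, 88413460, 17040400, 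
    72697157, 85283924, 65600, 22089797, 89150788, 16793600, 22364164, 81924, 22085632, 17744, 17057093, 
    17728, 16777285, 88428885, 87364, 22107413, 22349140, 22103360] y 0)
/-- the involutions -/
def invM (y : Fin 63) : Matrix (Fin 3) (Fin 3) F9 := mat (List.getD
    [6732947809, 5713733729, 16908544, 4985034064, 2589017729, 1435576609, 1721838113, 1082130434, 
    6749704849, 2505148737, 5544973904, 1519457809, 4732311184, 2774604049, 1705068929, 8589942816, 
    2841740609, 5932863889, 4295098370, 4934691488, 2151677954, 1502692737, 8590000130, 4917909904, 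
    6614509216, 5780821137, 5983201441, 269484034, 7002427729, 4715537824, 67241984, 8589938704, 6597748064, 
    6850372769, 6783277137, 2791393921, 134349824, 8590065665, 2572231969, 1772164369, 4648446304, 
    6547397264, 8589951104, 7119873121, 538968066, 8589967424, 5949661793, 5461076384, 33686016, 5001815648, 
    4665219664, 5477870176, 2858493473, 6530636112, 5680173649, 1452378689, 2521897489, 5663383969, 
    5528180112, 6050321489, 7019192993, 1788970561, 7052744849] y 0)
/-- the action of the root elements on the long root vectors -/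
def act (r : Fin 12) (y : Fin 63) : Fin 63 := Fin.ofNat 63 (Tab.d8 (List.getD
    [
    0x353330242b263822363e203d1d163c11291a253a232e281f392c3b2a3721342710320f1b2d0b0e1231151314172f1e1c180a0c190d05040302090807060001, 
    0x3c1f3e24191d362538302027261e352f1412220b2a131b3332373b232c21343d31390528173a081a10152e292d11160904030c2b070f180a011c0e0d000602, 
    0x333527241e223626383d343e25191f2f0f181d10231c283c37323b2a392120303a2c291b0e312d040b15090508112b2e1a020c16061412010a1317000d0703, 
    0x301f35201c393622383c242732143e231e0d250f11102833262c342f37213b3d2e1d3a1b0a05060713153116032a292b022d0c091a0b0117181900120e0804, 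
    0x322226342e301b33281d3b373e0f392f3a1a1f29232b36253c27202a3d21242c093516382d1404121c15190b1711053108030c13071e0e0a0610180d020100, 
    0x3d3e2723182636223833113532171f200d1e2c0e240a283c39252a3b37152f302d1d061b10043a311221070316341a022b2e0c0829010b141c0019130f0905, 
    0x312b1e38271c3b1424101b190f3e162f2518133d2322203a092e362a290c280b3c05393404332d0e3015372c08113532170d211f0726120a011d1a03020600, 
    0x2f2024302e3715392111333432163b3e3a1c2529272b282a222c3c1f26363d23061d2d1b0f040d12313803071735021a0a180c080e090b131e051914100100, 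
    0x371f251826392d3e12101a0f1914162f1e38290b0c2c0e093a3c08211323173d2e1d1c0434323b20301531223611353328032a2b0127240607051b0d020a00, 
    0x3b23273e1e1631141710341a32381c0d20180c2a2b0a253c12280e3d07132e063a1d301b33042d36390337212611350f242f2c01290809221f051915020b00, 
    0x2d1e29182315373822100f1a32140d1c1f3e25240e3c0c0a212c2b3a3626062e3d1d2f1b33193b0703393112130235342a30280827010b1720050416110900, 
    0x38222431171c3e2d1e350f1a1b3b161512370b290a2b090e20083c073d062613361d39323304143a302f181f2e1110342703012c2a2825232105190d020c00] r 0) y)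
/-- the matrices attached to the root elements -/
def imgM (r : Fin 12) : Matrix (Fin 3) (Fin 3) F9 := mat (List.getD
    [4732311184, 1502692737, 19672630406, 18409089376, 36600169800, 269484034, 5932863889, 36600063392, 
    35841419432, 23765272645, 4715537824, 6732947809] r 0)
/-- the field automorphisms attached to the root elements -/
def imgJ (r : Fin 12) : ℕ := List.getD [0, 0, 1, 1, 1, 0, 0, 1, 1, 1, 0, 0] r 0
/-- a basis -/
def bas : chevG2.Idx → Fin 63 := Sum.elim ![0, 1] ![2, 3, 4, 5, 6, 7, 8, 9, 12, 14, 15, 16]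
/-- the inverse of the basis matrix -/
def inv : Matrix chevG2.Idx chevG2.Idx (ZMod 2) :=
  Matrix.of fun i j => unp2 2 2 ((Sum.elim ![88425793, 283973]
    ![4526148, 4352, 5248000, 20987904, 5505088, 5509376, 1024, 278532, 5509137, 5509120, 4, 4456448] : chevG2.Idx → ℕ) i) j

theorem ok1 : ∀ y, Ok (invM y) := by decide +kernel
theorem ok2 : ∀ r, Ok (imgM r) := by decide +kernel
/-- the conjugation automorphism -/
def sig : MulAut (SU 3 F9 3) := Unit.suCongr starRingAut 3 3
theorem h1 : ∀ r y, chevG2.xMat (ZMod 2) r 1 *ᵥ vec y = vec (act r y) := by decide +kernel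
theorem h2 : ∀ r y, su _ (ok2 r) * sig^[imgJ r] (su _ (ok1 y)) = su _ (ok1 (act r y)) * su _ (ok2 r) := by
  decide +kernel
theorem h3 : Function.Injective fun y => su _ (ok1 y) := by decide +kernel
theorem h4 : (Matrix.of fun i j => vec (bas j) i) * inv = 1 := by decide +kernel
theorem h5 : sig ^ 2 = 1 := by
  exact MulEquiv.ext fun g => Subtype.ext (Subtype.ext (Matrix.ext fun i j => star_star (g.1.1 i j)))


/-- G₂(2)′ ≅ PSU₃(3). -/
theorem result {F K : Type*} [Field F] [Fintype F] [Field K] [Fintype K] (hF : Fintype.card F = 2) (hK : Fintype.card K = 9) :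
    Nonempty (↥(commutator ↥(Cfsg.Lie.chevG2.group F)) ≃* Cfsg.PSU 3 K 3) := by
  obtain ⟨e⟩ := nonempty_groupCongr (D := chevG2) (ZMod.ringEquivOfPrime F Nat.prime_two hF).symm
  have h9 : Fintype.card F9 = 3 ^ 2 := card_F9
  have hq := Unit.fq_frobStar h9
  letI := Unit.frobStar h9
  have hc := hq.card_SU (n := 3) (by norm_num)
  obtain ⟨e'⟩ := nonempty_equiv_of_pairs (SemidirectProduct.inl_injective.comp h3) bas inv h4 (chevG2.group (ZMod 2))
    (group_two_le fun r g hg => mem_pairG_cycExt h3 sig (act r) _ (imgJ r) (hg ▸ h1 r) (h2 r)) (by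
      refine (card_cycExt_le (k := 2) two_pos h5).trans ?_
      rw [Cfsg.Agent.S1059.result (ZMod.card 2)]
      norm_num [Finset.prod_range_succ] at hc ⊢
      omega)
  obtain ⟨e''⟩ := commutator_cycExt (hq.commutator_SU (n := 3) le_rfl (by norm_num)) sig
  have hz : Subgroup.center (SU 3 F9 3) = ⊥ :=
    Subgroup.eq_bot_of_card_eq _ ((hq.card_center_SU (n := 3) (by norm_num)).trans (by norm_num))
  exact ⟨(commutatorCongr (e.trans e')).trans (e''.trans ((quotCenterOfEqBot hz).symm.trans
    (quotCenterCongr (Unit.suCongr (FiniteField.ringEquivOfCardEq (card_F9.trans hK.symm)) 3 3))))⟩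

end Cfsg.Agent.S1057
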