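import Cfsg.Statements.S0244
import Mathlib

set_option autoImplicit false
open Cfsg

namespace Cfsg.Agent.S0244

/-- Sp_2 = SL_2: a matrix on Fin 1 ⊕ Fin 1 lies in Mathlib's symplectic group iff its determinant is 1. -/
theorem result {R : Type*} [CommRing R] (A : Matrix (Fin 1 ⊕ Fin 1) (Fin 1 ⊕ Fin 1) R) : A ∈ Matrix.symplecticGroup (Fin 1) R ↔ A.det = 1 := by
  refine ⟨SymplecticGroup.det_eq_one, fun h => ?_⟩
  rw [← Matrix.fromBlocks_toBlocks A, SymplecticGroup.fromBlocks_mem_iff]
  have e : A.det = A (.inl 0) (.inl 0) * A (.inr 0) (.inr 0) - A (.inl 0) (.inr 0) * A (.inr 0) (.inl 0) := by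
    rw [← Matrix.det_submatrix_equiv_self (finSumFinEquiv (m := 1) (n := 1)).symm, Matrix.det_fin_two]
    rfl
  refine ⟨?_, ?_, ?_⟩
  · ext i j
    obtain rfl : i = 0 := Subsingleton.elim _ _
    obtain rfl : j = 0 := Subsingleton.elim _ _
    simp [Matrix.mul_apply, mul_comm]
  · ext i j
    obtain rfl : i = 0 := Subsingleton.elim _ _
    obtain rfl : j = 0 := Subsingleton.elim _ _
    simp [Matrix.mul_apply, mul_comm]
  · ext i j
    obtain rfl : i = 0 := Subsingleton.elim _ _
    obtain rfl : j = 0 := Subsingleton.elim _ _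
    rw [h] at e
    simp only [Matrix.mul_apply, Matrix.sub_apply, Matrix.transpose_apply, Fin.sum_univ_one,
      Matrix.one_apply_eq]
    change A (.inl 0) (.inl 0) * A (.inr 0) (.inr 0) - A (.inr 0) (.inl 0) * A (.inl 0) (.inr 0) = 1
    linear_combination -e

end Cfsg.Agent.S0244
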