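import Cfsg.Statements.S0250
import Cfsg.Agent.Lin.Transport

set_option autoImplicit false
open Cfsg

namespace Cfsg.Agent.S0250

/-- SL_2(2) is isomorphic to S_3. -/
theorem result {F : Type*} [Field F] [Fintype F] (hF : Fintype.card F = 2) : Nonempty (Matrix.SpecialLinearGroup (Fin 2) F ≃* Equiv.Perm (Fin 3)) := by
  obtain ⟨f, hf⟩ := Cfsg.Agent.Lin.exists_psl2_perm (F := F) (n := 3) (by rw [hF])
  have hc := Cfsg.Agent.Lin.card_center_SL_fin hF 2 (by norm_num)
  have hc' : Subgroup.center (Matrix.SpecialLinearGroup (Fin 2) F) = ⊥ :=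
    Subgroup.eq_bot_of_card_eq _ (by rw [hc]; norm_num)
  have h1 := Cfsg.Agent.Lin.card_PSL2 hF
  refine ⟨(Cfsg.Agent.Lin.quotCenterOfEqBot hc').symm.trans (MulEquiv.ofBijective f ?_)⟩
  refine hf.bijective_of_nat_card_le ?_
  rw [Nat.card_perm]
  generalize Nat.card (Matrix.ProjectiveSpecialLinearGroup (Fin 2) F) = N at h1 ⊢
  norm_num at h1
  simp [h1, Nat.factorial]

end Cfsg.Agent.S0250
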