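import Cfsg.Statements.S0252
import Cfsg.Agent.Lin.Transport

set_option autoImplicit false
open Cfsg

namespace Cfsg.Agent.S0252

/-- PSL_2(4) is isomorphic to A_5. -/
theorem result {F : Type*} [Field F] [Fintype F] (hF : Fintype.card F = 4) : Nonempty (Matrix.ProjectiveSpecialLinearGroup (Fin 2) F ≃* alternatingGroup (Fin 5)) := by
  obtain ⟨f, hf⟩ := Cfsg.Agent.Lin.exists_psl2_perm (F := F) (n := 5) (by rw [hF])
  have h1 := Cfsg.Agent.Lin.card_PSL2 hF
  refine Cfsg.Agent.Lin.nonempty_equiv_alternating_of_injective f hf ?_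
  generalize Nat.card (Matrix.ProjectiveSpecialLinearGroup (Fin 2) F) = N at h1 ⊢
  norm_num at h1
  simp only [Fintype.card_fin, Nat.factorial]
  omega

end Cfsg.Agent.S0252
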