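import Cfsg.Statements.S0253
import Cfsg.Agent.Lin.SmallIso

set_option autoImplicit false
open Cfsg

namespace Cfsg.Agent.S0253

/-- PSL_2(5) is isomorphic to A_5. -/
theorem result {F : Type*} [Field F] [Fintype F] (hF : Fintype.card F = 5) : Nonempty (Matrix.ProjectiveSpecialLinearGroup (Fin 2) F ≃* alternatingGroup (Fin 5)) := by
  obtain ⟨e⟩ := Cfsg.Agent.Lin.nonempty_pslCongr (ι := Fin 2) (F := F) (K := ZMod 5) (by rw [hF, ZMod.card])
  obtain ⟨f⟩ := Cfsg.Agent.Lin.psl2_five_equiv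
  exact ⟨e.trans f⟩

end Cfsg.Agent.S0253
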