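import Cfsg.Statements.S0255
import Cfsg.Agent.Lin.SmallIso2

set_option autoImplicit false
open Cfsg

namespace Cfsg.Agent.S0255

/-- PSL_2(7) is isomorphic to PSL_3(2). -/
theorem result {F K : Type*} [Field F] [Fintype F] [Field K] [Fintype K] (hF : Fintype.card F = 7) (hK : Fintype.card K = 2) : Nonempty (Matrix.ProjectiveSpecialLinearGroup (Fin 2) F ≃* Matrix.ProjectiveSpecialLinearGroup (Fin 3) K) := by
  obtain ⟨e⟩ := Cfsg.Agent.Lin.nonempty_pslCongr (ι := Fin 2) (F := F) (K := ZMod 7) (by rw [hF, ZMod.card])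
  obtain ⟨e'⟩ := Cfsg.Agent.Lin.nonempty_slCongr (ι := Fin 3) (F := ZMod 2) (K := K) (by rw [hK, ZMod.card])
  obtain ⟨f⟩ := Cfsg.Agent.Lin.psl2_seven_equiv
  exact ⟨(e.trans f).trans (e'.trans (Cfsg.Agent.Lin.quotCenterOfEqBot
    (Cfsg.Agent.Lin.center_SL_eq_bot_of_card_two hK)).symm)⟩

end Cfsg.Agent.S0255
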