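import Cfsg.Statements.S0257
import Cfsg.Agent.Lin.SL2Sub

set_option autoImplicit false
open Cfsg

namespace Cfsg.Agent.S0257

open Matrix in
theorem zmod3 : ∃ Q : Subgroup (SpecialLinearGroup (Fin 2) (ZMod 3)),
    Q.Normal ∧ Nonempty (Q ≃* QuaternionGroup 2) := by
  let c : SpecialLinearGroup (Fin 2) (ZMod 3) := Lin.sl2 0 (-1) 1 0 (by decide)
  let x : SpecialLinearGroup (Fin 2) (ZMod 3) := Lin.sl2 1 1 1 (-1) (by decide)
  let f := Lin.quatHom 2 c x (by decide) (by decide) (by decide)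
  have hf : Function.Injective f := by decide +kernel
  have hn : ∀ (y : QuaternionGroup 2) (g : SpecialLinearGroup (Fin 2) (ZMod 3)),
      ∃ z, f z * g = g * f y := by decide +kernel
  refine ⟨f.range, ⟨?_⟩, ⟨(MonoidHom.ofInjective hf).symm⟩⟩
  rintro _ ⟨y, rfl⟩ g
  obtain ⟨z, hz⟩ := hn y g
  exact ⟨z, by rw [← hz]; simp⟩

/-- SL_2(3) has a normal subgroup of index 3 isomorphic to the quaternion group of order 8, and its centre has order 2. -/
theorem result {F : Type*} [Field F] [Fintype F] (hF : Fintype.card F = 3) : (∃ Q : Subgroup (Matrix.SpecialLinearGroup (Fin 2) F), Q.Normal ∧ Q.index = 3 ∧ Nonempty (Q ≃* QuaternionGroup 2)) ∧ Nat.card (Subgroup.center (Matrix.SpecialLinearGroup (Fin 2) F)) = 2 := by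
  refine ⟨?_, by rw [Lin.card_center_SL_fin hF 2 (by norm_num)]; norm_num⟩
  obtain ⟨Q, hQ, ⟨e⟩⟩ := zmod3
  obtain ⟨φ⟩ := Lin.nonempty_slCongr (ι := Fin 2) (F := ZMod 3) (K := F) (by rw [hF, ZMod.card])
  have e' := (φ.subgroupMap Q).symm.trans e
  refine ⟨Q.map φ.toMonoidHom, hQ.map _ φ.surjective, ?_, ⟨e'⟩⟩
  have h1 := Subgroup.card_mul_index (Q.map φ.toMonoidHom)
  erw [Nat.card_congr e'.toEquiv] at h1
  rw [Lin.card_SL2 hF, Nat.card_eq_fintype_card, QuaternionGroup.card] at h1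
  omega

end Cfsg.Agent.S0257
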