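import Cfsg.Statements.S0261
import Cfsg.Agent.Lin.SL2Sub

set_option autoImplicit false
open Cfsg

namespace Cfsg.Agent.S0261

/-- For q odd, the Sylow 2-subgroups of SL_2(q) are generalised quaternion. -/
theorem result {F : Type*} [Field F] [Fintype F] (hF : Odd (Fintype.card F)) (P : Sylow 2 (Matrix.SpecialLinearGroup (Fin 2) F)) : ∃ k : ℕ, 1 ≤ k ∧ Nonempty ((P : Subgroup (Matrix.SpecialLinearGroup (Fin 2) F)) ≃* QuaternionGroup (2 ^ k)) := by
  obtain ⟨p, hp⟩ := CharP.exists F
  have : Fact p.Prime := ⟨CharP.char_is_prime F p⟩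
  have hp2 : p ≠ 2 := by
    rintro rfl
    have := FiniteField.even_card_iff_char_two.1 (ringChar.eq F 2)
    obtain ⟨k, hk⟩ := hF
    omega
  obtain ⟨f, hf⟩ := Lin.exists_quaternion_hom (F := F) p hp2
  exact Lin.quaternion_of_isPGroup p hp2 P.isPGroup' (Subgroup.subtype _) Subtype.val_injective
    (Lin.sylow_not_comm f hf P)

end Cfsg.Agent.S0261
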