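import Cfsg.Statements.S0266
import Cfsg.Agent.Lin.GL2

set_option autoImplicit false
open scoped MatrixGroups
open Cfsg

namespace Cfsg.Agent.S0266

/-- PGL_2(F) is sharply 3-transitive on the projective line: it is 3-transitive and the stabiliser of three distinct points is trivial. -/
theorem result {F : Type*} [Field F] : MulAction.IsMultiplyPretransitive (Matrix.ProjGenLinGroup (Fin 2) F) (Projectivization F (Fin 2 → F)) 3 ∧ ∀ (g : Matrix.ProjGenLinGroup (Fin 2) F) (a b c : Projectivization F (Fin 2 → F)), a ≠ b → a ≠ c → b ≠ c → g • a = a → g • b = b → g • c = c → g = 1 := by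
  have key : ∀ (g : Matrix.GeneralLinearGroup (Fin 2) F) (x : Projectivization F (Fin 2 → F)),
      Matrix.ProjGenLinGroup.mk g • x = g • x := fun g x => by
    induction x using Projectivization.ind with | _ v hv => rfl
  constructor
  · refine Cfsg.Agent.Lin.isMultiplyPretransitive_three_of_frame fun a b c hab hac hbc => ?_
    obtain ⟨g, hg⟩ := Cfsg.Agent.Lin.exists_frame hab hac hbc
    exact ⟨Matrix.ProjGenLinGroup.mk g, by simpa only [key] using hg⟩
  · intro g a b c hab hac hbc ha hb hc
    induction g using Matrix.ProjGenLinGroup.induction_on with | mk g => ?_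
    rw [key] at ha hb hc
    exact Matrix.ProjGenLinGroup.mk_eq_one.2
      (Cfsg.Agent.Lin.mem_center_of_fix_three hab hac hbc ha hb hc)

end Cfsg.Agent.S0266
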