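import Cfsg.Statements.S0267
import Cfsg.Agent.Lin.GL2

set_option autoImplicit false
open Cfsg

namespace Cfsg.Agent.S0267

/-- SL_2(q) is 3-transitive on the q+1 points of the projective line if and only if q is even. -/
theorem result {F : Type*} [Field F] [Fintype F] : MulAction.IsMultiplyPretransitive (Matrix.SpecialLinearGroup (Fin 2) F) (Projectivization F (Fin 2 → F)) 3 ↔ ringChar F = 2 := by
  constructor
  · intro h
    by_contra hc
    obtain ⟨c, hc⟩ := FiniteField.exists_nonsquare hc
    have hc0 : c ≠ 0 := by rintro rfl; exact hc ⟨0, by simp⟩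
    let x : ∀ d : F, d ≠ 0 → (Fin 3 ↪ Projectivization F (Fin 2 → F)) := fun d hd =>
      ⟨![Lin.pt0 F, Lin.pt1 F, Lin.ptc d], by
        have h1 := Lin.pt0_ne_pt1 (F := F)
        have h2 := Lin.pt0_ne_ptc hd
        have h3 := Lin.pt1_ne_ptc d
        intro i j hij
        fin_cases i <;> fin_cases j <;> simp_all [eq_comm]⟩
    obtain ⟨g, hg⟩ := MulAction.isMultiplyPretransitive_iff.1 h (x 1 one_ne_zero) (x c hc0)
    have h0 : g • Lin.pt0 F = Lin.pt0 F := congrArg (fun y => y 0) hg
    have h1 : g • Lin.pt1 F = Lin.pt1 F := congrArg (fun y => y 1) hg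
    have h2 : g • Lin.ptc (1 : F) = Lin.ptc c := congrArg (fun y => y 2) hg
    rw [← Lin.toGL_smul_proj, Lin.smul_pt0_iff] at h0
    rw [← Lin.toGL_smul_proj, Lin.smul_pt1_iff] at h1
    rw [Lin.ptc, Lin.ptc, Projectivization.smul_mk, Projectivization.mk_eq_mk_iff'] at h2
    obtain ⟨a, ha⟩ := h2
    have h3 := congrFun ha 0
    have h4 := congrFun ha 1
    have hdet := g.det_coe
    rw [Matrix.det_fin_two] at hdet
    change g 1 0 = 0 at h0
    change g 0 1 = 0 at h1
    simp [Matrix.SpecialLinearGroup.smul_def, Matrix.mulVec, dotProduct, Fin.sum_univ_two, h0, h1] at h3 h4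
    rw [h0, h1] at hdet
    exact hc ⟨g 1 1, by linear_combination (g 1 1) * h4 - c * hdet - c * g 1 1 * h3⟩
  · intro hc
    refine Cfsg.Agent.Lin.isMultiplyPretransitive_three_of_frame fun a b c hab hac hbc => ?_
    obtain ⟨g, hg⟩ := Cfsg.Agent.Lin.exists_frame hab hac hbc
    obtain ⟨r, hr⟩ := FiniteField.isSquare_of_char_two hc (g.1.det)
    have hr0 : r ≠ 0 := by
      rintro rfl
      exact g.det_ne_zero (by simpa using hr)
    let s : Matrix.SpecialLinearGroup (Fin 2) F :=
      ⟨r⁻¹ • g.1, by rw [Matrix.det_smul, hr]; simp; field_simp⟩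
    have key : ∀ x : Projectivization F (Fin 2 → F), s • x = g • x := fun x => by
      induction x using Projectivization.ind with | _ v hv => ?_
      rw [Projectivization.smul_mk, Projectivization.smul_mk, Projectivization.mk_eq_mk_iff']
      exact ⟨r⁻¹, by
        rw [Matrix.SpecialLinearGroup.smul_def, Lin.gl_smul_def]; simp [s, Matrix.smul_mulVec]⟩
    exact ⟨s, by simpa only [key] using hg⟩

end Cfsg.Agent.S0267
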