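import Cfsg.Statements.S0268
import Mathlib

set_option autoImplicit false
open Cfsg

namespace Cfsg.Agent.S0268

/-- For q odd, -1 is the unique involution of SL_2(q). -/
theorem result {F : Type*} [Field F] [Fintype F] (hF : Odd (Fintype.card F)) (g : Matrix.SpecialLinearGroup (Fin 2) F) (h1 : g ≠ 1) (h2 : g * g = 1) : (g : Matrix (Fin 2) (Fin 2) F) = -1 := by
  have hdet := g.det_coe
  rw [Matrix.det_fin_two] at hdet
  have e := congrArg (fun x : Matrix.SpecialLinearGroup (Fin 2) F => (x : Matrix (Fin 2) (Fin 2) F)) h2
  simp only [Matrix.SpecialLinearGroup.coe_mul, Matrix.SpecialLinearGroup.coe_one] at e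
  have e00 := congrFun (congrFun e 0) 0
  have e01 := congrFun (congrFun e 0) 1
  have e10 := congrFun (congrFun e 1) 0
  have e11 := congrFun (congrFun e 1) 1
  simp [Matrix.mul_apply, Fin.sum_univ_two] at e00 e01 e10 e11
  have h2ne : (2 : F) ≠ 0 := by
    intro h
    have hc : ringChar F = 2 := by
      have := (ringChar.spec F 2).1 (by exact_mod_cast h)
      rcases (Nat.dvd_prime Nat.prime_two).1 this with h1 | h1
      · exact absurd h1 (CharP.ringChar_ne_one)
      · exact h1
    have := FiniteField.even_card_iff_char_two.1 hc
    obtain ⟨k, hk⟩ := hF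
    omega
  set a := g 0 0 with ha
  set b := g 0 1 with hb
  set c := g 1 0 with hc
  set d := g 1 1 with hd
  have htr : a + d ≠ 0 := by
    intro h
    have hd' : d = -a := by linear_combination h
    rw [hd'] at hdet
    apply h2ne
    linear_combination -e00 - hdet
  have hb0 : b = 0 := by
    have : b * (a + d) = 0 := by linear_combination e01
    exact (mul_eq_zero.1 this).resolve_right htr
  have hc0 : c = 0 := by
    have : c * (a + d) = 0 := by linear_combination e10
    exact (mul_eq_zero.1 this).resolve_right htr
  rw [hb0] at e00 hdet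
  have had : a = d := by
    rw [zero_mul] at e00 hdet
    linear_combination d * e00 - a * hdet
  have : (a - 1) * (a + 1) = 0 := by linear_combination e00
  rcases mul_eq_zero.1 this with h | h
  · exfalso
    apply h1
    ext i j
    have ha1 : a = 1 := by linear_combination h
    fin_cases i <;> fin_cases j <;> simp [← ha, ← hb, ← hc, ← hd, hb0, hc0, ← had, ha1]
  · ext i j
    have ha1 : a = -1 := by linear_combination h
    fin_cases i <;> fin_cases j <;> simp [← ha, ← hb, ← hc, ← hd, hb0, hc0, ← had, ha1]

end Cfsg.Agent.S0268
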