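import Cfsg.Statements.S0273
import Cfsg.Agent.Lin.GL2

set_option autoImplicit false
open Cfsg

namespace Cfsg.Agent.S0273

/-- In GL_2(q) the centraliser of a non-trivial element of a Sylow p-subgroup (p the characteristic) has order q (q-1): the Sylow subgroup times the scalars. -/
theorem result {F : Type*} [Field F] [Fintype F] {q : ℕ} (hF : Fintype.card F = q) (p : ℕ) [Fact p.Prime] [CharP F p] (P : Sylow p (Matrix.GeneralLinearGroup (Fin 2) F)) (a : Matrix.GeneralLinearGroup (Fin 2) F) (ha : a ∈ P) (ha1 : a ≠ 1) : Nat.card (Subgroup.centralizer ({a} : Set (Matrix.GeneralLinearGroup (Fin 2) F))) = q * (q - 1) := by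
  obtain ⟨x, hx⟩ := Cfsg.Agent.Lin.exists_UG_eq_sylow p P
  obtain ⟨g, rfl⟩ := Lin.exists_gl_smul_pt0 x
  have ha' : a ∈ Lin.UG (g • Lin.pt0 F) := hx ▸ ha
  have hb := Lin.conj_mem_UG ha' g⁻¹
  rw [inv_smul_smul, inv_inv] at hb
  set b := g⁻¹ * a * g with hbdef
  have hb1 : b ≠ 1 := fun h => ha1 (by
    have : a = g * b * g⁻¹ := by rw [hbdef]; group
    rw [this, h]; simp)
  have e : Subgroup.centralizer ({a} : Set _) ≃ Subgroup.centralizer ({b} : Set _) :=
    { toFun := fun y => ⟨g⁻¹ * y * g, by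
        have := y.2
        rw [Subgroup.mem_centralizer_singleton_iff] at this ⊢
        calc g⁻¹ * y * g * b = g⁻¹ * (y * a) * g := by rw [hbdef]; group
          _ = _ := by rw [this, hbdef]; group⟩
      invFun := fun y => ⟨g * y * g⁻¹, by
        have := y.2
        rw [Subgroup.mem_centralizer_singleton_iff] at this ⊢
        generalize (y : Matrix.GeneralLinearGroup (Fin 2) F) = z at this ⊢
        calc g * z * g⁻¹ * a = g * (z * b) * g⁻¹ := by rw [hbdef]; group
          _ = _ := by rw [this, hbdef]; group⟩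
      left_inv := fun y => Subtype.ext (by group)
      right_inv := fun y => Subtype.ext (by group) }
  rw [Nat.card_congr e]
  obtain ⟨h1, h2, h3⟩ := Lin.mem_UG_pt0.1 hb
  have h4 : b 0 1 ≠ 0 := fun h4 => hb1 (by
    ext i j
    fin_cases i <;> fin_cases j <;> simp [h1, h2, h3, h4])
  have key : ∀ y : Matrix.GeneralLinearGroup (Fin 2) F,
      y ∈ Subgroup.centralizer ({b} : Set _) ↔ y 1 0 = 0 ∧ y 0 0 = y 1 1 := fun y => by
    rw [Subgroup.mem_centralizer_singleton_iff, Matrix.GeneralLinearGroup.ext_iff]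
    simp only [Fin.forall_fin_two, Units.val_mul, Matrix.mul_apply, Fin.sum_univ_two, h1, h2, h3]
    constructor
    · rintro ⟨⟨e1, e2⟩, -⟩
      exact ⟨mul_left_cancel₀ h4 (by linear_combination -e1),
        mul_left_cancel₀ h4 (by linear_combination e2)⟩
    · rintro ⟨e1, e2⟩
      rw [e1, e2]
      refine ⟨⟨by ring, by ring⟩, by ring, by ring⟩
  have e2 : Subgroup.centralizer ({b} : Set _) ≃ F × Fˣ :=
    { toFun := fun y => (y.1 0 1, Units.mk0 (y.1 1 1) (fun h => y.1.det_ne_zero (by
        rw [Matrix.det_fin_two, ((key y.1).1 y.2).1, h]; simp)))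
      invFun := fun z => ⟨Matrix.GeneralLinearGroup.mkOfDetNeZero !![(z.2 : F), z.1; 0, z.2] (by simp),
        (key _).2 (by simp)⟩
      left_inv := fun y => by
        obtain ⟨e1, e2⟩ := (key y.1).1 y.2
        ext i j
        fin_cases i <;> fin_cases j <;> simp [e1, e2]
      right_inv := fun z => by ext <;> simp }
  rw [Nat.card_congr e2, Nat.card_prod, Nat.card_units, Nat.card_eq_fintype_card, hF]

end Cfsg.Agent.S0273
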