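import Cfsg.Statements.S0275
import Cfsg.Agent.Lin.Dickson

set_option autoImplicit false
open Cfsg

namespace Cfsg.Agent.S0275

/-- If p is odd and H is a subgroup of SL_2(q), q a power of p, with more than one Sylow p-subgroup, then the Sylow 2-subgroups of H are generalised quaternion. -/
theorem result {F : Type*} [Field F] [Fintype F] (p : ℕ) [Fact p.Prime] [CharP F p] (hp : p ≠ 2) (H : Subgroup (Matrix.SpecialLinearGroup (Fin 2) F)) (hH : 1 < Nat.card (Sylow p H)) (S : Sylow 2 H) : ∃ k : ℕ, 1 ≤ k ∧ Nonempty ((S : Subgroup H) ≃* QuaternionGroup (2 ^ k)) := by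
  obtain ⟨ψ, h1, h2⟩ := Cfsg.Agent.Lin.dickson_of_sylow p hp H hH
  obtain ⟨f, x, y, hxy⟩ := Cfsg.Agent.Lin.exists_quaternion_hom (F := ZMod p) p hp
  have hS := Cfsg.Agent.Lin.sylow_not_comm ((ψ.codRestrict H fun g => h2 ⟨g, rfl⟩).comp f)
    ⟨x, y, fun h => hxy (h1 (by rw [map_mul, map_mul]; exact congrArg Subtype.val h))⟩ S
  exact Cfsg.Agent.Lin.quaternion_of_isPGroup p hp S.isPGroup'
    (H.subtype.comp (S : Subgroup H).subtype)
    (H.subtype_injective.comp (S : Subgroup H).subtype_injective) hS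

end Cfsg.Agent.S0275
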