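import Cfsg.Statements.S0276
import Cfsg.Agent.Lin.SL2Sub

set_option autoImplicit false
open Cfsg

namespace Cfsg.Agent.S0276

/-- For q = 3 or 5 mod 8 the Sylow 2-subgroups of PSL_2(q) are elementary abelian of order 4. -/
theorem result {F : Type*} [Field F] [Fintype F] {q : ℕ} (hF : Fintype.card F = q) (hq : q % 8 = 3 ∨ q % 8 = 5) (P : Sylow 2 (Matrix.ProjectiveSpecialLinearGroup (Fin 2) F)) : IsKleinFour (P : Subgroup (Matrix.ProjectiveSpecialLinearGroup (Fin 2) F)) := by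
  obtain ⟨p, hp⟩ := CharP.exists F
  have : Fact p.Prime := ⟨CharP.char_is_prime F p⟩
  have hp2 : p ≠ 2 := by
    rintro rfl
    have := FiniteField.even_card_iff_char_two.1 (ringChar.eq F 2)
    omega
  have h2 : (2 : F) ≠ 0 := by
    intro h
    have := (CharP.cast_eq_zero_iff F p 2).1 (by exact_mod_cast h)
    exact hp2 ((Nat.prime_dvd_prime_iff_eq Fact.out Nat.prime_two).1 this)
  obtain ⟨m, hm, hm2⟩ : ∃ m, q * (q ^ 2 - 1) = 2 ^ 3 * m ∧ ¬ 2 ∣ m := by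
    rcases hq with hq | hq
    · obtain ⟨t, rfl⟩ : ∃ t, q = 8 * t + 3 := ⟨q / 8, by omega⟩
      refine ⟨(8 * t + 3) * (2 * (4 * t ^ 2 + 3 * t) + 1), ?_, ?_⟩
      · rw [show (8 * t + 3) ^ 2 = 8 * (2 * (4 * t ^ 2 + 3 * t) + 1) + 1 by ring, Nat.add_sub_cancel]
        ring
      · rw [Nat.prime_two.dvd_mul]; omega
    · obtain ⟨t, rfl⟩ : ∃ t, q = 8 * t + 5 := ⟨q / 8, by omega⟩
      refine ⟨(8 * t + 5) * (2 * (4 * t ^ 2 + 5 * t + 1) + 1), ?_, ?_⟩
      · rw [show (8 * t + 5) ^ 2 = 8 * (2 * (4 * t ^ 2 + 5 * t + 1) + 1) + 1 by ring, Nat.add_sub_cancel]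
        ring
      · rw [Nat.prime_two.dvd_mul]; omega
  have hc := Lin.card_PSL2 hF
  rw [hm, Nat.gcd_eq_left (by omega : 2 ∣ q - 1)] at hc
  refine ⟨Lin.card_sylow_of_card_eq P (k := 2) (m := m) (by omega) hm2, ?_⟩
  have hP4 : Nat.card P = 2 ^ 2 := Lin.card_sylow_of_card_eq P (k := 2) (m := m) (by omega) hm2
  have : Nontrivial P := Finite.one_lt_card_iff_nontrivial.1 (by rw [hP4]; norm_num)
  obtain ⟨S, rfl⟩ := Sylow.mapSurjective_surjective
    (QuotientGroup.mk'_surjective (Subgroup.center (Matrix.SpecialLinearGroup (Fin 2) F))) 2 P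
  have hS : Nat.card S = 2 ^ 3 := Lin.card_sylow_of_card_eq S (by rw [Lin.card_SL2 hF, hm]) hm2
  obtain ⟨f, hf⟩ := Lin.exists_quaternion_hom (F := F) p hp2
  obtain ⟨k, hk, ⟨e⟩⟩ := Lin.quaternion_of_isPGroup p hp2 S.isPGroup' (Subgroup.subtype _)
    Subtype.val_injective (Lin.sylow_not_comm f hf S)
  have hk1 : k = 1 := by
    have h1 := Nat.card_congr e.toEquiv
    rw [hS, Nat.card_eq_fintype_card, QuaternionGroup.card, show 4 * 2 ^ k = 2 ^ (k + 2) by ring] at h1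
    have := Nat.pow_right_injective (le_refl 2) h1
    omega
  subst hk1
  have h4 : ∀ g : QuaternionGroup (2 ^ 1), g ^ 4 = 1 := by decide
  refine Monoid.exponent_eq_prime_iff Nat.prime_two |>.2 fun g hg => orderOf_eq_prime ?_ hg
  obtain ⟨_, g, hgS, rfl⟩ := g
  refine Subtype.ext ?_
  have h5 : g ^ 4 = 1 := congrArg Subtype.val (e.injective (a₁ := ⟨g, hgS⟩ ^ 4) (a₂ := 1)
    (by rw [map_pow, h4, map_one]))
  change (QuotientGroup.mk' _ g) ^ 2 = 1
  rw [← map_pow, QuotientGroup.mk'_apply, QuotientGroup.eq_one_iff, Subgroup.mem_center_iff]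
  intro y
  rcases Lin.sl2_sq_eq_one h2 (g := g ^ 2) (by rw [← pow_add, h5]) with h | h <;> simp [h]

end Cfsg.Agent.S0276
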