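import Cfsg.Statements.S0281
import Cfsg.Agent.Unit.Order

set_option autoImplicit false
open Cfsg

namespace Cfsg.Agent.S0281

open Matrix

/-- SU_2(q) is isomorphic to SL_2(q). -/
theorem result {F K : Type*} [Field F] [Fintype F] [Field K] [Fintype K] {q : ℕ} (hF : Fintype.card F = q ^ 2) (hK : Fintype.card K = q) : Nonempty (Cfsg.SU 2 F q ≃* Matrix.SpecialLinearGroup (Fin 2) K) := by
  classical
  letI := Unit.frobStar hF
  have hq := Unit.fq_frobStar hF
  obtain ⟨e, f, H⟩ := Unit.exists_HP_std hq (n := 2) le_rfl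
  obtain ⟨δ, hδ0, hδ⟩ := Unit.exists_trace_zero hq.exists_star_ne
  let K0 : Subfield F := RingHom.eqLocusField (starRingEnd F) (RingHom.id F)
  have c0 : Fintype.card K = Fintype.card K0 := by
    rw [hK, ← Nat.card_eq_fintype_card]; exact hq.card_fixed.symm
  let σ : K →+* F := K0.subtype.comp (FiniteField.ringEquivOfCardEq c0).toRingHom
  have hσ : ∀ x, star (σ x) = σ x := fun x => (FiniteField.ringEquivOfCardEq c0 x).2
  let L : (Fin 2 → F) →ₗ[F] (Fin 2 → F) :=
    (LinearMap.proj 0).smulRight e + (LinearMap.proj 1).smulRight (δ • f)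
  have hL : ∀ x y, Unit.std F 2 (L x) (L y) = δ * (x 1 * star (y 0) - x 0 * star (y 1)) :=
    fun x y => by
      simp [L, H.he, H.hf, H.hef, H.hfe, hδ]; ring
  have hi : Function.Injective L := by
    rw [injective_iff_map_eq_zero]
    intro x hx
    have a1 := hL x ![1, 0]
    have a2 := hL x ![0, 1]
    rw [hx] at a1 a2
    ext i; fin_cases i <;> simp_all
  let ψ : SpecialLinearGroup (Fin 2) K →* SU 2 F q :=
    ((hq.su 2).symm.toMonoidHom.comp (Unit.suEquiv (LinearEquiv.ofInjectiveEndo L hi) hL).toMonoidHom).comp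
      ((SpecialLinearGroup.map σ).codRestrict _ fun g x y => by
        have hd := congrArg σ g.det_coe
        rw [det_fin_two] at hd
        simp only [map_sub, map_mul, map_one] at hd
        simp [mulVec, dotProduct, Fin.sum_univ_two, hσ]
        left
        linear_combination (x 1 * star (y 0) - x 0 * star (y 1)) * hd)
  have hψ : Function.Injective ψ := by
    refine ((hq.su 2).symm.injective.comp (Unit.suEquiv _ hL).injective).comp fun g k H => ?_
    ext i j
    exact σ.injective (congrArg (fun x => x.1.1 i j) H)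
  refine ⟨(MulEquiv.ofBijective ψ (hψ.bijective_of_nat_card_le (le_of_eq ?_))).symm⟩
  have h1 := hq.card_SU (n := 2) (by norm_num)
  rw [Lin.card_SL2 hK]
  refine Nat.eq_of_mul_eq_mul_left (Nat.succ_pos q) (h1.trans ?_)
  simp [Finset.prod_range_succ]; ring

end Cfsg.Agent.S0281
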