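import Cfsg.Statements.S0282
import Cfsg.Agent.Unit.Order

set_option autoImplicit false
open Cfsg

namespace Cfsg.Agent.S0282

lemma card_dvd_factorial {G : Type*} [Group G] [Finite G] [IsSimpleGroup G] (H : Subgroup G)
    (hH : H ≠ ⊤) : Nat.card G ∣ H.index.factorial := by
  have h : H.normalCore.index ∣ H.index.factorial := by
    rw [Subgroup.normalCore_eq_ker, Subgroup.index_ker, Subgroup.index_eq_card, ← Nat.card_perm]
    exact Subgroup.card_subgroup_dvd_card (MulAction.toPermHom G (G ⧸ H)).range
  rcases H.normalCore_normal.eq_bot_or_eq_top with h1 | h1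
  · rwa [h1, Subgroup.index_bot] at h
  · exact absurd (top_le_iff.1 (h1 ▸ H.normalCore_le)) hH

lemma isSolvable_of_simple {G : Type*} [Group G] [Finite G] [IsSimpleGroup G]
    (h : Nat.card G ∣ 72) : Group.IsSolvable G := by
  have : Fact (Nat.Prime 3) := ⟨by norm_num⟩
  by_contra hs
  have key : ∀ (p : ℕ) [Fact p.Prime] (P : Sylow p G), (P : Subgroup G) ≠ ⊤ := fun p _ P hP =>
    hs (have : IsPGroup p G := (hP ▸ P.isPGroup').of_equiv Subgroup.topEquiv
      have := this.isNilpotent
      inferInstance)
  obtain ⟨P⟩ : Nonempty (Sylow 3 G) := inferInstance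
  obtain ⟨Q⟩ : Nonempty (Sylow 2 G) := inferInstance
  have q1 := card_dvd_factorial _ (key 2 Q)
  have q2 := Q.not_dvd_index
  have q3 := (Q : Subgroup G).index_dvd_card
  have q4 : (Q : Subgroup G).index ≠ 1 := fun H => key 2 Q (Subgroup.index_eq_one.1 H)
  have p2 := P.not_dvd_index
  have p3 := (P : Subgroup G).index_dvd_card
  have p4 := (P : Subgroup G).index_mul_card
  have n1 := card_sylow_modEq_one 3 G
  have n2 := P.card_dvd_index
  have n3 := P.card_eq_index_normalizer
  by_cases hN : Subgroup.normalizer (P : Set G) = ⊤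
  · rcases (Subgroup.normalizer_eq_top_iff.1 hN).eq_bot_or_eq_top with h1 | h1
    · rw [h1, Subgroup.index_bot] at p2
      have a1 := q3.trans h
      have a2 : ¬ 3 ∣ (Q : Subgroup G).index := fun H => p2 (H.trans q3)
      have a3 := Nat.le_of_dvd (by norm_num) a1
      generalize (Q : Subgroup G).index = k at *
      interval_cases k <;> omega
    · exact key 3 P h1
  · have n4 := card_dvd_factorial _ hN
    have n5 : (Subgroup.normalizer (P : Set G)).index ≠ 1 := fun H => hN (Subgroup.index_eq_one.1 H)
    rw [← n3] at n4 n5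
    have n6 : ¬ 3 ∣ Nat.card (Sylow 3 G) := fun H => p2 (H.trans n2)
    have n7 := (n2.trans p3).trans h
    have n8 : Nat.card (Sylow 3 G) = 4 := by
      have := Nat.le_of_dvd (by norm_num) n7
      generalize Nat.card (Sylow 3 G) = k at *
      unfold Nat.ModEq at n1
      interval_cases k <;> omega
    rw [n8] at n4 n2
    have q5 : (Q : Subgroup G).index = 3 := by
      have h24 := q3.trans n4
      have := Nat.le_of_dvd (by norm_num [Nat.factorial]) h24
      norm_num [Nat.factorial] at h24 this
      generalize (Q : Subgroup G).index = k at *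
      interval_cases k <;> omega
    rw [q5] at q1
    have := (n2.trans p3).trans q1
    norm_num [Nat.factorial] at this

universe u in
lemma isSolvable_of_card_dvd (n : ℕ) : ∀ (G : Type u) [Group G] [Finite G], Nat.card G = n →
    Nat.card G ∣ 72 → Group.IsSolvable G := by
  induction n using Nat.strong_induction_on with
  | _ n ih =>
  intro G _ _ hn h
  by_cases hs : IsSimpleGroup G
  · exact isSolvable_of_simple h
  rcases subsingleton_or_nontrivial G with h1 | h1
  · infer_instance
  obtain ⟨N, hN, h2, h3⟩ : ∃ N : Subgroup G, N.Normal ∧ N ≠ ⊥ ∧ N ≠ ⊤ := by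
    by_contra! hc
    exact hs ⟨fun N hN => or_iff_not_imp_left.2 (hc N hN)⟩
  have a1 := Subgroup.card_eq_card_quotient_mul_card_subgroup N
  have a2 := (Subgroup.one_lt_card_iff_ne_bot N).2 h2
  have a3 := Subgroup.one_lt_index_of_ne_top h3
  rw [Subgroup.index_eq_card] at a3
  exact (Group.isSolvable_iff_subgroup_quotient N).2
    ⟨ih _ (by nlinarith) N rfl ((Subgroup.card_subgroup_dvd_card N).trans h),
      ih _ (by nlinarith) (G ⧸ N) rfl ((Subgroup.card_quotient_dvd_card N).trans h)⟩

/-- PSU_3(2) is a solvable group of order 72. -/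
theorem result {F : Type*} [Field F] [Fintype F] (hF : Fintype.card F = 4) : Nat.card (Cfsg.PSU 3 F 2) = 72 ∧ Group.IsSolvable (Cfsg.PSU 3 F 2) := by
  letI := Unit.frobStar (q := 2) hF
  have h1 := (Unit.fq_frobStar (q := 2) hF).card_PSU (n := 3) (by norm_num)
  have h2 : Nat.card (Cfsg.PSU 3 F 2) = 72 := by
    generalize Nat.card (Cfsg.PSU 3 F 2) = N at h1
    norm_num [Finset.prod_range_succ] at h1
    omega
  exact ⟨h2, isSolvable_of_card_dvd _ _ rfl (by rw [h2])⟩

end Cfsg.Agent.S0282
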