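import Cfsg.Statements.S0292
import Cfsg.Agent.Orth.Index

set_option autoImplicit false
open Cfsg

namespace Cfsg.Agent.S0292

/-- 2 |PΩ_{2m+1}(q)| = q^(m^2) prod_{i=1}^{m} (q^(2i) - 1), for q odd and m at least 3 (type B_m). -/
theorem result {F : Type*} [Field F] [Fintype F] {q : ℕ} (hF : Fintype.card F = q) (hodd : Odd q) (m : ℕ) (hm : 3 ≤ m) : 2 * Nat.card (Cfsg.POmega F (Cfsg.quadFormOdd m F)) = q ^ (m ^ 2) * ∏ i ∈ Finset.range m, (q ^ (2 * (i + 1)) - 1) := by
  subst hF
  have h2 := Orth.two_ne_zero_of_odd hodd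
  have hQ := (Orth.nondeg_sq h2).hsum m
  have h5 : 5 ≤ Module.finrank F ((Fin m → F) × (Fin m → F) × F) := by
    rw [Orth.finrank_hsum_space]; omega
  have h := Orth.card_POmega_mul hQ h5 (Orth.hsum_HP _ ⟨0, by omega⟩)
    (Orth.commutator_hsum_eq_EE (Orth.nondeg_sq h2) (by omega) (by omega))
  rw [if_neg h2, if_neg, Orth.card_OG_odd h2] at h
  · rw [Nat.card_congr (Orth.pomegaEquiv _ (Orth.hsum_oddEquiv m)).toEquiv]
    linarith
  · intro hc
    have := Abelianization.commutator_subset_ker (Orth.dickson hQ h5) hc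
    rw [MonoidHom.mem_ker, Orth.dickson_negOne hQ h5 h2, Orth.finrank_hsum_space,
      Module.finrank_self, pow_succ, pow_mul] at this
    simp at this

end Cfsg.Agent.S0292
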