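import Cfsg.Statements.S0293
import Cfsg.Agent.Orth.Index

set_option autoImplicit false
open Cfsg

namespace Cfsg.Agent.S0293

/-- gcd(4, q^m - 1) |PΩ^+_{2m}(q)| = q^(m(m-1)) (q^m - 1) prod_{i=1}^{m-1} (q^(2i) - 1), m at least 4 (type D_m). -/
theorem result {F : Type*} [Field F] [Fintype F] {q : ℕ} (hF : Fintype.card F = q) (m : ℕ) (hm : 4 ≤ m) : Nat.gcd 4 (q ^ m - 1) * Nat.card (Cfsg.POmega F (Cfsg.quadFormPlus m F)) = q ^ (m * (m - 1)) * (q ^ m - 1) * ∏ i ∈ Finset.range (m - 1), (q ^ (2 * (i + 1)) - 1) := by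
  subst hF
  obtain ⟨m, rfl⟩ := Nat.exists_eq_add_of_le' (show 1 ≤ m by omega)
  have h5 : 5 ≤ Module.finrank F ((Fin (m + 1) → F) × (Fin (m + 1) → F) × Unit) := by
    rw [Orth.finrank_hsum_space]; omega
  have h := Orth.card_POmega_mul (Orth.nondeg_zero.hsum (m + 1)) h5 (Orth.hsum_HP _ ⟨0, by omega⟩)
    (Orth.commutator_hsum_eq_EE Orth.nondeg_zero (by omega) (by omega))
  rw [Orth.card_OG_plus, Orth.negOne_mem_plus (by omega)] at h
  rw [Nat.card_congr (Orth.pomegaEquiv _ (Orth.hsum_plusEquiv (m + 1))).toEquiv, Nat.add_sub_cancel]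
  apply Nat.eq_of_mul_eq_mul_left two_pos
  rw [← mul_assoc, ← mul_assoc, ← mul_assoc, ← h]
  congr 1
  have hq : 1 ≤ Fintype.card F ^ (m + 1) := Nat.one_le_pow _ _ Fintype.card_pos
  split_ifs with h2 h3
  · have := Orth.even_card_of_two_eq_zero h2
    have h4 : Even (Fintype.card F ^ (m + 1)) := (Nat.even_iff.2 this).pow_of_ne_zero (by omega)
    rw [Nat.even_iff] at h4
    rw [Nat.gcd_rec]
    have : (Fintype.card F ^ (m + 1) - 1) % 4 = 1 ∨ (Fintype.card F ^ (m + 1) - 1) % 4 = 3 := by omega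
    rcases this with h | h <;> rw [h] <;> rfl
  · rw [Orth.isSquare_neg_one_pow_iff h2] at h3
    rw [Nat.gcd_rec, show (Fintype.card F ^ (m + 1) - 1) % 4 = 0 by omega]
    rfl
  · rw [Orth.isSquare_neg_one_pow_iff h2] at h3
    have h4 : Odd (Fintype.card F ^ (m + 1)) :=
      (Nat.odd_iff.2 (Orth.odd_card_of_two_ne_zero h2)).pow
    rw [Nat.odd_iff] at h4
    rw [Nat.gcd_rec, show (Fintype.card F ^ (m + 1) - 1) % 4 = 2 by omega]
    rfl

end Cfsg.Agent.S0293
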