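import Cfsg.Statements.S0302
import Cfsg.Agent.Orth.Iso2

set_option autoImplicit false
open Cfsg

namespace Cfsg.Agent.S0302

/-- PΩ^+_6(q) is isomorphic to PSL_4(q). -/
theorem result {F : Type*} [Field F] [Fintype F] : Nonempty (Cfsg.POmega F (Cfsg.quadFormPlus 3 F) ≃* Matrix.ProjectiveSpecialLinearGroup (Fin 4) F) := by
  obtain ⟨e⟩ := Orth.nonempty_POmega_six_plus (F := F)
  exact ⟨(Orth.pomegaEquiv _ (Orth.hsum_plusEquiv 3)).trans e⟩

end Cfsg.Agent.S0302
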