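import Cfsg.Statements.S0305
import Cfsg.Agent.Orth.Std

set_option autoImplicit false
open Cfsg

namespace Cfsg.Agent.S0305

/-- GO^+_2(q) is dihedral of order 2(q-1). -/
theorem result {F : Type*} [Field F] [Fintype F] {q : ℕ} (hF : Fintype.card F = q) : Nonempty (Cfsg.isometryGroup F (Cfsg.quadFormPlus 1 F) ≃* DihedralGroup (q - 1)) := by
  subst hF
  obtain ⟨e⟩ := Orth.nonempty_OG_plane_equiv (Orth.hsum_HP (0 : QuadraticForm F Unit) (0 : Fin 1))
    fun w h1 h2 => by
      rw [Orth.polar_ee] at h1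
      rw [Orth.polar_ff] at h2
      refine Prod.ext (funext fun i => ?_) (Prod.ext (funext fun i => ?_) rfl)
      · rw [Subsingleton.elim i 0]; exact h2
      · rw [Subsingleton.elim i 0]; exact h1
  exact ⟨(Orth.isometryEquiv _ (Orth.hsum_plusEquiv 1)).trans e⟩

end Cfsg.Agent.S0305
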