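import Cfsg.Statements.S0307
import Cfsg.Agent.Lin.GL2

set_option autoImplicit false
open Cfsg

namespace Cfsg.Agent.S0307

/-- PSL_n(q) is normal in PGL_n(q) with cyclic quotient of order gcd(n, q-1): the image of the natural map PSL_n → PGL_n is the kernel of a surjective homomorphism onto the cyclic group of that order. -/
theorem result {F : Type*} [Field F] [Fintype F] {q : ℕ} (hF : Fintype.card F = q) (n : ℕ) (hn : 1 ≤ n) : ∃ g : Matrix.ProjGenLinGroup (Fin n) F →* Multiplicative (ZMod (Nat.gcd n (q - 1))), Function.Surjective g ∧ g.ker = (Matrix.ProjectiveSpecialLinearGroup.toPGL : Matrix.ProjectiveSpecialLinearGroup (Fin n) F →* Matrix.ProjGenLinGroup (Fin n) F).range := by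
  have : Nonempty (Fin n) := ⟨⟨0, hn⟩⟩
  let R : Subgroup Fˣ := (powMonoidHom n : Fˣ →* Fˣ).range
  have hcard : Nat.card (Fˣ ⧸ R) = Nat.gcd n (q - 1) := by
    change R.index = _
    rw [IsCyclic.index_powMonoidHom_range, Nat.card_units, Nat.card_eq_fintype_card, hF, Nat.gcd_comm]
  have hcyc : IsCyclic (Fˣ ⧸ R) := isCyclic_of_surjective _ (QuotientGroup.mk'_surjective R)
  let e : Multiplicative (ZMod (Nat.gcd n (q - 1))) ≃* Fˣ ⧸ R := hcard ▸ zmodCyclicMulEquiv hcyc
  let φ : Matrix.GeneralLinearGroup (Fin n) F →* Fˣ ⧸ R :=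
    (QuotientGroup.mk' R).comp Matrix.GeneralLinearGroup.det
  have hφ : φ.comp (Matrix.GeneralLinearGroup.scalar (Fin n)) = 1 := by
    ext u
    simp only [φ, MonoidHom.comp_apply, Matrix.GeneralLinearGroup.det_scalar, Fintype.card_fin,
      QuotientGroup.mk'_apply, MonoidHom.one_apply, QuotientGroup.eq_one_iff]
    exact ⟨u, rfl⟩
  refine ⟨e.symm.toMonoidHom.comp (Matrix.ProjGenLinGroup.lift φ hφ), ?_, ?_⟩
  · refine e.symm.surjective.comp fun y => ?_
    obtain ⟨u, rfl⟩ := QuotientGroup.mk'_surjective R y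
    obtain ⟨g, rfl⟩ := Matrix.GeneralLinearGroup.det_surjective (n := Fin n) u
    exact ⟨Matrix.ProjGenLinGroup.mk g, rfl⟩
  · ext g
    induction g using Matrix.ProjGenLinGroup.induction_on with | mk g => ?_
    simp only [MonoidHom.mem_ker, MonoidHom.comp_apply, Matrix.ProjGenLinGroup.lift_mk,
      MulEquiv.toMonoidHom_eq_coe, MonoidHom.coe_coe, EmbeddingLike.map_eq_one_iff, φ,
      QuotientGroup.mk'_apply, QuotientGroup.eq_one_iff, MonoidHom.mem_range]
    constructor
    · rintro ⟨u, hu⟩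
      have h1 : g * (Matrix.GeneralLinearGroup.scalar (Fin n) u)⁻¹ ∈
          (Matrix.SpecialLinearGroup.toGL : Matrix.SpecialLinearGroup (Fin n) F →* _).range := by
        rw [Lin.range_toGL, MonoidHom.mem_ker, map_mul, map_inv, Matrix.GeneralLinearGroup.det_scalar,
          Fintype.card_fin, ← hu]
        simp
      obtain ⟨s, hs⟩ := h1
      exact ⟨s, by rw [Matrix.ProjectiveSpecialLinearGroup.toPGL_mk, hs]; simp⟩
    · rintro ⟨s, hs⟩
      induction s using QuotientGroup.induction_on with | H s => ?_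
      rw [Matrix.ProjectiveSpecialLinearGroup.toPGL_mk, Matrix.ProjGenLinGroup.mk_eq_mk_iff] at hs
      obtain ⟨u, rfl⟩ := hs
      exact ⟨u, by simp⟩

end Cfsg.Agent.S0307
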