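import Cfsg.Statements.S0482
import Cfsg.Agent.Abg.Z2

set_option autoImplicit false
open Cfsg

namespace Cfsg.Agent.S0482

/-- A non-abelian finite simple group of 2-rank at most 2 (no elementary abelian subgroup of order 8) is isomorphic
to a projective special linear group of dimension 2 over a field of odd order at least 5, a projective special linear
or unitary group of dimension 3 in odd characteristic, the projective special unitary group of dimension 3 over the
field with 16 elements, the alternating group of degree 7, or is simple of order 7920. -/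
theorem result {G : Type*} [Group G] [Finite G] [IsSimpleGroup G]
    (hG : ¬ IsMulCommutative G) (h2 : Cfsg.PRankLE 2 2 G) :
    (∃ (F : Type) (_ : Field F) (_ : Fintype F), Odd (Fintype.card F) ∧ 5 ≤ Fintype.card F ∧
        Nonempty (G ≃* Matrix.ProjectiveSpecialLinearGroup (Fin 2) F)) ∨
      (∃ (F : Type) (_ : Field F) (_ : Fintype F), Odd (Fintype.card F) ∧
        Nonempty (G ≃* Matrix.ProjectiveSpecialLinearGroup (Fin 3) F)) ∨
      (∃ (F : Type) (_ : Field F) (_ : Fintype F) (q : ℕ), Fintype.card F = q ^ 2 ∧ Odd q ∧
        Nonempty (G ≃* Cfsg.PSU 3 F q)) ∨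
      (∃ (F : Type) (_ : Field F) (_ : Fintype F), Fintype.card F = 16 ∧ Nonempty (G ≃* Cfsg.PSU 3 F 4)) ∨
      Nonempty (G ≃* alternatingGroup (Fin 7)) ∨
      Cfsg.IsM11 G := by
  exact CA.Abg.s0482_of (fun S h => CA.Abg.l3_all ⟨S, h⟩) hG h2

end Cfsg.Agent.S0482
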