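import Cfsg.Statements.S0484
import Cfsg.Agent.Br.Fin
import Cfsg.Agent.Br.W3
-- import your own Cfsg.Agent.* helpers here

set_option autoImplicit false
open Cfsg

namespace Cfsg.Agent.S0484

/-- If a finite simple group has an involution whose centralizer is isomorphic to the quotient of the general linear
group of dimension 2 over a finite field of odd order by a central subgroup of odd order, then it is isomorphic to the
projective special linear group of dimension 3 over that field, or is simple of order 7920. -/
theorem result {G : Type*} [Group G] [Finite G]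
    [IsSimpleGroup G] {F : Type*} [Field F] [Fintype F] (hF : Odd (Fintype.card F)) (Z : Subgroup (GL (Fin 2) F))
    [Z.Normal] (hZc : Z ≤ Subgroup.center (GL (Fin 2) F)) (hZo : Odd (Nat.card Z)) (t : G) (ht : orderOf t = 2)
    (hC : Nonempty (Subgroup.centralizer ({t} : Set G) ≃* (GL (Fin 2) F ⧸ Z))) :
    Nonempty (G ≃* Matrix.ProjectiveSpecialLinearGroup (Fin 3) F) ∨ Cfsg.IsM11 G := by
  have := Fintype.ofFinite G
  obtain ⟨φ, h⟩ := CA.Br.exists_BL hF Z hZc hZo t ht hC
  exact h.fin h.no_iv

end Cfsg.Agent.S0484
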