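import Cfsg.Statements.S0485
import Cfsg.Agent.Bu.Fin
import Cfsg.Agent.Bu.Id4
import Cfsg.Agent.Bu.Id5
-- import your own Cfsg.Agent.* helpers here

set_option autoImplicit false
open Cfsg

namespace Cfsg.Agent.S0485

/-- If a finite simple group has an involution whose centralizer is isomorphic to the quotient of the general unitary
group of dimension 2 for an odd prime power q (realised over the field with q² elements) by a central subgroup of odd
order, then it is isomorphic to the projective special unitary group of dimension 3 for the same q. -/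
theorem result {G : Type*} [Group G] [Finite G]
    [IsSimpleGroup G] {F : Type*} [Field F] [Fintype F] (q : ℕ) (hq : Odd q) (hF : Fintype.card F = q ^ 2)
    (Z : Subgroup (Cfsg.GU 2 F q)) [Z.Normal] (hZc : Z ≤ Subgroup.center (Cfsg.GU 2 F q)) (hZo : Odd (Nat.card Z))
    (t : G) (ht : orderOf t = 2) (hC : Nonempty (Subgroup.centralizer ({t} : Set G) ≃* (Cfsg.GU 2 F q ⧸ Z))) :
    Nonempty (G ≃* Cfsg.PSU 3 F q) := by
  letI := Cfsg.Agent.Unit.frobStar hF
  obtain ⟨φ, h⟩ := CA.Bu.exists_BU (Cfsg.Agent.Unit.fq_frobStar hF) hq Z hZc hZo t ht hC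
  obtain ⟨hi, Q, kQ, XQ, QC, tQ⟩ := h.pl
  exact (h.bn kQ XQ QC tQ hi).psu3 h.cenZ

end Cfsg.Agent.S0485
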