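import Cfsg.Statements.S0493
import Cfsg.Agent.EqAll
import Cfsg.Agent.Dih.ZS

set_option autoImplicit false
open Cfsg

namespace Cfsg.Agent.S0493

/-- A finite simple group of order at most 100 that is not cyclic has order 60. -/
theorem result {G : Type*} [Group G] [Finite G] [IsSimpleGroup G]
    (hG : ¬ IsCyclic G) (h : Nat.card G ≤ 100) : Nat.card G = 60 := by
  have h1 : ¬ IsMulCommutative G := fun hc => by
    let _ : CommGroup G := { mul_comm := hc.is_comm.comm }
    exact hG inferInstance
  have := CA.Dih.card_simple_le h1 (by omega)
  omega

end Cfsg.Agent.S0493
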