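import Cfsg.Statements.S0495
import Cfsg.Agent.EqAll
import Cfsg.Agent.Dih.Uniq

set_option autoImplicit false
open Cfsg

namespace Cfsg.Agent.S0495

/-- A simple group of order 168 is isomorphic to the projective special linear group of dimension 2 over the field with
7 elements. -/
theorem result {G : Type*} [Group G] [Finite G] [IsSimpleGroup G]
    (h : Nat.card G = 168) {F : Type*} [Field F] [Fintype F] (hF : Fintype.card F = 7) :
    Nonempty (G ≃* Matrix.ProjectiveSpecialLinearGroup (Fin 2) F) := by
  exact CA.Dih.equiv_psl_prime (p := 7) (Or.inl rfl) (by omega) hF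

end Cfsg.Agent.S0495
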