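import Cfsg.Statements.S0499
import Cfsg.Agent.EqAll
import Cfsg.Agent.Dih.Small

set_option autoImplicit false
open Cfsg

namespace Cfsg.Agent.S0499

/-- A non-abelian finite simple group of even order has order divisible by 12, 16 or 56. -/
theorem result {G : Type*} [Group G] [Finite G] [IsSimpleGroup G]
    (hG : ¬ IsMulCommutative G) (h2 : Even (Nat.card G)) :
    12 ∣ Nat.card G ∨ 16 ∣ Nat.card G ∨ 56 ∣ Nat.card G := by
  exact CA.Dih.simple_even_order hG h2.two_dvd

end Cfsg.Agent.S0499
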