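import Cfsg.Statements.S0501
import Cfsg.Agent.Mac.C

set_option autoImplicit false
open Cfsg

namespace Cfsg.Agent.S0501

/-- A finite 2-group in which every normal elementary abelian subgroup has order at most 4 has sectional rank at most
4: every quotient of every subgroup has no elementary abelian subgroup of order exceeding 16. -/
theorem result {P : Type*} [Group P] [Finite P] (hP : IsPGroup 2 P)
    (h : ∀ A : Subgroup P, A.Normal → IsMulCommutative A → (∀ a ∈ A, a ^ 2 = 1) → Nat.card A ≤ 4) :
    Cfsg.SectionalPRankLE 2 4 P := by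
  intro H N _ A _ hA
  have h1 := CA.Mac.main hP (fun E hE hc h2 => h E hE ⟨⟨fun a b => Subtype.ext (hc a a.2 b b.2)⟩⟩ h2)
    (U := (A.comap (QuotientGroup.mk' N)).map H.subtype) (M := N.map H.subtype) (by
      rintro _ ⟨u, hu, rfl⟩
      refine ⟨u * u, (QuotientGroup.eq_one_iff _).1 ?_, rfl⟩
      rw [QuotientGroup.mk_mul, ← pow_two]
      exact hA _ hu)
  rw [Subgroup.card_map_of_injective H.subtype_injective, Subgroup.card_map_of_injective H.subtype_injective] at h1
  have h2 := CA.FG.card_inf_mul_relIndex (QuotientGroup.mk' N).ker (A.comap (QuotientGroup.mk' N))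
  rw [Subgroup.relIndex_ker, Subgroup.map_comap_eq_self_of_surjective (QuotientGroup.mk'_surjective N),
    inf_eq_left.2 (Subgroup.ker_le_comap _ _), QuotientGroup.ker_mk'] at h2
  rw [← h2, mul_comm] at h1
  have h3 := Nat.lt_of_mul_lt_mul_right h1
  obtain ⟨n, hn⟩ := IsPGroup.iff_card.1 (show IsPGroup 2 A from fun a => ⟨1, Subtype.ext (hA a a.2)⟩)
  rw [hn] at h3 ⊢
  exact Nat.pow_le_pow_right (by norm_num)
    (Nat.le_of_lt_succ ((Nat.pow_lt_pow_iff_right (by norm_num : 1 < 2)).1 (show 2 ^ n < 2 ^ 5 from h3)))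

end Cfsg.Agent.S0501
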