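import Cfsg.Statements.S0505
import Cfsg.Agent.BG.I01
-- import your own Cfsg.Agent.* helpers here

set_option autoImplicit false
open Cfsg

namespace Cfsg.Agent.S0505

open CA.FG in
theorem aux {G : Type*} [Group G] [Finite G]
    (hs : ∀ t : G, orderOf t = 2 → Group.IsSolvable 𝒞[t])
    (hc : ∀ t : G, orderOf t = 2 → pPrimeCoreOf 2 𝒞[t] = ⊥) {T : Subgroup G} (hT : IsPGrp 2 T)
    (nt : T ≠ ⊥) : 𝒩(T) ⊓ 𝒞(pCoreOf 2 𝒩(T)) ≤ pCoreOf 2 𝒩(T) := by
  have TQ : T ≤ pCoreOf 2 𝒩(T) := pcore_max ⟨Subgroup.le_normalizer, le_rfl⟩ hT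
  have pQ := pcore_pGrp 2 𝒩(T)
  have nQ := pcore_normal {2} 𝒩(T)
  generalize hQ : pCoreOf 2 𝒩(T) = Q at *
  have hQ' : Cfsg.piCoreOf {2} 𝒩(T) = Q := hQ
  rw [hQ'] at nQ
  obtain ⟨z, hz, oz⟩ := IsPGrp.exists_orderOf_eq (pQ.of_le (inf_le_left (b := 𝒞(Q))))
    (center_nil_ne_bot pQ.nil fun e => nt (le_bot_iff.1 (e ▸ TQ)))
  have c1 : 𝒞(Q) ≤ 𝒞[z] := Subgroup.centralizer_le (by simpa using hz.1)
  have c2 : Q ≤ 𝒞[z] := fun x hx => Subgroup.mem_centralizer_singleton_iff.2 (hz.2 x hx)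
  have h1 := CA.BG.p'core_cent_pgroup c2 pQ (hs z oz)
  rw [hc z oz, inf_eq_right.2 c1, le_bot_iff] at h1
  have nC : 𝒞(Q) ⊲ 𝒩(T) := ⟨(cent_anti TQ).trans (cent_le_norm T), norm_cent nQ.2⟩
  have h2 : pCoreOf 2 𝒞(Q) ≤ Q := hQ' ▸ nC.pcore_le {2}
  have h3 := cent_sub_pcore (sol_of_le (hs z oz) c1) h1
  exact inf_le_right.trans ((le_inf le_rfl (cent_anti h2)).trans (h3.trans h2))

/-- Let G be a finite group of even order in which the centralizer of every involution is solvable and has trivial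
core (no nontrivial normal subgroup of odd order). Then G is of characteristic 2 type. -/
theorem result {G : Type*} [Group G] [Finite G]
    (h2 : Even (Nat.card G))
    (hs : ∀ t : G, orderOf t = 2 → Group.IsSolvable (Subgroup.centralizer ({t} : Set G)))
    (hc : ∀ t : G, orderOf t = 2 → Cfsg.oddCore (Subgroup.centralizer ({t} : Set G)) = ⊥) :
    Cfsg.IsCharacteristicTwoType G := by
  refine ⟨h2, fun T hT nt x hx => ?_⟩
  have := aux hs (fun t ht => ?_) (CA.FG.pGrp_of_isPGroup Nat.prime_two hT) nt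
  · rw [← CA.FG.pCore_map_subtype Nat.prime_two] at this
    obtain ⟨y, hy, e⟩ := this (x := x) ⟨x.2, by
      rintro _ ⟨y, hy, rfl⟩
      exact congrArg Subtype.val (hx y hy)⟩
    exact (Subtype.ext e : y = x) ▸ hy
  · rw [← CA.FG.pPrimeCore_map_subtype Nat.prime_two]
    exact (congrArg _ (hc t ht)).trans (Subgroup.map_bot _)

end Cfsg.Agent.S0505
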