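import Cfsg.Statements.S0508
import Cfsg.Agent.EqAll
import Cfsg.Agent.Dih.BSW2

set_option autoImplicit false
open Cfsg

namespace Cfsg.Agent.S0508

/-- Let G be a finite simple group with a dihedral Sylow 2-subgroup S (of order at least 4), t an involution in the
centre of S, C the centralizer of t and O the core of C (its largest normal subgroup of odd order). Suppose that: if O
is nontrivial then the centralizer of O in S is cyclic of index 2 in S; every element of S not centralizing O inverts
every element of O; and the normalizer of every nontrivial subgroup of O lies in C. Then G is isomorphic to a projective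
special linear group of dimension 2 over a field of odd order. -/
theorem result {G : Type*} [Group G] [Finite G] [IsSimpleGroup G] (S : Sylow 2 G) (n : ℕ)
    (hn : 2 ≤ n) (hS : Nonempty ((S : Subgroup G) ≃* DihedralGroup n)) (t : G) (ht : orderOf t = 2)
    (htS : t ∈ (S : Subgroup G))
    (htZ : ∀ s ∈ (S : Subgroup G), s * t = t * s) (O : Subgroup G)
    (hO : O = (Cfsg.oddCore (Subgroup.centralizer ({t} : Set G))).map (Subgroup.centralizer ({t} : Set G)).subtype)
    (ha : O ≠ ⊥ → IsCyclic ((S : Subgroup G) ⊓ Subgroup.centralizer (O : Set G) : Subgroup G) ∧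
      ((S : Subgroup G) ⊓ Subgroup.centralizer (O : Set G)).relIndex (S : Subgroup G) = 2)
    (hb : ∀ s ∈ (S : Subgroup G), s ∉ Subgroup.centralizer (O : Set G) → ∀ y ∈ O, s * y * s⁻¹ = y⁻¹)
    (hc : ∀ Y : Subgroup G, Y ≤ O → Y ≠ ⊥ → Subgroup.normalizer (Y : Set G) ≤ Subgroup.centralizer ({t} : Set G)) :
    ∃ (F : Type) (_ : Field F) (_ : Fintype F), Odd (Fintype.card F) ∧ Nonempty (G ≃* Matrix.ProjectiveSpecialLinearGroup (Fin 2) F) := by
  obtain ⟨c, h, oc⟩ := CA.Dih.exists_isDih (by omega) hS
  have := Fintype.ofFinite G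
  exact CA.Dih.brauer_suzuki_wall (CA.FG.sylow_top Nat.prime_two S) h (fun e => by rw [e, orderOf_one] at oc; omega)
    ht htS (fun s hs => Subgroup.mem_centralizer_singleton_iff.2 (htZ s hs))
    (hO.trans (CA.FG.pPrimeCore_map_subtype Nat.prime_two _)) ha hb fun y hy y1 =>
      (CA.FG.norm_zpowers_of_cent le_rfl).trans (hc _ (Subgroup.zpowers_le.2 hy) (by simpa using y1))

end Cfsg.Agent.S0508
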