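import Cfsg.Statements.S0512
import Cfsg.Agent.L5.Asm
import Cfsg.Agent.L5.Gb
import Cfsg.Agent.L5.Gc
import Cfsg.Agent.L5.Kb
import Cfsg.Agent.L5.GdA
import Cfsg.Agent.L5.GdB
import Cfsg.Agent.L5.TI
import Cfsg.Agent.L5.Sh
import Cfsg.Agent.L5.Ht
import Cfsg.Agent.He.Held
import Cfsg.Agent.U5.MG
-- import your own Cfsg.Agent.* helpers here

set_option autoImplicit false
open Cfsg

namespace Cfsg.Agent.S0512

/-- A finite simple group whose Sylow 2-subgroups are isomorphic to a Sylow 2-subgroup of the projective special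
linear group of dimension 5 over the field with 2 elements is isomorphic to that linear group, or is simple of order
244823040 or 4030387200 (the orders of the largest Mathieu group and of the Held group). -/
theorem result {G : Type*} [Group G] [Finite G] [IsSimpleGroup G]
    {F : Type*} [Field F] [Fintype F] (hF : Fintype.card F = 2) (S : Sylow 2 G)
    (P : Sylow 2 (Matrix.ProjectiveSpecialLinearGroup (Fin 5) F))
    (hS : Nonempty ((S : Subgroup G) ≃* (P : Subgroup (Matrix.ProjectiveSpecialLinearGroup (Fin 5) F)))) :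
    Nonempty (G ≃* Matrix.ProjectiveSpecialLinearGroup (Fin 5) F) ∨ Cfsg.IsM24 G ∨ Cfsg.IsHe G := by
  obtain ⟨ι, h⟩ := CA.L5.exists_TU hF S P hS
  obtain ⟨ι', c⟩ := CA.L5.gc (fun _ k => CA.L5.gb (CA.U5.mgs (CA.U5.mg CA.U5.sigTwo)) (CA.L5.ga k) (CA.L5.scq8 k))
    (fun _ => CA.L5.kb1) (fun _ => CA.L5.kb2) h
  exact CA.L5.asm (CA.L5.gd0 CA.U5.sigTwo CA.L5.ti c (CA.L5.gdA c)) CA.L5.hs4
    fun _ _ _ _ hb c2 c7 n => CA.PM.He.held' hb c2 c7 n hF

end Cfsg.Agent.S0512
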