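import Cfsg.Statements.S0513
import Cfsg.Agent.U5.Sig
import Cfsg.Agent.U5.MG
import Cfsg.Agent.U5.Syl
import Cfsg.Agent.U5.Fa
import Cfsg.Agent.U5.Fb
import Cfsg.Agent.U5.Fc
import Cfsg.Agent.U5.Fd
import Cfsg.Agent.U5.Fe
import Cfsg.Agent.U5.Fh
import Cfsg.Agent.U5.Tt
import Cfsg.Agent.U5.Fis
-- import your own Cfsg.Agent.* helpers here

set_option autoImplicit false
open Cfsg

namespace Cfsg.Agent.S0513

/-- A finite simple group whose Sylow 2-subgroups are isomorphic to a Sylow 2-subgroup of the projective special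
unitary group of dimension 5 over the field with 4 elements (q = 2) is isomorphic to that unitary group. -/
theorem result {G : Type*} [Group G] [Finite G] [IsSimpleGroup G]
    {F : Type*} [Field F] [Fintype F] (hF : Fintype.card F = 4) (S : Sylow 2 G) (P : Sylow 2 (Cfsg.PSU 5 F 2))
    (hS : Nonempty ((S : Subgroup G) ≃* (P : Subgroup (Cfsg.PSU 5 F 2)))) :
    Nonempty (G ≃* Cfsg.PSU 5 F 2) := by
  obtain ⟨ι, h⟩ := CA.U5.exists_TU hF S P hS
  have a := CA.U5.fa h
  have m := CA.U5.mg CA.U5.sigTwo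
  have hh := CA.U5.fh a
  have e := CA.U5.fe CA.U5.sigTwo (CA.U5.fd (CA.U5.mgs m) (CA.U5.fc (CA.U5.fb m a))) hh
  exact CA.U5.fis e (CA.U5.tt e hh) hF

end Cfsg.Agent.S0513
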