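import Cfsg.Statements.S0514
import Cfsg.Agent.EqAll
import Cfsg.Agent.Dih.Small

set_option autoImplicit false
open Cfsg

namespace Cfsg.Agent.S0514

/-- In a finite group whose Sylow 2-subgroups are dihedral of order at least 4, the centralizer of any involution has a
normal subgroup of odd order whose index in the centralizer is a power of 2. -/
theorem result {X : Type*} [Group X] [Finite X]
    (S : Sylow 2 X) (n : ℕ) (hn : 2 ≤ n) (hS : Nonempty ((S : Subgroup X) ≃* DihedralGroup n)) (t : X)
    (ht : orderOf t = 2) :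
    ∃ N : Subgroup (Subgroup.centralizer ({t} : Set X)), N.Normal ∧ Odd (Nat.card N) ∧ ∃ k : ℕ, N.index = 2 ^ k := by
  obtain ⟨c, hc, -⟩ := CA.Dih.exists_isDih (by omega) hS
  have h := hc.hall_core (CA.FG.sylow_top Nat.prime_two S) ht
  have hn := CA.FG.normal_subgroupOf_of_normalIn (CA.FG.pcore_normal {2}ᶜ (Subgroup.centralizer ({t} : Set X)))
  refine ⟨_, hn, ?_, ?_⟩
  · rw [CA.FG.card_subgroupOf h.le, ← Nat.not_even_iff_odd, even_iff_two_dvd]
    exact (CA.FG.piGrp_compl_singleton_iff Nat.prime_two).1 h.piGrp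
  · exact (CA.FG.piNat_singleton_iff Nat.prime_two (CA.FG.relIndex_pos _ _).ne').1
      (CA.FG.piNat_compl_compl.1 h.index)

end Cfsg.Agent.S0514
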