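import Cfsg.Statements.S0519
import Cfsg.Agent.TG.Cyc

set_option autoImplicit false
open Cfsg

namespace Cfsg.Agent.S0519

/-- Let P be a finite p-group in which every abelian normal subgroup is cyclic, but which has a non-cyclic abelian
subgroup. Then p = 2 and P is generalized quaternion, dihedral of order at least 16, or quasi-dihedral. -/
theorem result {P : Type*} [Group P] [Finite P] (p : ℕ) [Fact p.Prime]
    (hP : IsPGroup p P) (hn : ∀ A : Subgroup P, A.Normal → IsMulCommutative A → IsCyclic A)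
    (hm : ∃ B : Subgroup P, IsMulCommutative B ∧ ¬ IsCyclic B) :
    p = 2 ∧ ((∃ n : ℕ, Nonempty (P ≃* QuaternionGroup n)) ∨ (∃ n : ℕ, 8 ≤ n ∧ Nonempty (P ≃* DihedralGroup n)) ∨
      Cfsg.IsQuasiDihedral P) := by
  have hp : p.Prime := Fact.out
  obtain ⟨B, -, hB⟩ := hm
  have nc : ¬ IsCyclic P := fun h => hB inferInstance
  by_cases h2 : p = 2
  · subst h2
    refine ⟨rfl, ?_⟩
    obtain ⟨m, c, y, -, ho, hy, gen, ⟨h1, h2⟩ | ⟨hm, y2, h | h⟩⟩ :=
      (CA.TG.struct_of_normal_cyclic hP hn).resolve_left nc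
    · exact Or.inl ⟨_, Cfsg.Agent.Lin.nonempty_equiv_quaternion _ c y (by rw [ho, pow_succ']) h1 h2 hy gen⟩
    · exact Or.inr (Or.inl ⟨_, Nat.pow_le_pow_right (n := 2) (i := 3) two_pos (by omega),
        Cfsg.Agent.Lin.nonempty_equiv_dihedral _ c y ho h y2 hy gen⟩)
    · exact Or.inr (Or.inr ⟨m + 1, by omega, by rw [CA.TG.card_of_index_two hy gen, ho, ← pow_succ'], c, y, ho,
        orderOf_eq_prime (by rw [sq, y2]) fun e => hy (e ▸ one_mem _), h⟩)
  · exfalso
    have pT : CA.FG.IsPGrp p (⊤ : Subgroup P) := CA.FG.pGrp_of_isPGroup hp (hP.to_subgroup _)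
    obtain ⟨k, hk⟩ := (CA.FG.pGrp_iff_card hp).1 pT
    obtain ⟨S, nS, hS⟩ := CA.BG.ex_odd_normal_p2Elem hp pT (hk ▸ (hp.odd_of_ne_two h2).pow)
      (fun h => nc (Subgroup.topEquiv.isCyclic.1 h))
    exact hS.not_cyclic hp le_rfl (hn S (CA.FG.normal_of_top_le_norm nS.2) hS.abelian)

end Cfsg.Agent.S0519
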