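import Cfsg.Statements.S0521
import Cfsg.Agent.TG.Four

set_option autoImplicit false
open Cfsg

namespace Cfsg.Agent.S0521

/-- Let X be a finite solvable group of odd order, p a prime and S a Sylow p-subgroup of X whose commutator subgroup is
cyclic. Then the product of the largest normal subgroup of X of order prime to p with S is a normal subgroup of X. -/
theorem result {X : Type*} [Group X] [Finite X] [Group.IsSolvable X]
    (hX : Odd (Nat.card X)) (p : ℕ) [Fact p.Prime] (S : Sylow p X) (hS : IsCyclic (commutator (S : Subgroup X))) :
    (Cfsg.pPrimeCore p X ⊔ (S : Subgroup X)).Normal := by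
  have hp : p.Prime := Fact.out
  have h := CA.TG.Four.sup_normal_of_cyclic_der hp (H := (⊤ : Subgroup X)) (by rwa [Subgroup.card_top])
    (CA.FG.sol_top_iff.2 inferInstance) (CA.FG.sylow_top hp S) (by
      rw [← Subgroup.map_subtype_commutator, CA.FG.cyclic_map_iff_of_inj (Subgroup.subtype_injective _)]
      exact hS)
  rw [CA.FG.pPrimeCore_eq_top hp]
  exact CA.FG.normalIn_top.1 h

end Cfsg.Agent.S0521
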