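import Cfsg.Statements.S0523
import Cfsg.Agent.Abg.Z2

set_option autoImplicit false
open Cfsg

namespace Cfsg.Agent.S0523

/-- A finite simple group whose Sylow 2-subgroups are wreathed is isomorphic to a projective special linear or
projective special unitary group of dimension 3 over a field of odd characteristic, or is simple of order 7920 (the
order of the smallest Mathieu group). -/
theorem result {G : Type*} [Group G] [Finite G] [IsSimpleGroup G]
    (S : Sylow 2 G) (hS : Cfsg.IsWreathed (S : Subgroup G)) :
    (∃ (F : Type) (_ : Field F) (_ : Fintype F), Odd (Fintype.card F) ∧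
        Nonempty (G ≃* Matrix.ProjectiveSpecialLinearGroup (Fin 3) F)) ∨
      (∃ (F : Type) (_ : Field F) (_ : Fintype F) (q : ℕ), Fintype.card F = q ^ 2 ∧ Odd q ∧
        Nonempty (G ≃* Cfsg.PSU 3 F q)) ∨
      Cfsg.IsM11 G := by
  exact CA.Abg.l3_all ⟨S, .inr hS⟩

end Cfsg.Agent.S0523
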