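import Cfsg.Statements.S1026
import Cfsg.Agent.Chev.StInst
import Cfsg.Agent.Chev.St4

set_option autoImplicit false
open Cfsg

namespace Cfsg.Agent.S1026

/-- Every element of `U` has a unique expression `∏_{r ∈ Φ⁺} x_r(t_r)`, the product over the positive roots in increasing index order (the coefficient family `t`, supported on the positive roots, exists and is unique); and conversely every such ordered product is the matrix of an element of `U`. -/
theorem result {F : Type*} [Field F] (D : Cfsg.Lie.ChevalleyDatum) (hD : D ∈ [Cfsg.Lie.chevG2, Cfsg.Lie.chevB2, Cfsg.Lie.chevD4, Cfsg.Lie.chevF4, Cfsg.Lie.chevE6, Cfsg.Lie.chevE7, Cfsg.Lie.chevE8]) :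
    (∀ g : GL D.Idx F, g ∈ D.posUnipotent F →
      ∃! t : ℕ → F, (∀ r, ¬ D.IsPosRoot r → t r = 0) ∧
        (g : Matrix D.Idx D.Idx F) = D.wordMat F (D.posRoots.map fun r => (r, t r))) ∧
    (∀ t : ℕ → F, ∃ g : GL D.Idx F, g ∈ D.posUnipotent F ∧
      (g : Matrix D.Idx D.Idx F) = D.wordMat F (D.posRoots.map fun r => (r, t r))) := by
  obtain ⟨G, L, T, M, hA⟩ := CA.Chev.exists_stGood hD
  open CA.Chev in
  have hL : D.posRoots = ((List.finRange D.nroots).filter fun r : Rt D => IsPos r).map Fin.val := by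
    rw [Cfsg.Lie.ChevalleyDatum.posRoots, ← List.map_coe_finRange_eq_range, List.filter_map]
    congr 1
    exact List.filter_congr fun r _ => by simp [isPosRoot_iff]
  open CA.Chev in
  have hW : ∀ t : ℕ → F, D.wordMat F (D.posRoots.map fun r => (r, t r)) =
      ((stGL D F).prodL ((List.finRange D.nroots).filter fun r : Rt D => IsPos r) (fun r => t r) : GL D.Idx F) := by
    intro t
    have := wordMat_map_val (((List.finRange D.nroots).filter fun r : Rt D => IsPos r).map fun r => (r, t r))
    rw [List.map_map, List.map_map] at this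
    rw [hL, List.map_map]
    exact this
  have hN : ((List.finRange D.nroots).filter fun r : CA.Chev.Rt D => CA.Chev.IsPos r).Nodup :=
    (List.nodup_finRange _).filter _
  have hM : ∀ r, r ∈ ((List.finRange D.nroots).filter fun r : CA.Chev.Rt D => CA.Chev.IsPos r) ↔ CA.Chev.IsPos r := by
    simp
  simp only [hW, Units.val_inj, CA.Chev.posUnipotent_eq]
  open CA.Chev in
  refine ⟨fun g hg => ?_, fun t => ⟨_, (stGL D F).prodL_mem fun r hr => Or.inl ((hM r).1 hr), rfl⟩⟩
  open CA.Chev in
  obtain ⟨t, rfl⟩ := (stGL D F).exists_prodL closed_isPos (fun _ => isPos_iff_ht.1) hN hM hg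
  classical
  refine ⟨fun r => if h : D.IsPosRoot r then t ⟨r, h.1⟩ else 0, ⟨fun r hr => dif_neg hr, ?_⟩, fun t' ht' => ?_⟩
  · exact (CA.Chev.stGL D F).prodL_congr fun r hr => by simp [(CA.Chev.isPosRoot_iff r).2 ((hM r).1 hr)]
  · funext r
    split_ifs with h
    · open CA.Chev in
      exact ((stGL D F).prodL_unique closed_isPos (fun _ => isPos_iff_ht.1) hN (fun r => (hM r).1) ht'.2 ⟨r, h.1⟩
        ((hM _).2 ((isPosRoot_iff ⟨r, h.1⟩).1 h))).symm
    · exact ht'.1 r h

end Cfsg.Agent.S1026
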