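import Cfsg.Statements.S1034
import Cfsg.Agent.Chev.StInst
import Cfsg.Agent.Chev.St4

set_option autoImplicit false
open Cfsg

namespace Cfsg.Agent.S1034

/-- Every element of `H` is a product `h_{p_1}(c_1) ⋯ h_{p_l}(c_l)` over the fundamental roots, with non-zero `c_i`. -/
theorem result {F : Type*} [Field F] (D : Cfsg.Lie.ChevalleyDatum) (hD : D ∈ [Cfsg.Lie.chevG2, Cfsg.Lie.chevB2, Cfsg.Lie.chevD4, Cfsg.Lie.chevF4, Cfsg.Lie.chevE6, Cfsg.Lie.chevE7, Cfsg.Lie.chevE8]) (g : GL D.Idx F) (hg : g ∈ D.diagonalSubgroup F) :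
    ∃ c : ℕ → F, (∀ i < D.rank, c i ≠ 0) ∧
      (g : Matrix D.Idx D.Idx F) = D.wordMat F ((List.range D.rank).flatMap fun i => D.hWord (D.simple i) (c i)) := by
  obtain ⟨G, L, T, M, hA⟩ := CA.Chev.exists_stGood hD
  rw [CA.Chev.diagonalSubgroup_eq, CA.Chev.StSys.mem_H] at hg
  obtain ⟨c, rfl⟩ := hg
  refine ⟨fun i => if h : i < D.rank then c ⟨i, h⟩ else 1, fun i hi => by simp [hi], ?_⟩
  have h1 : ∀ l : List (CA.Chev.Nd D), D.wordMat F ((l.map Fin.val).flatMap fun i =>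
      D.hWord (D.simple i) (if h : i < D.rank then (c ⟨i, h⟩ : F) else 1)) =
      CA.Chev.tor (l.map fun i => CA.Chev.zch (CA.Chev.cpair i) (c i)).prod := by
    intro l
    induction l with
    | nil => simp [Cfsg.Lie.ChevalleyDatum.wordMat]
    | cons a l ih =>
      rw [List.map_cons, List.map_cons, List.flatMap_cons, List.prod_cons, CA.Chev.tor_mul, ← ih, ← CA.Chev.lpair_sim,
        ← CA.Chev.hMat_eq]
      simp [Cfsg.Lie.ChevalleyDatum.wordMat, Cfsg.Lie.ChevalleyDatum.hMat]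
  rw [← List.map_coe_finRange_eq_range, h1, ← Fin.prod_univ_def]
  exact congrArg Units.val ((CA.Chev.stGL D F).θ_hP c)

end Cfsg.Agent.S1034
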