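import Cfsg.Statements.S1037
import Cfsg.Agent.Chev.StInst
import Cfsg.Agent.Chev.St4

set_option autoImplicit false
open Cfsg

namespace Cfsg.Agent.S1037

/-- `UH ∩ V = 1` and `UH ∩ VH = H`. -/
theorem result {F : Type*} [Field F] (D : Cfsg.Lie.ChevalleyDatum) (hD : D ∈ [Cfsg.Lie.chevG2, Cfsg.Lie.chevB2, Cfsg.Lie.chevD4, Cfsg.Lie.chevF4, Cfsg.Lie.chevE6, Cfsg.Lie.chevE7, Cfsg.Lie.chevE8]) :
    D.borelSubgroup F ⊓ D.negUnipotent F = ⊥ ∧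
      D.borelSubgroup F ⊓ (D.negUnipotent F ⊔ D.diagonalSubgroup F) = D.diagonalSubgroup F := by
  obtain ⟨G, L, T, M, hA⟩ := CA.Chev.exists_stGood hD
  open CA.Chev in
  rw [diagonalSubgroup_eq_H F hA, negUnipotent_eq_V F hA, borelSubgroup_eq_Bo F hA, eq_bot_iff]
  have hF := (CA.Chev.stGL D F).faithful hA
  refine ⟨fun g hg => hF.BV g hg.1 hg.2, le_antisymm (fun g hg => hF.mem_H_of_mem_Bo_op hg.1 ?_)
    (le_inf (CA.RGD.Sys.H_le_Bo _) le_sup_right)⟩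
  rw [CA.RGD.Sys.Bo, CA.RGD.Sys.op_U]
  exact hg.2

end Cfsg.Agent.S1037
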