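import Cfsg.Statements.S1040
import Cfsg.Agent.Chev.StInst
import Cfsg.Agent.Chev.St4

set_option autoImplicit false
open Cfsg

namespace Cfsg.Agent.S1040

/-- `U ∩ N = 1` and `B ∩ N = UH ∩ N = H`. -/
theorem result {F : Type*} [Field F] (D : Cfsg.Lie.ChevalleyDatum) (hD : D ∈ [Cfsg.Lie.chevG2, Cfsg.Lie.chevB2, Cfsg.Lie.chevD4, Cfsg.Lie.chevF4, Cfsg.Lie.chevE6, Cfsg.Lie.chevE7, Cfsg.Lie.chevE8]) :
    D.posUnipotent F ⊓ D.monomialSubgroup F = ⊥ ∧ D.borelSubgroup F ⊓ D.monomialSubgroup F = D.diagonalSubgroup F := by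
  obtain ⟨G, L, T, M, hA⟩ := CA.Chev.exists_stGood hD
  open CA.Chev in
  rw [diagonalSubgroup_eq_H F hA, monomialSubgroup_eq_N F hA, borelSubgroup_eq_Bo F hA, posUnipotent_eq_U F hA,
    eq_bot_iff]
  have hF := (CA.Chev.stGL D F).faithful hA
  exact ⟨fun g hg => hF.eq_one_of_mem_U_H hg.1 (hF.mem_H_of_mem_Bo_N (CA.RGD.Sys.U_le_Bo _ hg.1) hg.2), hF.Bo_inf_N⟩

end Cfsg.Agent.S1040
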