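import Cfsg.Statements.S1041
import Cfsg.Agent.Chev.StInst
import Cfsg.Agent.Chev.St4

set_option autoImplicit false
open Cfsg

namespace Cfsg.Agent.S1041

/-- `U` and `V` generate the whole Chevalley group. -/
theorem result {F : Type*} [Field F] (D : Cfsg.Lie.ChevalleyDatum) (hD : D ∈ [Cfsg.Lie.chevG2, Cfsg.Lie.chevB2, Cfsg.Lie.chevD4, Cfsg.Lie.chevF4, Cfsg.Lie.chevE6, Cfsg.Lie.chevE7, Cfsg.Lie.chevE8]) : D.posUnipotent F ⊔ D.negUnipotent F = D.group F := by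
  obtain ⟨G, L, T, M, hA⟩ := CA.Chev.exists_stGood hD
  open CA.Chev in
  rw [posUnipotent_eq, negUnipotent_eq, group_eq]
  refine le_antisymm (sup_le (CA.Chev.StSys.XS_mono _ fun _ _ => trivial) (CA.Chev.StSys.XS_mono _ fun _ _ => trivial))
    (CA.Chev.StSys.XS_le _ fun r _ t => ?_)
  by_cases h : CA.Chev.IsPos r
  · exact Subgroup.mem_sup_left (CA.Chev.StSys.x_mem_XS _ h t)
  · exact Subgroup.mem_sup_right (CA.Chev.StSys.x_mem_XS _ (P := fun r => ¬ CA.Chev.IsPos r) h t)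

end Cfsg.Agent.S1041
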