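import Cfsg.Statements.S1042
import Cfsg.Agent.Chev.ChevMain

set_option autoImplicit false
open Cfsg

namespace Cfsg.Agent.S1042

/-- The Chevalley group has a (B,N)-pair with `B = UH`, `N` the monomial subgroup and the `n_p`, `p` fundamental, as representatives of the distinguished involutions of `W = N/H`. -/
theorem result {F : Type*} [Field F] (D : Cfsg.Lie.ChevalleyDatum) (hD : D ∈ [Cfsg.Lie.chevG2, Cfsg.Lie.chevB2, Cfsg.Lie.chevD4, Cfsg.Lie.chevF4, Cfsg.Lie.chevE6, Cfsg.Lie.chevE7, Cfsg.Lie.chevE8]) :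
    ∃ P : Cfsg.BNPair ↥(D.group F),
      P.B = (D.borelSubgroup F).subgroupOf (D.group F) ∧ P.N = (D.monomialSubgroup F).subgroupOf (D.group F) ∧
      P.S = {n : ↥(D.group F) | ∃ i < D.rank, ((n : GL D.Idx F) : Matrix D.Idx D.Idx F) = D.nMat F (D.simple i) 1} := by
  obtain ⟨G, W, L⟩ := CA.ChevSys.exists_good hD
  rw [← CA.ChevSys.triv_G1, ← CA.ChevSys.sys_Bo, ← CA.ChevSys.sys_N]
  refine ⟨(CA.ChevSys.triv D F).bnPair (CA.ChevSys.faithful D F) (CA.ChevSys.sys D F).ns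
    (CA.ChevSys.sys D F).ns_mem_G (fun k => by
      rw [CA.ChevSys.triv_g]; exact (CA.ChevSys.sys D F).rep_ns k),
    Subgroup.inf_subgroupOf_right _ _, Subgroup.inf_subgroupOf_right _ _, ?_⟩
  ext n
  constructor
  · rintro ⟨k, hk⟩
    exact ⟨k, k.2, (CA.ChevSys.eq_nG_iff (r := CA.Chev.sim k)).2 hk⟩
  · rintro ⟨k, hk, h⟩
    exact ⟨⟨k, hk⟩, (CA.ChevSys.eq_nG_iff (r := CA.Chev.sim ⟨k, hk⟩)).1 h⟩

end Cfsg.Agent.S1042
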