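import Cfsg.Statements.S1044
import Cfsg.Agent.Chev.ChevMain

set_option autoImplicit false
open Cfsg

namespace Cfsg.Agent.S1044

/-- For a fundamental root `p` the set `B ∪ B n_p B` is (the carrier of) a subgroup of the general linear group. -/
theorem result {F : Type*} [Field F] (D : Cfsg.Lie.ChevalleyDatum) (hD : D ∈ [Cfsg.Lie.chevG2, Cfsg.Lie.chevB2, Cfsg.Lie.chevD4, Cfsg.Lie.chevF4, Cfsg.Lie.chevE6, Cfsg.Lie.chevE7, Cfsg.Lie.chevE8]) (i : ℕ) (hi : i < D.rank) (n : GL D.Idx F)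
    (hn : (n : Matrix D.Idx D.Idx F) = D.nMat F (D.simple i) 1) :
    ∃ P : Subgroup (GL D.Idx F), (P : Set (GL D.Idx F)) =
      (D.borelSubgroup F : Set (GL D.Idx F)) ∪ DoubleCoset.doubleCoset n (D.borelSubgroup F : Set (GL D.Idx F)) (D.borelSubgroup F) := by
  obtain ⟨G, W, L⟩ := CA.ChevSys.exists_good hD
  lift i to CA.Chev.Nd D using hi
  obtain rfl := (CA.ChevSys.eq_nG_iff (r := CA.Chev.sim i)).1 hn
  rw [← CA.ChevSys.sys_Bo]
  refine ⟨(CA.ChevSys.sys D F).Par {i}, ?_⟩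
  have hr := (CA.ChevSys.sys D F).rep_ns i
  ext g
  simp only [SetLike.mem_coe, Set.mem_union, DoubleCoset.mem_doubleCoset]
  constructor
  · rintro ⟨w, hw, h⟩
    have := (CA.ChevSys.triv D F).F.eq_of_mem_par (CA.ChevSys.rs D).hA (w := w) trivial (k := i)
      (by simpa [CA.Weyl.Fold.Js, CA.ChevSys.triv, CA.RGD.Twist.triv, CA.Weyl.Fold.triv] using hw)
    rw [CA.ChevSys.triv_g] at this
    rcases this with rfl | rfl
    · exact Or.inl (CA.RGD.Sys.cell_one_iff.1 h)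
    · exact Or.inr (h.exists_eq hr)
  · rintro (h | ⟨b, hb, b', hb', rfl⟩)
    · exact (CA.ChevSys.sys D F).Bo_le_Par _ h
    · exact ⟨_, Subgroup.subset_closure ⟨i, rfl, rfl⟩, b, hb, _, hr, b', hb', rfl⟩

end Cfsg.Agent.S1044
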