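import Cfsg.Statements.S1050
import Cfsg.Agent.Chev.StInst
import Cfsg.Agent.Chev.St4

set_option autoImplicit false
open Cfsg

namespace Cfsg.Agent.S1050

/-- `B = UH` is solvable (U nilpotent, H abelian, U ⊴ B). -/
theorem result {F : Type*} [Field F] (D : Cfsg.Lie.ChevalleyDatum) (hD : D ∈ [Cfsg.Lie.chevG2, Cfsg.Lie.chevB2, Cfsg.Lie.chevD4, Cfsg.Lie.chevF4, Cfsg.Lie.chevE6, Cfsg.Lie.chevE7, Cfsg.Lie.chevE8]) : Group.IsSolvable ↥(D.borelSubgroup F) := by
  obtain ⟨G, L, T, M, hA⟩ := CA.Chev.exists_stGood hD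
  open CA.Chev in
  rw [borelSubgroup_eq]
  have h1 := (CA.Chev.stGL D F).isNilpotent_XS CA.Chev.closed_isPos (fun _ => CA.Chev.isPos_iff_ht.1)
  generalize hU : (CA.Chev.stGL D F).XS CA.Chev.IsPos = U at h1
  have h2 : (CA.Chev.stGL D F).H ≤ Subgroup.normalizer (U : Set (GL D.Idx F)) :=
    hU ▸ (CA.Chev.stGL D F).H_le_normalizer_XS _
  have h3 := fun g g' => (CA.Chev.stGL D F).H_comm (g := g) (g' := g')
  generalize (CA.Chev.stGL D F).H = H at h2 h3
  have h4 : (U.subgroupOf (U ⊔ H)).Normal :=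
    (Subgroup.normal_subgroupOf_iff_le_normalizer le_sup_left).2 (sup_le Subgroup.le_normalizer h2)
  have h5 : Group.IsSolvable (U.subgroupOf (U ⊔ H)) :=
    Group.isSolvable_of_isSolvable_injective (f := (Subgroup.subgroupOfEquivOfLe le_sup_left).toMonoidHom)
      (MulEquiv.injective _)
  have h6 : Group.IsSolvable H := Group.isSolvable_of_comm fun a b => Subtype.ext (h3 _ _ a.2 b.2)
  have h7 : Group.IsSolvable (↥(U ⊔ H) ⧸ U.subgroupOf (U ⊔ H)) := by
    refine Group.isSolvable_of_surjective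
      (f := (QuotientGroup.mk' _).comp (Subgroup.inclusion (le_sup_right : H ≤ U ⊔ H))) fun x => ?_
    obtain ⟨⟨g, hg⟩, rfl⟩ := QuotientGroup.mk'_surjective _ x
    obtain ⟨h, hh, u, hu, rfl⟩ := CA.RGD.mem_sup_of_norm' (fun k hk l hl => (Subgroup.mem_normalizer_iff.1 (h2 hk) l).1 hl) hg
    refine ⟨⟨h, hh⟩, QuotientGroup.eq.2 ?_⟩
    simpa [Subgroup.mem_subgroupOf] using hu
  exact Group.isSolvable_of_ker_le_range (U.subgroupOf (U ⊔ H)).subtype (QuotientGroup.mk' (U.subgroupOf (U ⊔ H)))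
    (by simp)

end Cfsg.Agent.S1050
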