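import Cfsg.Statements.S1053
import Cfsg.Agent.Chev.ChevMain

set_option autoImplicit false
open Cfsg

namespace Cfsg.Agent.S1053

/-- There is `n₀ ∈ N` with `n₀ U n₀⁻¹ = V` (a representative of the longest element of the Weyl group). -/
theorem result {F : Type*} [Field F] (D : Cfsg.Lie.ChevalleyDatum) (hD : D ∈ [Cfsg.Lie.chevG2, Cfsg.Lie.chevB2, Cfsg.Lie.chevD4, Cfsg.Lie.chevF4, Cfsg.Lie.chevE6, Cfsg.Lie.chevE7, Cfsg.Lie.chevE8]) :
    ∃ n ∈ D.monomialSubgroup F, (D.posUnipotent F).map (MulAut.conj n).toMonoidHom = D.negUnipotent F := by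
  obtain ⟨G, W, L⟩ := CA.ChevSys.exists_good hD
  rw [← CA.ChevSys.sys_N, ← CA.ChevSys.sys_U, ← CA.ChevSys.sys_V]
  obtain ⟨w, hw⟩ := CA.Weyl.exists_longest (CA.ChevSys.rs D).hA
  obtain ⟨m, hm⟩ := (CA.ChevSys.sys D F).exists_rep w
  exact ⟨m, hm.mem_N, hm.map_U hw⟩

end Cfsg.Agent.S1053
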