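import Cfsg.Statements.S1058
import Cfsg.Agent.EqAll
import Cfsg.Agent.Chev.Pairs
import Cfsg.Agent.Chev.Tab
import Cfsg.Agent.Chev.LieInst
import Cfsg.Agent.S1060

set_option autoImplicit false
open Cfsg

namespace Cfsg.Agent.S1058

open CA.Chev Cfsg.Lie Cfsg.Lie.ChevalleyDatum Matrix

/-- the long root vectors -/
def vec (y : Fin 15) : chevB2.Idx → ZMod 2 := unp2 2 2 ([262144, 262165, 279552, 331776, 279637, 332053, 16, 349521, 349188, 1024, 4096, 5460, 1104, 4368, 5124].getD y 0)
/-- the transpositions -/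
def tr (y : Fin 15) : Equiv.Perm (Fin 6) :=
  (fun p : Fin 6 × Fin 6 => Equiv.swap p.1 p.2) ([(2, 3), (1, 2), (0, 1), (1, 4), (0, 3), (3, 4), (1, 3), (3, 5), (1, 5), (4, 5), (0, 5), (2, 5), (0, 2), (2, 4), (0, 4)].getD y (0, 0))
/-- the action of the root elements on the long root vectors -/
def act (r : Fin 8) (y : Fin 15) : Fin 15 :=
  Fin.ofNat 15 (Tab.d4 ([1070935971361608705, 841308455531802690, 853971732537018195, 773737960392917520, 710384439432525840, 609766741327848000, 605534239774685520, 1032585010812301920].getD r 0) y)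
/-- the permutations attached to the root elements -/
def img (r : Fin 8) : Equiv.Perm (Fin 6) :=
  (([[(1, 3)], [(0, 2), (1, 3), (4, 5)], [(0, 5), (1, 3), (2, 4)], [(4, 5)], [(0, 5)], [(0, 1), (2, 3), (4, 5)], [(0, 5), (1, 4), (2, 3)], [(2, 3)]].getD r []).map
    fun p : Fin 6 × Fin 6 => Equiv.swap p.1 p.2).prod
/-- a basis -/
def bas : chevB2.Idx → Fin 15 := Sum.elim ![0, 1] ![2, 3, 4, 5, 6, 7, 9, 10]
/-- the inverse of the basis matrix -/
def inv : Matrix chevB2.Idx chevB2.Idx (ZMod 2) :=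
  Matrix.of fun i j => unp2 2 2 ((Sum.elim ![344385, 324] ![16448, 65792, 69, 261, 17, 5, 17408, 69632] : chevB2.Idx → ℕ) i) j

theorem h1 : ∀ r y, chevB2.xMat (ZMod 2) r 1 *ᵥ vec y = vec (act r y) := by decide +kernel
theorem h2 : ∀ r y, img r * tr y = tr (act r y) * img r := by decide +kernel
theorem h3 : Function.Injective tr := by decide +kernel
theorem h4 : (Matrix.of fun i j => vec (bas j) i) * inv = 1 := by decide +kernel


/-- B₂(2) ≅ S₆. -/
theorem result {F : Type*} [Field F] [Fintype F] (hF : Fintype.card F = 2) :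
    Nonempty (↥(Cfsg.Lie.chevB2.group F) ≃* Equiv.Perm (Fin 6)) := by
  obtain ⟨e⟩ := nonempty_groupCongr (D := chevB2) (ZMod.ringEquivOfPrime F Nat.prime_two hF).symm
  obtain ⟨e'⟩ := nonempty_equiv_of_pairs h3 bas inv h4 (chevB2.group (ZMod 2))
    (group_two_le fun r g hg => mem_pairG h3 (act r) (img r) (hg ▸ h1 r) (h2 r)) (by
      have := Cfsg.Agent.S1060.result (ZMod.card 2)
      rw [Nat.card_perm]
      norm_num [Nat.factorial] at this ⊢
      omega)
  exact ⟨e.trans e'⟩

end Cfsg.Agent.S1058
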