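import Cfsg.Statements.S1063
import Cfsg.Agent.Chev.ChevMain
import Cfsg.Agent.Chev.WeylPoly
import Cfsg.Agent.S1035

set_option autoImplicit false
open Cfsg

namespace Cfsg.Agent.S1063

/-- `gcd(3, q-1) · |E₆(q)| = q³⁶ (q² - 1)(q⁵ - 1)(q⁶ - 1)(q⁸ - 1)(q⁹ - 1)(q¹² - 1)`. -/
theorem result {F : Type*} [Field F] [Fintype F] {q : ℕ} (hq : Fintype.card F = q) : Nat.gcd 3 (q - 1) * Nat.card ↥(Cfsg.Lie.chevE6.group F) = q ^ 36 * (q ^ 2 - 1) * (q ^ 5 - 1) * (q ^ 6 - 1) * (q ^ 8 - 1) * (q ^ 9 - 1) * (q ^ 12 - 1) := by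
  have h1 : Nat.card (Cfsg.Lie.chevE6.group F) = Nat.card F ^ (Cfsg.Lie.chevE6.nroots / 2) *
      Nat.card (Cfsg.Lie.chevE6.diagonalSubgroup F) * CA.Weyl.chainPoly (Nat.card F) CA.Weyl.chainE6 :=
    CA.ChevSys.card_group (D := Cfsg.Lie.chevE6) (F := F) CA.Weyl.cartanE6 CA.Weyl.chk_chainE6
    CA.Weyl.all_chainE6
  have h2 : Nat.gcd 3 (q - 1) * Nat.card (Cfsg.Lie.chevE6.diagonalSubgroup F) = (q - 1) ^ 6 :=
    Cfsg.Agent.S1035.result hq (Cfsg.Lie.chevE6, Nat.gcd 3 (q - 1)) (by simp)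
  have h3 := CA.Weyl.polyE6 q
  have h0 : 0 < q := hq ▸ Fintype.card_pos
  have h4 : Nat.card F = q := by rw [Nat.card_eq_fintype_card, hq]
  have h5 : Cfsg.Lie.chevE6.nroots / 2 = 36 := by decide
  rw [h4, h5] at h1
  rw [← CA.Weyl.chainPoly_cast] at h3
  rw [h1]
  zify [h0, Nat.one_le_pow 2 q h0, Nat.one_le_pow 5 q h0, Nat.one_le_pow 6 q h0, Nat.one_le_pow 8 q h0, Nat.one_le_pow 9 q h0, Nat.one_le_pow 12 q h0] at h2 ⊢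
  linear_combination (q : ℤ) ^ 36 * h3 + (q : ℤ) ^ 36 * (CA.Weyl.chainPoly q CA.Weyl.chainE6 : ℕ) * h2

end Cfsg.Agent.S1063
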