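import Cfsg.Statements.S1072
import Cfsg.Agent.Chev.TwF4

set_option autoImplicit false
open Cfsg

namespace Cfsg.Agent.S1072

/-- ²F₄(2^(2m+1)) is simple for `m ≥ 1`. -/
theorem result {K : Type*} [Field K] [Fintype K] {m : ℕ} (hm : 1 ≤ m) (hK : Fintype.card K = 2 ^ (2 * m + 1)) :
    IsSimpleGroup ↥(Cfsg.Lie.twistedF4 K (2 ^ m)) ∧ ¬ IsMulCommutative ↥(Cfsg.Lie.twistedF4 K (2 ^ m)) := by
  obtain ⟨_, σ, hσ, h2⟩ := CA.ChevSys.exists_frobRee Nat.prime_two hK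
  exact CA.ChevSys.simpleF4 hσ h2 (hK ▸ (Nat.pow_lt_pow_right one_lt_two (by omega) : 2 ^ 1 < 2 ^ (2 * m + 1)))

end Cfsg.Agent.S1072
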