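import Cfsg.Statements.S1075
import Cfsg.Agent.EqAll
import Cfsg.Agent.Chev.Ree3
import Cfsg.Agent.S1069

set_option autoImplicit false
open Cfsg

namespace Cfsg.Agent.S1075

/-- The derived subgroup of ²G₂(3) (θ = identity over the field with three elements) has order 504 = 1512/3 and is isomorphic to PSL₂ over the field with eight elements. -/
theorem result {L : Type*} [Field L] [Fintype L] (hL : Fintype.card L = 8) :
    Nat.card ↥(commutator ↥(Cfsg.Lie.twistedG2 (ZMod 3) 1)) = 504 ∧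
      Nonempty (↥(commutator ↥(Cfsg.Lie.twistedG2 (ZMod 3) 1)) ≃* Matrix.ProjectiveSpecialLinearGroup (Fin 2) L) := by
  obtain ⟨e⟩ := CA.Chev.Ree3.nonempty_equiv (Cfsg.Agent.S1069.result (m := 0) (ZMod.card 3))
  obtain ⟨e'⟩ := Lin.nonempty_pslCongr (ι := Fin 2) (CA.Chev.F8.card.trans hL.symm)
  refine ⟨?_, ⟨e.trans e'⟩⟩
  have := Lin.card_PSL2 CA.Chev.F8.card
  rw [Nat.card_congr e.toEquiv]
  simpa using this

end Cfsg.Agent.S1075
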