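import Cfsg.Statements.S1081
import Cfsg.Agent.Chev.AutInst

set_option autoImplicit false
open Cfsg

namespace Cfsg.Agent.S1081

/-- Graph automorphisms: for E₆ with ρ = (p₁ p₆)(p₃ p₅) and for D₄ with ρ the 3-cycle on the outer nodes there is a group automorphism sending `x_p(t) ↦ x_{ρ(p)}(t)` and `x_{-p}(t) ↦ x_{-ρ(p)}(t)` for every fundamental root `p`. -/
theorem result {F : Type*} [Field F] (p : Cfsg.Lie.ChevalleyDatum × List ℕ)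
    (hp : p ∈ [(Cfsg.Lie.chevE6, [5, 1, 4, 3, 2, 0]), (Cfsg.Lie.chevD4, [2, 1, 3, 0]), (Cfsg.Lie.chevD4, [3, 1, 0, 2])]) :
    ∃ α : ↥(p.1.group F) ≃* ↥(p.1.group F), ∀ (g : ↥(p.1.group F)) (i : ℕ) (t : F), i < p.1.rank →
      (((g : GL p.1.Idx F) : Matrix p.1.Idx p.1.Idx F) = p.1.x F (p.1.simple i) t →
        ((α g : GL p.1.Idx F) : Matrix p.1.Idx p.1.Idx F) = p.1.x F (p.1.simple (p.2.getD i 0)) t) ∧
      (((g : GL p.1.Idx F) : Matrix p.1.Idx p.1.Idx F) = p.1.x F (p.1.neg (p.1.simple i)) t →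
        ((α g : GL p.1.Idx F) : Matrix p.1.Idx p.1.Idx F) = p.1.x F (p.1.neg (p.1.simple (p.2.getD i 0))) t) := by
  have keygrE6 : ∀ i : Fin Cfsg.Lie.chevE6.rank, (Cfsg.Lie.chevE6.simple i < Cfsg.Lie.chevE6.nroots ∧ CA.Chev.grE6.ι (Cfsg.Lie.chevE6.simple i) = Cfsg.Lie.chevE6.simple ([5, 1, 4, 3, 2, 0].getD i 0) ∧ CA.Chev.grE6.γ (Cfsg.Lie.chevE6.simple i) = 1 ∧ CA.Chev.grE6.e (Cfsg.Lie.chevE6.simple i) = 1) ∧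
      (Cfsg.Lie.chevE6.neg (Cfsg.Lie.chevE6.simple i) < Cfsg.Lie.chevE6.nroots ∧ CA.Chev.grE6.ι (Cfsg.Lie.chevE6.neg (Cfsg.Lie.chevE6.simple i)) = Cfsg.Lie.chevE6.neg (Cfsg.Lie.chevE6.simple ([5, 1, 4, 3, 2, 0].getD i 0)) ∧ CA.Chev.grE6.γ (Cfsg.Lie.chevE6.neg (Cfsg.Lie.chevE6.simple i)) = 1 ∧ CA.Chev.grE6.e (Cfsg.Lie.chevE6.neg (Cfsg.Lie.chevE6.simple i)) = 1) := by decide +kernel
  have keytriD4 : ∀ i : Fin Cfsg.Lie.chevD4.rank, (Cfsg.Lie.chevD4.simple i < Cfsg.Lie.chevD4.nroots ∧ CA.Chev.triD4.ι (Cfsg.Lie.chevD4.simple i) = Cfsg.Lie.chevD4.simple ([2, 1, 3, 0].getD i 0) ∧ CA.Chev.triD4.γ (Cfsg.Lie.chevD4.simple i) = 1 ∧ CA.Chev.triD4.e (Cfsg.Lie.chevD4.simple i) = 1) ∧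
      (Cfsg.Lie.chevD4.neg (Cfsg.Lie.chevD4.simple i) < Cfsg.Lie.chevD4.nroots ∧ CA.Chev.triD4.ι (Cfsg.Lie.chevD4.neg (Cfsg.Lie.chevD4.simple i)) = Cfsg.Lie.chevD4.neg (Cfsg.Lie.chevD4.simple ([2, 1, 3, 0].getD i 0)) ∧ CA.Chev.triD4.γ (Cfsg.Lie.chevD4.neg (Cfsg.Lie.chevD4.simple i)) = 1 ∧ CA.Chev.triD4.e (Cfsg.Lie.chevD4.neg (Cfsg.Lie.chevD4.simple i)) = 1) := by decide +kernel
  have keytriD4b : ∀ i : Fin Cfsg.Lie.chevD4.rank, (Cfsg.Lie.chevD4.simple i < Cfsg.Lie.chevD4.nroots ∧ CA.Chev.triD4'.ι (Cfsg.Lie.chevD4.simple i) = Cfsg.Lie.chevD4.simple ([3, 1, 0, 2].getD i 0) ∧ CA.Chev.triD4'.γ (Cfsg.Lie.chevD4.simple i) = 1 ∧ CA.Chev.triD4'.e (Cfsg.Lie.chevD4.simple i) = 1) ∧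
      (Cfsg.Lie.chevD4.neg (Cfsg.Lie.chevD4.simple i) < Cfsg.Lie.chevD4.nroots ∧ CA.Chev.triD4'.ι (Cfsg.Lie.chevD4.neg (Cfsg.Lie.chevD4.simple i)) = Cfsg.Lie.chevD4.neg (Cfsg.Lie.chevD4.simple ([3, 1, 0, 2].getD i 0)) ∧ CA.Chev.triD4'.γ (Cfsg.Lie.chevD4.neg (Cfsg.Lie.chevD4.simple i)) = 1 ∧ CA.Chev.triD4'.e (Cfsg.Lie.chevD4.neg (Cfsg.Lie.chevD4.simple i)) = 1) := by decide +kernel
  simp only [List.mem_cons, List.not_mem_nil, or_false] at hp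
  rcases hp with rfl | rfl | rfl
  · obtain ⟨β, hβ⟩ := CA.Chev.grE6.exists_aut' CA.Chev.coxE6 Nat.cast_zero (CA.Chev.grE6_bij (K := F))
    refine ⟨β, fun g i t hi => ⟨fun h => ?_, fun h => ?_⟩⟩
    · have := hβ g _ _ _ t (keygrE6 ⟨i, hi⟩).1 h
      simpa using this
    · have := hβ g _ _ _ t (keygrE6 ⟨i, hi⟩).2 h
      simpa using this
  · obtain ⟨β, hβ⟩ := CA.Chev.triD4.exists_aut' CA.Chev.coxD4 Nat.cast_zero (CA.Chev.triD4_bij (K := F))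
    refine ⟨β, fun g i t hi => ⟨fun h => ?_, fun h => ?_⟩⟩
    · have := hβ g _ _ _ t (keytriD4 ⟨i, hi⟩).1 h
      simpa using this
    · have := hβ g _ _ _ t (keytriD4 ⟨i, hi⟩).2 h
      simpa using this
  · obtain ⟨β, hβ⟩ := CA.Chev.triD4'.exists_aut' CA.Chev.coxD4 Nat.cast_zero (CA.Chev.triD4'_bij (K := F))
    refine ⟨β, fun g i t hi => ⟨fun h => ?_, fun h => ?_⟩⟩
    · have := hβ g _ _ _ t (keytriD4b ⟨i, hi⟩).1 h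
      simpa using this
    · have := hβ g _ _ _ t (keytriD4b ⟨i, hi⟩).2 h
      simpa using this

end Cfsg.Agent.S1081
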