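import Cfsg.Statements.S1083
import Cfsg.Agent.Chev.OrthRep
import Cfsg.Agent.S1056
import Cfsg.Agent.EqAll

set_option autoImplicit false
open Cfsg

namespace Cfsg.Agent.S1083

/-- B₂(F) ≅ PΩ₅(F) for the form `x₀² + x₁y₁ + x₂y₂`, over every field with more than two elements. -/
theorem result {F : Type*} [Field F] (hF : ∃ a : F, a ≠ 0 ∧ a ≠ 1) :
    Nonempty (↥(Cfsg.Lie.chevB2.group F) ≃* Cfsg.POmega F (Cfsg.quadFormOdd 2 F)) := by
  exact CA.Chev.nonempty_B2_equiv hF (Cfsg.Agent.S1056.result hF).1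

end Cfsg.Agent.S1083
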