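import Cfsg.Statements.S1084
import Cfsg.Agent.Chev.E6Cubic
import Cfsg.Agent.S1054
import Cfsg.Agent.EqAll

set_option autoImplicit false
open Cfsg

namespace Cfsg.Agent.S1084

/-- E₆ via the 27-dimensional cubic form: for a finite field with at least three elements, (isometries of the cubic form) / centre ≅ the Chevalley group E₆(F). -/
theorem result {F : Type*} [Field F] [Fintype F] (hF : 3 ≤ Fintype.card F) : Nonempty (Cfsg.Lie.E6 F ≃* ↥(Cfsg.Lie.chevE6.group F)) := by
  refine CA.Chev.nonempty_E6_equiv ?_ (Cfsg.Agent.S1054.result _ (by simp)).1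
  have : Nontrivial Fˣ := by
    rw [← Finite.one_lt_card_iff_nontrivial, Nat.card_units, Nat.card_eq_fintype_card]; omega
  obtain ⟨c, hc⟩ := exists_ne (1 : Fˣ)
  exact ⟨c, c.ne_zero, fun h => hc (Units.ext h)⟩

end Cfsg.Agent.S1084
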