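import Cfsg.Statements.S1095
import Cfsg.Agent.Chev.LieInst
import Cfsg.Agent.Chev.Lie4

set_option autoImplicit false
open Cfsg

namespace Cfsg.Agent.S1095

/-- `n_p` (p = p_{i+1} fundamental) is the signed monomial matrix `h_{p_j} ↦ h_{p_j} - A_{p_j,p} h_p`, `e_s ↦ η_s e_{w_p(s)}`, with `η_s = ±1`, `η_p = η_{-p} = -1`, `η_s η_{w_p(s)} = (-1)^{A_{p,s}}`, `η_s η_{-s} = 1`. -/
theorem result {F : Type*} [Field F] (D : Cfsg.Lie.ChevalleyDatum) (hD : D ∈ [Cfsg.Lie.chevG2, Cfsg.Lie.chevB2, Cfsg.Lie.chevD4, Cfsg.Lie.chevF4, Cfsg.Lie.chevE6, Cfsg.Lie.chevE7, Cfsg.Lie.chevE8]) (i : ℕ) (hi : i < D.rank) :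
    ∃ η : ℕ → ℤ, (∀ s < D.nroots, η s = 1 ∨ η s = -1) ∧ η (D.simple i) = -1 ∧ η (D.neg (D.simple i)) = -1 ∧
      (∀ s < D.nroots, η s * η (D.reflectRoot i s) = (-1) ^ (D.cartan i s).natAbs ∧ η s * η (D.neg s) = 1) ∧
      D.nMat F (D.simple i) 1 = Matrix.of (fun (row col : D.Idx) =>
        Sum.elim
          (fun j' : Fin D.rank => Sum.elim
            (fun j : Fin D.rank => (if j' = j then (1 : F) else 0) - (if (j' : ℕ) = i then ((D.cartan j (D.simple i) : ℤ) : F) else 0))
            (fun _ => (0 : F)) col)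
          (fun s' : Fin D.nroots => Sum.elim
            (fun _ => (0 : F))
            (fun s : Fin D.nroots => if (s' : ℕ) = D.reflectRoot i s then ((η s : ℤ) : F) else 0) col)
          row) := by
  obtain ⟨G, L⟩ := CA.Chev.exists_lieGood hD
  lift i to CA.Chev.Nd D using hi
  open CA.Chev in
  refine ⟨fun s => if h : s < D.nroots then eta (sim i) ⟨s, h⟩ else 1, fun s hs => ?_, ?_, ?_, fun s hs => ?_, ?_⟩
  · simp only [hs, dite_true]; exact eta_unit _ _
  · exact (dif_pos (sim i).2).trans (eta_self _)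
  · exact (dif_pos (ng (sim i)).2).trans ((eta_ng (sim i) (sim i)).trans (eta_self _))
  · lift s to Rt D using hs
    rw [← refl_sim_val, ← ng_val]
    simp only [Fin.is_lt, dite_true, Fin.eta, eta_mul_eta_refl, eta_mul_eta_ng, and_true, pair_sim]
    rcases Int.even_or_odd (D.cartan i s) with h | h
    · rw [h.neg_one_zpow, (Int.natAbs_even.2 h).neg_one_pow]; rfl
    · rw [h.neg_one_zpow, (Int.natAbs_odd.2 h).neg_one_pow]; rfl
  · rw [← sim_val, nMat_one]
    ext a b
    have hX : nU (sim i) (1 : Fˣ) a b = (Matrix.mulVec (nU (sim i) (1 : Fˣ)) (Pi.single b 1)) a := by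
      rw [Matrix.mulVec_single_one]; rfl
    rw [hX]
    rcases b with j | s
    · rw [← hV_single, nU_hV, cop_single, cor_sim]
      rcases a with k | u
      · simp only [hV_inl, Pi.sub_apply, Pi.smul_apply, Pi.single_apply, Matrix.of_apply, Sum.elim_inl, Fin.val_inj]
        split_ifs <;> simp
      · simp
    · change (Matrix.mulVec _ (eV F s)) a = _
      rw [nU_eV]
      rcases a with k | u
      · simp
      · simp only [Pi.smul_apply, eV_inr, Matrix.of_apply, Sum.elim_inr, ← refl_sim_val, Fin.val_inj, Fin.is_lt,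
          dite_true, Fin.eta]
        split_ifs <;> simp

end Cfsg.Agent.S1095
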