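import Cfsg.Statements.S1097
import Cfsg.Agent.Chev.StInst
import Cfsg.Agent.Chev.St4

set_option autoImplicit false
open Cfsg

namespace Cfsg.Agent.S1097

/-- Any homomorphism from the presented group to the Chevalley group with `x̄_r(t) ↦ x_r(t)` has kernel contained in `H̄ = ⟨h̄_p(t) : p fundamental, t ≠ 0⟩`. -/
theorem result {K : Type*} [Field K] (D : Cfsg.Lie.ChevalleyDatum) (hD : D ∈ [Cfsg.Lie.chevG2, Cfsg.Lie.chevB2, Cfsg.Lie.chevD4, Cfsg.Lie.chevF4, Cfsg.Lie.chevE6, Cfsg.Lie.chevE7, Cfsg.Lie.chevE8]) (θ : D.SteinbergGroup K →* ↥(D.group K))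
    (hθ : ∀ (r : ℕ) (t : K), r < D.nroots → ((θ (D.stGen K r t) : GL D.Idx K) : Matrix D.Idx D.Idx K) = D.x K r t) :
    θ.ker ≤ Subgroup.closure {h | ∃ (i : ℕ) (t : K), i < D.rank ∧ t ≠ 0 ∧ h = PresentedGroup.mk (D.steinbergRels K) (D.stH (D.simple i) t)} := by
  obtain ⟨G, L, T, M, hA⟩ := CA.Chev.exists_stGood hD
  have h1 : θ = CA.Chev.stProj D K := CA.Chev.steinberg_hom_ext fun r t => by
    rw [CA.Chev.stProj_xS]; exact CA.Chev.eq_xG_iff.1 (hθ r t r.2)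
  intro g hg
  rw [h1, CA.Chev.stProj_ker_eq_center hA, CA.Chev.mem_center_steinberg hA] at hg
  obtain ⟨c, -, rfl⟩ := hg
  refine (?_ : (CA.Chev.stSt D K).hP.range ≤ _) ⟨c, rfl⟩
  rw [CA.Chev.StSys.hP, MonoidHom.noncommPiCoprod_range]
  refine iSup_le fun i => ?_
  rintro _ ⟨c, rfl⟩
  exact Subgroup.subset_closure ⟨i, c, i.2, c.ne_zero, CA.Chev.stSt_h _ c⟩

end Cfsg.Agent.S1097
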