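import Cfsg.Statements.S1098
import Cfsg.Agent.Chev.AutInst

set_option autoImplicit false
open Cfsg

namespace Cfsg.Agent.S1098

/-- Graph automorphisms in characteristic 2 (K perfect): for B₂ (a short, b long) `x_a(t) ↦ x_b(t²)`, `x_b(t) ↦ x_a(t)`, and for F₄ (p₁, p₂ short, p₃, p₄ long) `x_{p₁}(t) ↦ x_{p₄}(t²)`, `x_{p₂}(t) ↦ x_{p₃}(t²)`, `x_{p₃}(t) ↦ x_{p₂}(t)`, `x_{p₄}(t) ↦ x_{p₁}(t)`, likewise on the negatives, extend to an automorphism of the group. -/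
theorem result {K : Type*} [Field K] [CharP K 2] (hperf : ∀ x : K, ∃ y : K, y ^ 2 = x)
    (p : Cfsg.Lie.ChevalleyDatum × List (ℕ × ℕ))
    (hp : p ∈ [(Cfsg.Lie.chevB2, [(1, 2), (0, 1)]), (Cfsg.Lie.chevF4, [(3, 2), (2, 2), (1, 1), (0, 1)])]) :
    ∃ α : ↥(p.1.group K) ≃* ↥(p.1.group K), ∀ (g : ↥(p.1.group K)) (i : ℕ) (t : K), i < p.1.rank →
      (((g : GL p.1.Idx K) : Matrix p.1.Idx p.1.Idx K) = p.1.x K (p.1.simple i) t →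
        ((α g : GL p.1.Idx K) : Matrix p.1.Idx p.1.Idx K) = p.1.x K (p.1.simple (p.2.getD i (0, 1)).1) (t ^ (p.2.getD i (0, 1)).2)) ∧
      (((g : GL p.1.Idx K) : Matrix p.1.Idx p.1.Idx K) = p.1.x K (p.1.neg (p.1.simple i)) t →
        ((α g : GL p.1.Idx K) : Matrix p.1.Idx p.1.Idx K) = p.1.x K (p.1.neg (p.1.simple (p.2.getD i (0, 1)).1)) (t ^ (p.2.getD i (0, 1)).2)) := by
  have keyexB2 : ∀ i : Fin Cfsg.Lie.chevB2.rank, (Cfsg.Lie.chevB2.simple i < Cfsg.Lie.chevB2.nroots ∧ CA.Chev.exB2.ι (Cfsg.Lie.chevB2.simple i) = Cfsg.Lie.chevB2.simple (([(1, 2), (0, 1)].getD i (0, 1)).1) ∧ CA.Chev.exB2.γ (Cfsg.Lie.chevB2.simple i) = 1 ∧ CA.Chev.exB2.e (Cfsg.Lie.chevB2.simple i) = ([(1, 2), (0, 1)].getD i (0, 1)).2) ∧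
      (Cfsg.Lie.chevB2.neg (Cfsg.Lie.chevB2.simple i) < Cfsg.Lie.chevB2.nroots ∧ CA.Chev.exB2.ι (Cfsg.Lie.chevB2.neg (Cfsg.Lie.chevB2.simple i)) = Cfsg.Lie.chevB2.neg (Cfsg.Lie.chevB2.simple (([(1, 2), (0, 1)].getD i (0, 1)).1)) ∧ CA.Chev.exB2.γ (Cfsg.Lie.chevB2.neg (Cfsg.Lie.chevB2.simple i)) = 1 ∧ CA.Chev.exB2.e (Cfsg.Lie.chevB2.neg (Cfsg.Lie.chevB2.simple i)) = ([(1, 2), (0, 1)].getD i (0, 1)).2) := by decide +kernel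
  have keyexF4 : ∀ i : Fin Cfsg.Lie.chevF4.rank, (Cfsg.Lie.chevF4.simple i < Cfsg.Lie.chevF4.nroots ∧ CA.Chev.exF4.ι (Cfsg.Lie.chevF4.simple i) = Cfsg.Lie.chevF4.simple (([(3, 2), (2, 2), (1, 1), (0, 1)].getD i (0, 1)).1) ∧ CA.Chev.exF4.γ (Cfsg.Lie.chevF4.simple i) = 1 ∧ CA.Chev.exF4.e (Cfsg.Lie.chevF4.simple i) = ([(3, 2), (2, 2), (1, 1), (0, 1)].getD i (0, 1)).2) ∧
      (Cfsg.Lie.chevF4.neg (Cfsg.Lie.chevF4.simple i) < Cfsg.Lie.chevF4.nroots ∧ CA.Chev.exF4.ι (Cfsg.Lie.chevF4.neg (Cfsg.Lie.chevF4.simple i)) = Cfsg.Lie.chevF4.neg (Cfsg.Lie.chevF4.simple (([(3, 2), (2, 2), (1, 1), (0, 1)].getD i (0, 1)).1)) ∧ CA.Chev.exF4.γ (Cfsg.Lie.chevF4.neg (Cfsg.Lie.chevF4.simple i)) = 1 ∧ CA.Chev.exF4.e (Cfsg.Lie.chevF4.neg (Cfsg.Lie.chevF4.simple i)) = ([(3, 2), (2, 2), (1, 1), (0, 1)].getD i (0, 1)).2) := by decide +kernel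
  simp only [List.mem_cons, List.not_mem_nil, or_false] at hp
  rcases hp with rfl | rfl
  · obtain ⟨β, hβ⟩ := CA.Chev.exB2.exists_aut' CA.Chev.coxB2 _ (CA.Chev.exB2_bij hperf)
    refine ⟨β, fun g i t hi => ⟨fun h => ?_, fun h => ?_⟩⟩
    · have := hβ g _ _ _ t (keyexB2 ⟨i, hi⟩).1 h
      simpa using this
    · have := hβ g _ _ _ t (keyexB2 ⟨i, hi⟩).2 h
      simpa using this
  · obtain ⟨β, hβ⟩ := CA.Chev.exF4.exists_aut' CA.Chev.coxF4 _ (CA.Chev.exF4_bij hperf)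
    refine ⟨β, fun g i t hi => ⟨fun h => ?_, fun h => ?_⟩⟩
    · have := hβ g _ _ _ t (keyexF4 ⟨i, hi⟩).1 h
      simpa using this
    · have := hβ g _ _ _ t (keyexF4 ⟨i, hi⟩).2 h
      simpa using this

end Cfsg.Agent.S1098
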