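import Cfsg.Statements.S1100
import Cfsg.Agent.Chev.ChevMain

set_option autoImplicit false
open Cfsg

namespace Cfsg.Agent.S1100

/-- Canonical form `g = b n_w u` (`b ∈ B`, `u ∈ U_w⁻ = ⟨X_r : r > 0, n_w X_r n_w⁻¹ ≤ V⟩`): such a decomposition exists for every element of the group; the coset `n_w H` is determined by `g`; and for a fixed representative `n_w` the factors `b`, `u` are unique. -/
theorem result {F : Type*} [Field F] (D : Cfsg.Lie.ChevalleyDatum) (hD : D ∈ [Cfsg.Lie.chevG2, Cfsg.Lie.chevB2, Cfsg.Lie.chevD4, Cfsg.Lie.chevF4, Cfsg.Lie.chevE6, Cfsg.Lie.chevE7, Cfsg.Lie.chevE8]) :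
    (∀ g ∈ D.group F, ∃ b ∈ D.borelSubgroup F, ∃ n ∈ D.monomialSubgroup F,
      ∃ u ∈ Subgroup.closure {x : GL D.Idx F | ∃ (r : ℕ) (t : F), D.IsPosRoot r ∧
            (D.rootSubgroup F r).map (MulAut.conj n).toMonoidHom ≤ D.negUnipotent F ∧ (x : Matrix D.Idx D.Idx F) = D.x F r t},
        g = b * n * u) ∧
    (∀ (b b' n n' u u' : GL D.Idx F), b ∈ D.borelSubgroup F → b' ∈ D.borelSubgroup F →
      n ∈ D.monomialSubgroup F → n' ∈ D.monomialSubgroup F →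
      u ∈ Subgroup.closure {x : GL D.Idx F | ∃ (r : ℕ) (t : F), D.IsPosRoot r ∧
            (D.rootSubgroup F r).map (MulAut.conj n).toMonoidHom ≤ D.negUnipotent F ∧ (x : Matrix D.Idx D.Idx F) = D.x F r t} →
      u' ∈ Subgroup.closure {x : GL D.Idx F | ∃ (r : ℕ) (t : F), D.IsPosRoot r ∧
            (D.rootSubgroup F r).map (MulAut.conj n').toMonoidHom ≤ D.negUnipotent F ∧ (x : Matrix D.Idx D.Idx F) = D.x F r t} →
      b * n * u = b' * n' * u' → n⁻¹ * n' ∈ D.diagonalSubgroup F ∧ (n = n' → b = b' ∧ u = u')) := by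
  obtain ⟨G, W, L⟩ := CA.ChevSys.exists_good hD
  have hS := CA.ChevSys.faithful D F
  have key : ∀ {n : GL D.Idx F} {w}, (CA.ChevSys.sys D F).Rep n w →
      Subgroup.closure {x : GL D.Idx F | ∃ (r : ℕ) (t : F), D.IsPosRoot r ∧
        (D.rootSubgroup F r).map (MulAut.conj n).toMonoidHom ≤ D.negUnipotent F ∧
          (x : Matrix D.Idx D.Idx F) = D.x F r t} = (CA.ChevSys.sys D F).Um w := by
    intro n w h
    simp only [← and_assoc]
    rw [CA.ChevSys.closure_eq_XS (fun r => D.IsPosRoot r ∧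
      (D.rootSubgroup F r).map (MulAut.conj n).toMonoidHom ≤ D.negUnipotent F) fun r h => h.1.1, CA.RGD.Sys.Um]
    congr 1; ext r
    rw [CA.Chev.isPosRoot_iff, ← CA.ChevSys.sys_X, h.map_X, ← CA.ChevSys.sys_V]
    exact and_congr Iff.rfl ⟨hS.not_pos_of_X_le_V, (CA.ChevSys.sys D F).X_le_V⟩
  rw [← CA.ChevSys.sys_N, ← CA.ChevSys.sys_Bo, ← CA.ChevSys.sys_G]
  refine ⟨fun g hg => ?_, fun b b' n n' u u' hb hb' hn hn' hu hu' he => ?_⟩
  · obtain ⟨w, m, hm, b, hb, u, hu, rfl⟩ := CA.RGD.Sys.exists_bruhat hg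
    exact ⟨b, hb, m, hm.mem_N, u, by rwa [key hm], rfl⟩
  · obtain ⟨w, hw⟩ := CA.RGD.Sys.mem_N_iff.1 hn
    obtain ⟨w', hw'⟩ := CA.RGD.Sys.mem_N_iff.1 hn'
    rw [key hw] at hu
    rw [key hw'] at hu'
    have h1 : w = w' := hS.cell_unique
      ((hw.cell.Bo_mul hb).mul_Bo ((CA.ChevSys.sys D F).U_le_Bo ((CA.ChevSys.sys D F).Um_le_U _ hu)))
      (he ▸ (hw'.cell.Bo_mul hb').mul_Bo ((CA.ChevSys.sys D F).U_le_Bo ((CA.ChevSys.sys D F).Um_le_U _ hu')))
    subst h1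
    refine ⟨hw.inv_mul_mem hw', ?_⟩
    rintro rfl
    exact hS.bruhat_unique hw hb hb' hu hu' he

end Cfsg.Agent.S1100
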