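import Cfsg.Statements.S1416
import Cfsg.Agent.BG.I12

set_option autoImplicit false
open Cfsg

namespace Cfsg.Agent.S1416

/-- Let G be a minimal simple group of odd order, M a maximal subgroup, p a prime and A ≤ M elementary abelian of order p ^ 2. Then C_G(A) ≤ M. If moreover for every subgroup A₀ of A of order p, M is not the unique maximal subgroup containing N_G(A₀), then p ∈ σ(M), M_α = 1 and M_σ is nilpotent. -/
theorem result {G : Type*} [Group G] [Finite G] (hG : Cfsg.IsMinSimpleOddOrder G)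
    (M : Subgroup G) (hM : IsCoatom M) (p : ℕ) [Fact p.Prime] (A : Subgroup G) (hA : (A ≤ M ∧ Cfsg.IsElementaryAbelian p A ∧ Nat.card A = p ^ 2)) :
    Subgroup.centralizer (A : Set G) ≤ M ∧
      ((∀ A₀ : Subgroup G, A₀ ≤ A → Nat.card A₀ = p →
          ¬ (Subgroup.normalizer (A₀ : Set G) ≤ M ∧ ∀ L : Subgroup G, IsCoatom L → Subgroup.normalizer (A₀ : Set G) ≤ L → L = M)) →
        p ∈ Cfsg.sigma M ∧ Cfsg.alphaCore M = ⊥ ∧ Group.IsNilpotent (Cfsg.sigmaCore M)) := by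
  haveI : CA.FG.MinSimpleOdd G := ⟨hG⟩
  have hp : p.Prime := Fact.out
  obtain ⟨h1, h2⟩ := CA.BG.p2Elem_mmax hp hM (A := A) hA
  refine ⟨h1, fun h => h2 fun A₀ hA₀ hu => ?_⟩
  rw [CA.FG.pnElem_one_iff hp] at hA₀
  exact h A₀ hA₀.1 hA₀.2 ⟨hu.2.1, hu.2.2⟩

end Cfsg.Agent.S1416
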