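import Cfsg.Statements.S1443
import Cfsg.Agent.BG.I01
-- import your own Cfsg.Agent.* helpers here

set_option autoImplicit false
open Cfsg

namespace Cfsg.Agent.S1443

/-- Let G be a finite group, p an odd prime, H a p-subgroup, E an elementary abelian subgroup of H, and A a subgroup of order coprime to p normalizing H. If A centralizes every element of order p in H ∩ C_G(E), then A centralizes H. -/
theorem result {G : Type*} [Group G] [Finite G] (p : ℕ) [Fact p.Prime] (hp : p ≠ 2) (H E A : Subgroup G) (hH : IsPGroup p H) (hE : E ≤ H) (hEe : Cfsg.IsElementaryAbelian p E)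
    (hA : (A ≤ Subgroup.normalizer (H : Set G))) (hcop : (Nat.card A).Coprime p)
    (hfix : ∀ x ∈ (H ⊓ Subgroup.centralizer (E : Set G)), orderOf x = p → A ≤ Subgroup.centralizer ({x} : Set G)) :
    A ≤ Subgroup.centralizer (H : Set G) := by
  have hp' : p.Prime := Fact.out
  have pH := CA.FG.pGrp_of_isPGroup hp' hH
  obtain ⟨k, hk⟩ := (CA.FG.pGrp_iff_card hp').1 pH
  refine CA.BG.coprime_odd_faithful_cent_abelem hE hEe pH hA (hk ▸ (hcop.symm.pow_left k))
    (hk ▸ (hp'.odd_of_ne_two hp).pow) fun x hx e => ?_
  by_cases h1 : x = 1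
  · subst h1
    exact fun a _ => Subgroup.mem_centralizer_singleton_iff.2 (by simp)
  · exact hfix x hx (orderOf_eq_prime e h1)

end Cfsg.Agent.S1443
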