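import Cfsg.Statements.S1450
import Cfsg.Agent.BG.P05s

set_option autoImplicit false
open Cfsg

namespace Cfsg.Agent.S1450

/-- Let G be a solvable group of odd order, p a prime dividing its order with G having no elementary abelian subgroup of order p ^ 3. Then every prime dividing the index of O_{p'}(G) is at most p; if p = 3 or p is the smallest prime divisor of #G then G has a normal p-complement; the derived subgroup G' has a normal p-complement; every subgroup of G' of order coprime to p lies in O_{p'}(G'); and G/O_{p',p}(G) is abelian of order coprime to p. -/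
theorem result {G : Type*} [Group G] [Finite G] [Group.IsSolvable G] (hodd : Odd (Nat.card G)) (p : ℕ) [Fact p.Prime] (hpG : p ∣ Nat.card G) (hr : Cfsg.PRankLE p 2 G) :
    (∀ q : ℕ, q.Prime → q ∣ (Cfsg.pPrimeCore p G).index → q ≤ p) ∧
      ((p = 3 ∨ ∀ q : ℕ, q.Prime → q ∣ Nat.card G → p ≤ q) → Cfsg.HasNormalPComplement p G) ∧
      Cfsg.HasNormalPComplement p ↥(commutator G) ∧
      (∀ L : Subgroup ↥(commutator G), (Nat.card L).Coprime p → L ≤ Cfsg.pPrimeCore p ↥(commutator G)) ∧
      commutator G ≤ Cfsg.pPrimePCore p G ∧ ((Cfsg.pPrimePCore p G).index).Coprime p := by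
  have hp' : p.Prime := Fact.out
  have sol := (CA.FG.sol_top_iff (G := G)).2 inferInstance
  have odd : Odd (Nat.card (⊤ : Subgroup G)) := by rwa [Subgroup.card_top]
  have r := CA.BG.P04.rkLE_top_iff.2 hr
  obtain ⟨h1, h2⟩ := CA.BG.P04.rank2_der1_complement hp' sol odd r
  exact CA.BG.P05.type_level_p_structure hp' hodd
    ⟨h1, fun q hq h => CA.BG.P04.rank2_max_pdiv hp' hq sol odd r h, h2⟩

end Cfsg.Agent.S1450
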