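import Cfsg.Statements.S1451
import Cfsg.Agent.BG.P05s

set_option autoImplicit false
open Cfsg

namespace Cfsg.Agent.S1451

/-- Let G be a solvable group of odd order such that G, or its Fitting subgroup, has no elementary abelian subgroup of order q ^ 3 for any prime q. Then G' is nilpotent; for every Sylow subgroup S of G, every characteristic subgroup T of S with T ≤ [S, S] is normal in G; and for every prime p, G has a characteristic subgroup that is a Hall subgroup for the set of primes greater than p. -/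
theorem result {G : Type*} [Group G] [Finite G] [Group.IsSolvable G] (hodd : Odd (Nat.card G)) (hr : Cfsg.RankLE 2 G ∨ Cfsg.RankLE 2 (Cfsg.fittingSubgroup G)) :
    Group.IsNilpotent ↥(commutator G) ∧
      (∀ (q : ℕ) [Fact q.Prime] (S : Sylow q G) (T : Subgroup ↥(S : Subgroup G)), T.Characteristic → T.map (S : Subgroup G).subtype ≤ ⁅(S : Subgroup G), (S : Subgroup G)⁆ →
        (T.map (S : Subgroup G).subtype).Normal) ∧
      ∀ p : ℕ, ∃ N : Subgroup G, N.Characteristic ∧ Cfsg.IsPiHall {q | q.Prime ∧ p < q} N := by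
  have sol := (CA.FG.sol_top_iff (G := G)).2 inferInstance
  have odd : Odd (Nat.card (⊤ : Subgroup G)) := by rwa [Subgroup.card_top]
  have rF : CA.FG.rank (fittingOf (⊤ : Subgroup G)) ≤ 2 := by
    rcases hr with h | h
    · exact CA.BG.P04.rank_le_iff.2 fun p hp => (CA.BG.P04.rkLE_top_iff.2 (h p hp)).mono le_top
    · rw [CA.FG.fitting_top]
      exact CA.BG.P04.rank_le_iff_rankLE.2 h
  have hF := CA.BG.P04.rank2_der1_sub_Fitting odd sol rF
  refine ⟨CA.FG.nil_of_le (CA.FG.fitting_nil _) hF, fun q _ S T chT hT => ?_, fun p => ?_⟩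
  · refine CA.FG.normalIn_top.1 (CA.BG.P04.char_Sylow_normal_of_der_le Fact.out hF
      (CA.FG.sylow_top Fact.out S) ⟨Subgroup.map_subtype_le _, ?_⟩ hT)
    rwa [CA.FG.subgroupOf_map_subtype']
  · have h := CA.BG.P04.rank2_ge_pcore_Hall (p + 1) odd sol rF
    refine ⟨_, ?_, CA.FG.pHall_top_iff.1 ((CA.FG.pHall_congr fun q hq _ => ?_).1 h)⟩
    · rw [Subgroup.characteristic_iff_map_le]
      intro e
      exact (CA.FG.pcore_map_le _ _ _).trans
        (by rw [Subgroup.map_top_of_surjective _ e.surjective])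
    · exact ⟨fun h => ⟨hq, h⟩, fun h => h.2⟩

end Cfsg.Agent.S1451
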