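import Cfsg.Statements.S1453
import Cfsg.Agent.BG.P05a
import Cfsg.Agent.FG.Nil

set_option autoImplicit false
open Cfsg

namespace Cfsg.Agent.S1453

/-- Let p be an odd prime and R a finite p-group with an elementary abelian subgroup of order p ^ 3 and an elementary abelian subgroup E of order p ^ 2 contained in no larger elementary abelian subgroup. Let Z₂ be the second centre of R, W the subgroup generated by the elements of Z₂ of order dividing p, and T = C_R(W). Then E is not contained in T; the elements of order dividing p of the centre of R generate a group of order p; W is elementary abelian of order p ^ 2; and T is characteristic in R of index p. -/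
theorem result {R : Type*} [Group R] [Finite R] (p : ℕ) [Fact p.Prime] (hp : p ≠ 2) (hR : IsPGroup p R) (hr : ¬ Cfsg.PRankLE p 2 R)
    (E : Subgroup R) (hE : Cfsg.IsElementaryAbelian p E) (hE2 : Nat.card E = p ^ 2)
    (hEmax : ∀ B : Subgroup R, Cfsg.IsElementaryAbelian p B → E ≤ B → B = E) :
    ¬ E ≤ Subgroup.centralizer ((Subgroup.closure {x : R | x ∈ Subgroup.upperCentralSeries R 2 ∧ x ^ p = 1} : Subgroup R) : Set R) ∧
      Nat.card ↥(Subgroup.closure {x : R | x ∈ Subgroup.center R ∧ x ^ p = 1}) = p ∧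
      (Cfsg.IsElementaryAbelian p (Subgroup.closure {x : R | x ∈ Subgroup.upperCentralSeries R 2 ∧ x ^ p = 1}) ∧
        Nat.card ↥(Subgroup.closure {x : R | x ∈ Subgroup.upperCentralSeries R 2 ∧ x ^ p = 1}) = p ^ 2) ∧
      (Subgroup.centralizer ((Subgroup.closure {x : R | x ∈ Subgroup.upperCentralSeries R 2 ∧ x ^ p = 1} : Subgroup R) : Set R)).Characteristic ∧
      (Subgroup.centralizer ((Subgroup.closure {x : R | x ∈ Subgroup.upperCentralSeries R 2 ∧ x ^ p = 1} : Subgroup R) : Set R)).index = p := by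
  have h := CA.BG.P05.ohm1_ucn_p2maxElem (R := ⊤) (E := E) Fact.out hp (hR.to_subgroup ⊤)
    (fun h => hr (CA.BG.P04.rkLE_top_iff.1 h)) ⟨le_top, hE, hE2⟩
    ⟨le_top, hE, fun B _ h1 h2 => hEmax B h1 h2⟩
  rw [CA.FG.ucn_top, CA.FG.cent_top, top_inf_eq, top_inf_eq, Subgroup.relIndex_top_right] at h
  obtain ⟨h1, h2, h3, h4, h5⟩ := h
  refine ⟨h1, h2, ⟨h3.2.1, h3.2.2⟩, ?_, h5⟩
  rw [Subgroup.characteristic_iff_map_le]
  intro e
  rintro _ ⟨x, hx, rfl⟩
  exact (CA.FG.charIn_iff.1 h4).2 (Subgroup.topEquiv.trans (e.trans Subgroup.topEquiv.symm))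
    ⟨x, trivial⟩ hx

end Cfsg.Agent.S1453
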