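import Cfsg.Statements.S1454
import Cfsg.Agent.BG.P05s

set_option autoImplicit false
open Cfsg

namespace Cfsg.Agent.S1454

/-- Let G be a finite group, p an odd prime, R a narrow p-subgroup and A a solvable subgroup of odd order normalizing R with A ∩ C_G(R) = 1. Then [A, A] ≤ O_p(A) and the index of O_p(A) in A is coprime to p; if R has an elementary abelian subgroup of order p ^ 3 then the order of every element of A of order coprime to p divides p − 1; and if the order of A is a prime not dividing p(p − 1), then 2·#A divides p + 1, and if in addition [R, A] = R and R is non-abelian then #R = p ^ 3. -/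
theorem result {G : Type*} [Group G] [Finite G] (p : ℕ) [Fact p.Prime] (hp : p ≠ 2) (R A : Subgroup G) (hR : IsPGroup p R) (hRn : Cfsg.IsNarrow p R)
    (hA : (A ≤ Subgroup.normalizer (R : Set G))) (hAs : Group.IsSolvable A) (hAodd : Odd (Nat.card A)) (hfaith : A ⊓ Subgroup.centralizer (R : Set G) = ⊥) :
    (commutator ↥A ≤ Cfsg.pCore p ↥A ∧ ((Cfsg.pCore p ↥A).index).Coprime p) ∧
      (¬ Cfsg.PRankLE p 2 R → ∀ a ∈ A, (orderOf a).Coprime p → orderOf a ∣ p - 1) ∧
      ((Nat.card A).Prime → ¬ Nat.card A ∣ p * (p - 1) →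
        2 * Nat.card A ∣ p + 1 ∧ (⁅R, A⁆ = R → ¬ IsMulCommutative R → Nat.card R = p ^ 3)) := by
  have hp' : p.Prime := Fact.out
  have nn := (CA.BG.P05.narrow_iff_isNarrow hp' hp hR).2 hRn
  obtain ⟨h1, h2, h3⟩ := CA.BG.P05.faithful_narrow hp' hR (CA.BG.P04.odd_of_ne_two hp' hR hp) nn
    hA hAodd hfaith
  refine ⟨⟨?_, ?_⟩, fun r a ha h => h3 (fun h => r (CA.BG.P04.rkLE_iff_pRankLE.1 h)) a ha
    ((CA.FG.piNat_compl_singleton_iff_coprime hp').2 h),
    CA.BG.P05.faithful_narrow_prime hp' hp hR nn hA hAodd hfaith⟩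
  · rw [← Subgroup.map_le_map_iff_of_injective A.subtype_injective, CA.FG.pCore_map_subtype hp',
      Subgroup.map_subtype_commutator]
    exact h2
  · rw [← CA.FG.piNat_compl_singleton_iff_coprime hp', CA.FG.pCore_eq_piCore hp',
      ← CA.FG.pcore_subgroupOf_self]
    exact h1

end Cfsg.Agent.S1454
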