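import Cfsg.Statements.S1464
import Cfsg.Agent.BG.Br06
-- import your own Cfsg.Agent.* helpers here

set_option autoImplicit false
open Cfsg

namespace Cfsg.Agent.S1464

/-- Let p be an odd prime and G a solvable group of odd order, P a p-subgroup with O_{p'}(G)P normal in G, and A a p-subgroup of N_G(P) with [[P, A], A] = 1. Then the image of A in the quotient N_G(P)/C_G(P) is contained in the p-core of that quotient. -/
theorem result {G : Type*} [Group G] [Finite G] [Group.IsSolvable G] (hodd : Odd (Nat.card G)) (p : ℕ) [Fact p.Prime] (hp : p ≠ 2) (P A : Subgroup G) (hP : IsPGroup p P) (hPn : (Cfsg.pPrimeCore p G ⊔ P).Normal)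
    (hA : IsPGroup p A) (hAN : A ≤ Subgroup.normalizer (P : Set G)) (hquad : ⁅⁅P, A⁆, A⁆ = ⊥) :
    (A.subgroupOf (Subgroup.normalizer (P : Set G))).map
        (QuotientGroup.mk' ((Subgroup.centralizer (P : Set G)).subgroupOf (Subgroup.normalizer (P : Set G))))
      ≤ Cfsg.pCore p _ := by
  have hp' : p.Prime := Fact.out
  have := CA.BG.odd_p_stable (H := (⊤ : Subgroup G)) hp' (by rwa [Subgroup.card_top]) P A
    (CA.FG.pGrp_of_isPGroup hp' hP) (CA.FG.normalIn_top.2 (CA.FG.pPrimeCore_eq_top (G := G) hp' ▸ hPn))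
    (le_inf le_top hAN) (CA.FG.pGrp_of_isPGroup hp' hA) hquad
  rw [top_inf_eq (Subgroup.normalizer _)] at this
  exact CA.BG.map_mk'_le_pCore' hp' ⟨CA.FG.cent_le_norm _, CA.FG.norm_cent le_rfl⟩ (top_inf_eq _) this hAN

end Cfsg.Agent.S1464
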