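import Cfsg.Statements.S1466
import Cfsg.Agent.BG.Br06
-- import your own Cfsg.Agent.* helpers here

set_option autoImplicit false
open Cfsg

namespace Cfsg.Agent.S1466

/-- Let p be a prime and R a nontrivial finite p-group. Then for every i > 0, Z(R) ≤ C_R(L_i(R)) ≤ L_i(R); likewise Z(R) ≤ C_R(L_*(R)) ≤ L_*(R) and Z(R) ≤ C_R(L(R)) ≤ L(R); and L(R) ≠ 1, L_*(R) ≠ 1. -/
theorem result {R : Type*} [Group R] [Finite R] (p : ℕ) [Fact p.Prime] (hR : IsPGroup p R) [Nontrivial R] :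
    (∀ i : ℕ, 0 < i → Subgroup.center R ≤ Subgroup.centralizer ((Cfsg.puigSeq R i : Subgroup R) : Set R) ∧
        Subgroup.centralizer ((Cfsg.puigSeq R i : Subgroup R) : Set R) ≤ Cfsg.puigSeq R i) ∧
      (Subgroup.center R ≤ Subgroup.centralizer ((Cfsg.puigLower R : Subgroup R) : Set R) ∧ Subgroup.centralizer ((Cfsg.puigLower R : Subgroup R) : Set R) ≤ Cfsg.puigLower R) ∧
      (Subgroup.center R ≤ Subgroup.centralizer ((Cfsg.puigSubgroup R : Subgroup R) : Set R) ∧ Subgroup.centralizer ((Cfsg.puigSubgroup R : Subgroup R) : Set R) ≤ Cfsg.puigSubgroup R) ∧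
      Cfsg.puigSubgroup R ≠ ⊥ ∧ Cfsg.puigLower R ≠ ⊥ := by
  have hp : p.Prime := Fact.out
  have nil : Group.IsNilpotent (⊤ : Subgroup R) := (CA.FG.pGrp_of_isPGroup hp (hR.to_subgroup ⊤)).nil
  have z : ∀ X : Subgroup R, Subgroup.center R ≤ Subgroup.centralizer (X : Set R) :=
    fun X => Subgroup.center_le_centralizer _
  have c : ∀ X : Subgroup R, Subgroup.centralizer (Cfsg.puigStep X : Set R) ≤ Cfsg.puigStep X :=
    fun X => by simpa [CA.BG.puigSucc_top] using CA.BG.P06.cent_puigSucc nil (le_top (a := X))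
  have d := CA.BG.P06.Puig_def (⊤ : Subgroup R)
  have d' := CA.BG.P06.Puig_inf_def (⊤ : Subgroup R)
  simp only [CA.BG.puigOf_top, CA.BG.puigInfOf_top, CA.BG.puigSucc_top] at d d'
  have n : ∀ X : Subgroup R, Cfsg.puigStep X ≠ ⊥ := fun X e => by
    have := c X
    rw [e] at this
    obtain ⟨x, hx⟩ := exists_ne (1 : R)
    exact hx (this fun y hy => by rw [Subgroup.mem_bot.1 hy]; simp)
  refine ⟨fun i hi => ⟨z _, ?_⟩, ⟨z _, d' ▸ c _⟩, ⟨z _, d ▸ c _⟩, d ▸ n _, d' ▸ n _⟩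
  obtain ⟨i, rfl⟩ := Nat.exists_eq_succ_of_ne_zero hi.ne'
  exact c _

end Cfsg.Agent.S1466
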