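import Cfsg.Statements.S1467
import Cfsg.Agent.BG.Br06
-- import your own Cfsg.Agent.* helpers here

set_option autoImplicit false
open Cfsg

namespace Cfsg.Agent.S1467

/-- Let G be a finite group with Puig series L_n(G). Then L_0 = 1, L_1 = G; L_{2n} ≤ L_{2n+2} ≤ L_{2m+3} ≤ L_{2m+1} for all n, m; there is k with L_{2n}(G) = L_*(G) and L_{2n+1}(G) = L(G) for all n ≥ k; L_*(G) ≤ L(G); and applying one Puig step to L_*(G) gives L(G) and to L(G) gives L_*(G). -/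
theorem result {G : Type*} [Group G] [Finite G] :
    Cfsg.puigSeq G 0 = ⊥ ∧ Cfsg.puigSeq G 1 = ⊤ ∧
      (∀ n m : ℕ, Cfsg.puigSeq G (2 * n) ≤ Cfsg.puigSeq G (2 * n + 2) ∧ Cfsg.puigSeq G (2 * n) ≤ Cfsg.puigSeq G (2 * m + 1) ∧
        Cfsg.puigSeq G (2 * m + 3) ≤ Cfsg.puigSeq G (2 * m + 1)) ∧
      (∃ k : ℕ, ∀ n : ℕ, k ≤ n → Cfsg.puigSeq G (2 * n) = Cfsg.puigLower G ∧ Cfsg.puigSeq G (2 * n + 1) = Cfsg.puigSubgroup G) ∧
      Cfsg.puigLower G ≤ Cfsg.puigSubgroup G ∧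
      Cfsg.puigStep (Cfsg.puigLower G) = Cfsg.puigSubgroup G ∧ Cfsg.puigStep (Cfsg.puigSubgroup G) = Cfsg.puigLower G := by
  have m := fun {a b : ℕ} (h : a ≤ b) => CA.BG.P06.puigAt_even_mono (⊤ : Subgroup G) h
  have l := fun n => CA.BG.P06.puigAt_even_le n (⊤ : Subgroup G)
  have s := CA.BG.P06.Puig_inf_sub (⊤ : Subgroup G)
  have d := CA.BG.P06.Puig_def (⊤ : Subgroup G)
  have d' := CA.BG.P06.Puig_inf_def (⊤ : Subgroup G)
  obtain ⟨k, hk, -, -⟩ := CA.BG.P06.exists_puigAt_eq (⊤ : Subgroup G)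
  simp only [CA.BG.P06.puigAt_top, CA.BG.puigOf_top, CA.BG.puigInfOf_top, CA.BG.puigSucc_top]
    at m l s d d' hk
  refine ⟨rfl, eq_top_iff.2 fun x _ => ?_, fun n k => ⟨m (Nat.le_succ n), (l n).trans (s.trans
    (iInf_le (fun n => Cfsg.puigSeq G (2 * n + 1)) k)), ?_⟩, ⟨k, fun n hn => ?_⟩, s, d, d'⟩
  · exact (le_sSup (s := {A : Subgroup G | IsMulCommutative A ∧ ⊥ ≤ Subgroup.normalizer (A : Set G)})
      ⟨inferInstance, bot_le⟩ : Subgroup.zpowers x ≤ _) (Subgroup.mem_zpowers x)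
  · have := CA.BG.P06.puigSucc_mono (le_refl (⊤ : Subgroup G)) (m (Nat.le_succ k))
    rwa [CA.BG.puigSucc_top, CA.BG.puigSucc_top] at this
  · have e : Cfsg.puigSeq G (2 * n) = Cfsg.puigLower G := le_antisymm (l n) (hk ▸ m hn)
    exact ⟨e, (congrArg Cfsg.puigStep e).trans d⟩

end Cfsg.Agent.S1467
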