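import Cfsg.Statements.S1476
import Cfsg.Agent.TG.CN

set_option autoImplicit false
open Cfsg

namespace Cfsg.Agent.S1476

/-- Let G be a finite solvable group in which every non-identity element has nilpotent centralizer. Then either G is nilpotent; or G has a normal subgroup K with a Frobenius complement E (K E = G, K ∩ E = 1, E meets its conjugates by outside elements trivially) such that E is cyclic or E is generated by two elementwise-commuting subgroups, one cyclic of odd order and one isomorphic to a generalized quaternion group; or G is a three-step group with respect to some prime p. -/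
theorem result {G : Type*} [Group G] [Finite G] [Group.IsSolvable G] (hCN : Cfsg.IsCNGroup G) :
    Group.IsNilpotent G ∨
      (∃ K E : Subgroup G, K.Normal ∧ Subgroup.IsComplement' K E ∧ Cfsg.IsFrobeniusComplement E ∧
        (IsCyclic E ∨ ∃ C Q : Subgroup G, C ⊔ Q = E ∧ (∀ a ∈ C, ∀ b ∈ Q, a * b = b * a) ∧ IsCyclic C ∧ Odd (Nat.card C) ∧
          ∃ n : ℕ, Nonempty (↥Q ≃* QuaternionGroup (2 ^ n)))) ∨
      ∃ p : ℕ, p.Prime ∧ Cfsg.IsThreeStepGroup p G := by
  by_cases hnn : Group.IsNilpotent G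
  · exact Or.inl hnn
  right
  by_cases h : ∃ (p : ℕ) (P : Subgroup G), CA.FG.IsSylowOf p P ⊤ ∧ P ≠ ⊥ ∧ ⊤ ≤ Subgroup.normalizer (P : Set G)
  · obtain ⟨p, P, sP, P1, nP⟩ := h
    obtain ⟨E, hE, nE⟩ := CA.CN.Frob_of_normal_sylow hCN hnn sP P1 nP
    exact Or.inl ⟨_, E, inferInstance, CA.FG.complIn_top_iff.1 hE.1.complIn, CA.CN.frobCompl_of_IsFrob hE,
      CA.CN.nil_compl_struct hE.1.norm hE.2.1 hE.2.2.2 nE⟩
  refine Or.inr (CA.CN.threeStep hCN (fun e => hnn ?_) fun p _ P sP P1 nP => h ⟨p, P, sP, P1, nP⟩)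
  exact Group.nilpotent_of_mulEquiv (_h := e ▸ CA.FG.nil_of_cyclic CA.FG.cyclic_bot) Subgroup.topEquiv

end Cfsg.Agent.S1476
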