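import Cfsg.Statements.S1480
import Cfsg.Agent.BG.Trans
-- import your own Cfsg.Agent.* helpers here

set_option autoImplicit false
open Cfsg

namespace Cfsg.Agent.S1480

/-- Let G be a finite group and p a prime such that the normalizer of every nontrivial p-subgroup of G is p-constrained; if p = 2 assume also that the Sylow 2-subgroups of G have nilpotency class at most 2. Let E be an abelian p-subgroup containing an elementary abelian subgroup of order p ^ 3 and containing every element of p-power order of C_G(E). Then for every prime q ≠ p, any two maximal E-invariant q-subgroups of G are conjugate by an element of O_{p'}(C_G(E)). -/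
theorem result {G : Type*} [Group G] [Finite G] (p : ℕ) [Fact p.Prime]
    (hloc : ∀ T : Subgroup G, IsPGroup p T → T ≠ ⊥ → Cfsg.IsPConstrained p ↥(Subgroup.normalizer (T : Set G)))
    (h2 : p = 2 → ∀ S : Sylow p G, Group.IsNilpotent (S : Subgroup G) ∧ Group.nilpotencyClass (S : Subgroup G) ≤ 2)
    (E : Subgroup G) (hEp : IsPGroup p E) (hEc : IsMulCommutative E) (hE3 : ¬ Cfsg.PRankLE p 2 E)
    (hEfull : ∀ x ∈ Subgroup.centralizer (E : Set G), IsPGroup p (Subgroup.zpowers x) → x ∈ E)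
    (q : ℕ) [Fact q.Prime] (hqp : q ≠ p) :
    ∀ Q₁ ∈ Cfsg.maxInvSubgroups ⊤ E {q}, ∀ Q₂ ∈ Cfsg.maxInvSubgroups ⊤ E {q},
        ∃ k ∈ Cfsg.piCoreOf (Cfsg.primesNotDvd p) (Subgroup.centralizer (E : Set G)), Q₂ = Q₁.map (MulAut.conj k).toMonoidHom := by
  have hp : p.Prime := Fact.out
  intro Q₁ h₁ Q₂ h₂
  have pE := CA.FG.pGrp_of_isPGroup hp hEp
  have sylE : CA.FG.IsSylowOf p E (Subgroup.centralizer (E : Set G)) :=
    CA.FG.sylow_of_maximal hp pE (CA.FG.abelian_iff_le_cent.1 hEc) fun Q hQ h1 h3 =>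
      le_antisymm (fun x hx => hEfull x (h3 hx)
        (CA.FG.IsPiGrp.isPGroup (hQ.of_le (Subgroup.zpowers_le.2 hx)) hp)) h1
  obtain ⟨B, hB⟩ := (CA.FG.p_rank_geP hp).1 ((CA.FG.not_PRankLE_iff hp).1 hE3)
  rw [CA.FG.pcore_congr (π := Cfsg.primesNotDvd p) (ρ := {p}ᶜ) fun r hr _ =>
    ⟨fun h e => h.2 (by rw [e]), fun h => ⟨hr, fun d => h ((Nat.prime_dvd_prime_iff_eq hr hp).1 d)⟩⟩]
  refine CA.BG.Trans.transitivity hp (fun x hx x1 => ?_) hEc sylE hB Fact.out hqp h₁ h₂
  have sX := Subgroup.zpowers_le.2 hx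
  have sE := CA.FG.norm_of_le_abelian hEc sX
  refine ⟨_, CA.FG.pcore_piGrp _ _, sE.trans (CA.FG.pcore_norm _ _), fun Y h1 h3 h4 =>
    CA.BG.Trans.le_p'core hp (CA.BG.Trans.pConstrained_of hp (hloc _ (hEp.to_le sX) (by simpa using x1)))
      (fun e S hS => ?_) sE pE (sylE.of_le (le_inf sE sylE.le) inf_le_right)
      (h1.trans (CA.FG.cent_zpowers x ▸ CA.FG.cent_le_norm _)) h3 h4⟩
  obtain ⟨T, hT, sT⟩ := CA.FG.sylow_superset hp hS.pGrp le_top
  obtain ⟨T, rfl⟩ := hT.exists_sylow_top hp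
  obtain ⟨n, c⟩ := h2 e T
  have : (T : Subgroup G) ≤ CA.FG.ucnOf 2 (T : Subgroup G) := fun y hy =>
    ⟨⟨y, hy⟩, (Subgroup.upperCentralSeries_eq_top_iff_nilpotencyClass_le.2 c).ge trivial, rfl⟩
  rw [CA.FG.le_ucn_succ_iff, CA.FG.ucn_one] at this
  exact (Subgroup.commutator_mono sT sT).trans (this.2.trans (inf_le_right.trans (CA.FG.cent_anti sT)))

end Cfsg.Agent.S1480
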