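import Cfsg.Statements.S1481
import Cfsg.Agent.BG.P08a
-- import your own Cfsg.Agent.* helpers here

set_option autoImplicit false
open Cfsg

namespace Cfsg.Agent.S1481

open CA.FG CA.BG in
theorem aux {G : Type*} [Group G] [Finite G] {H M R : Subgroup G}
    (hH : ∀ p, p.Prime → p ∣ Nat.card (fittingOf H) → 𝒩(pCoreOf p 𝒵(fittingOf H)) = H)
    (h2 : ∀ p, ∃ r, r.Prime ∧ r ∣ Nat.card (fittingOf H) ∧ r ≠ p) (hM : M ≤ fittingOf H)
    (hC : 𝒵(fittingOf H) ≤ M) (hCM : fittingOf H ⊓ 𝒞(M) ≤ M) (hR : Group.IsSolvable R) (nM : M ≤ 𝒩(R))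
    (nX : H ⊓ 𝒞(fittingOf H) ≤ 𝒩(R)) :
    piCoreOf (primesOf (fittingOf H))ᶜ R ⊓ 𝒞(M) = ⊥ ∧ ∀ Y ≤ R, IsPiGrp (primesOf (fittingOf H))ᶜ Y →
      M ≤ 𝒩(Y) → Y ≤ piCoreOf (primesOf (fittingOf H))ᶜ R := by
  have nF := fitting_normal H
  have pF := piGrp_primesOf (fittingOf H)
  have nilF := fitting_nil H
  have nX' : H ⊓ 𝒞(fittingOf H) ⊲ H := ⟨inf_le_left, norm_inf Subgroup.le_normalizer (norm_cent nF.2)⟩
  have XR : H ⊓ 𝒞(fittingOf H) ⊓ R ≤ fittingOf H := by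
    have n : H ⊓ 𝒞(fittingOf H) ⊓ R ⊲ H ⊓ 𝒞(fittingOf H) :=
      ⟨inf_le_left, norm_inf Subgroup.le_normalizer nX⟩
    have l := n.fitting_le.trans nX'.fitting_le
    exact (le_inf le_rfl ((inf_le_left.trans inf_le_right).trans (cent_anti l))).trans
      ((cent_sub_Fitting (sol_of_le hR inf_le_right)).trans l)
  have A : ∀ Y ≤ R ⊓ H, IsPiGrp (primesOf (fittingOf H))ᶜ Y → M ≤ 𝒩(Y) → Y = ⊥ := fun Y h1 h3 h4 => by
    have nY := (h1.trans inf_le_right).trans nF.2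
    have c : M ≤ 𝒞(Y) := by
      rw [← Subgroup.commutator_eq_bot_iff_le_centralizer, eq_bot_iff, ← pF.inf_eq_bot h3]
      exact le_inf ((Subgroup.commutator_mono hM le_rfl).trans (comm_le_left nY)) (comm_le_right h4)
    have := coprime_nil_faithful_cent_stab nY (pF.coprime h3) nilF
      ((inf_le_inf_left _ (cent_anti (le_inf hM c))).trans (hCM.trans (le_inf hM c)))
    exact (pF.of_le ((le_inf (le_inf (h1.trans inf_le_right) this) (h1.trans inf_le_left)).trans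
      XR)).eq_bot h3
  have ZM : ∀ p, pCoreOf p 𝒵(fittingOf H) ≤ M := fun p => (pcore_le _ _).trans hC
  have cH : ∀ p, p.Prime → p ∣ Nat.card (fittingOf H) → 𝒞(pCoreOf p 𝒵(fittingOf H)) ≤ H :=
    fun p h1 h3 => (cent_le_norm _).trans (hH p h1 h3).le
  refine ⟨?_, fun Y h1 h3 h4 => P08.le_pcore_compl_of_forall h1 fun p hp hd => ?_⟩
  · obtain ⟨r, h1, h3, -⟩ := h2 0
    exact A _ (inf_le_inf (pcore_le _ _) ((cent_anti (ZM r)).trans (cH r h1 h3)))
      ((pcore_piGrp _ _).inf_left _) (norm_inf (norm_pcore _ nM) (norm_cent Subgroup.le_normalizer))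
  obtain ⟨r, hr, h5, h6⟩ := h2 p
  have nZ := ((charIn_pcore {r} _).trans (charIn_center _)).trans_normal nF
  have e := coprime_cent_prod ((ZM r).trans h4) ((pF.of_le ((ZM r).trans hM)).coprime h3).symm
    (Or.inl (sol_of_le hR h1))
  rw [A _ (inf_le_inf h1 (cH r hr h5)) (h3.inf_left _) (norm_inf h4 (norm_cent ((hM.trans nF.1).trans nZ.2))),
    sup_bot_eq] at e
  have l := p'core_norm_pgroup ((ZM p).trans (le_sup_right (a := R))) (pcore_pGrp p _)
    (sol_sup hR (have := nil_of_le nilF hM; inferInstance) (Or.inr nM))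
  rw [hH p hp hd.2] at l
  have l2 : pCoreOf r 𝒵(fittingOf H) ≤ pPrimeCoreOf p (R ⊔ M) := (pcore_max
    ⟨le_inf ((ZM r).trans le_sup_right) nZ.1, inf_le_right.trans nZ.2⟩ ((pcore_pGrp r _).piGrp h6)).trans l
  have nR : R ⊲ R ⊔ M := ⟨le_sup_left, sup_le Subgroup.le_normalizer nM⟩
  rw [← e]
  refine le_trans (le_inf ?_ ((comm_le_left ((ZM r).trans h4)).trans h1)) (pcore_inf_normal _ nR).le
  exact (Subgroup.commutator_mono le_rfl l2).trans
    (comm_le_right ((h1.trans le_sup_left).trans (pcore_norm _ _)))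

/-- Let G be a finite group and H a local subgroup (the normalizer of a nontrivial subgroup of prime-power order) not properly contained in any local subgroup; let F = F(H), suppose at least two primes divide #F, put X = H ∩ C_G(F), let M ≤ F with F ∩ C_G(M) ≤ M, and let R be a solvable subgroup normalized by M and by X. Then for every prime q not dividing #F there is exactly one maximal M-invariant q-subgroup of R, and it is a Sylow q-subgroup of the largest normal subgroup of R of order coprime to #F. -/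
theorem result {G : Type*} [Group G] [Finite G] (H : Subgroup G) (hH : Cfsg.IsLocalSubgroup H) (hHmax : ∀ L : Subgroup G, Cfsg.IsLocalSubgroup L → H ≤ L → L = H)
    (hF2 : 2 ≤ (Nat.card (Cfsg.fittingOf H)).primeFactors.card)
    (M : Subgroup G) (hM : M ≤ Cfsg.fittingOf H) (hCM : Cfsg.fittingOf H ⊓ Subgroup.centralizer (M : Set G) ≤ M)
    (R : Subgroup G) (hR : Group.IsSolvable R) (hMR : M ≤ Subgroup.normalizer (R : Set G))
    (hXR : H ⊓ Subgroup.centralizer (Cfsg.fittingOf H : Set G) ≤ Subgroup.normalizer (R : Set G))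
    (q : ℕ) [Fact q.Prime] (hq : ¬ q ∣ Nat.card (Cfsg.fittingOf H)) :
    ∃! Q : Subgroup G, Q ∈ Cfsg.maxInvSubgroups R M {q} ∧
      (∀ Q' : Subgroup G, Q' ∈ Cfsg.maxInvSubgroups R M {q} →
        Q' ≤ Cfsg.piCoreOf (Cfsg.primesNotDvd (Nat.card (Cfsg.fittingOf H))) R ∧
        ¬ q ∣ Q'.relIndex (Cfsg.piCoreOf (Cfsg.primesNotDvd (Nat.card (Cfsg.fittingOf H))) R)) := by
  have hq' : q.Prime := Fact.out
  have nF := CA.FG.fitting_normal H
  obtain ⟨h1, h2⟩ := aux (H := H) (fun p hp hd => hHmax _ ⟨p, _, hp, (CA.FG.pcore_pGrp p _).isPGroup hp,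
      CA.BG.P08.pcore_center_ne_bot (CA.FG.fitting_nil H) hp hd, rfl⟩
      (((CA.FG.charIn_pcore {p} _).trans (CA.FG.charIn_center _)).trans_normal nF).2)
    (fun p => by
      obtain ⟨r, hr, e⟩ := Finset.exists_mem_ne (s := (Nat.card (Cfsg.fittingOf H)).primeFactors) hF2 p
      exact ⟨r, Nat.prime_of_mem_primeFactors hr, Nat.dvd_of_mem_primeFactors hr, e⟩) hM
    ((inf_le_inf_left _ (CA.FG.cent_anti hM)).trans hCM) hCM hR hMR hXR
  rw [CA.FG.pcore_congr (π := Cfsg.primesNotDvd _) (ρ := (CA.FG.primesOf (Cfsg.fittingOf H))ᶜ)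
    fun r hr _ => ⟨fun h e => h.2 e.2, fun h => ⟨hr, fun d => h ⟨hr, d⟩⟩⟩]
  have sK := CA.FG.pcore_le (CA.FG.primesOf (Cfsg.fittingOf H))ᶜ R
  have nK := CA.FG.norm_pcore (CA.FG.primesOf (Cfsg.fittingOf H))ᶜ hMR
  have co := (((CA.FG.piGrp_primesOf _).of_le hM).coprime (CA.FG.pcore_piGrp _ R)).symm
  have sol := Or.inl (b := Group.IsSolvable M) (CA.FG.sol_of_le hR sK)
  have key : ∀ Q ∈ Cfsg.maxInvSubgroups R M {q},
      CA.FG.IsSylowOf q Q (Cfsg.piCoreOf (CA.FG.primesOf (Cfsg.fittingOf H))ᶜ R) := fun Q hQ => by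
    obtain ⟨S, a, b, c⟩ := CA.FG.sol_coprime_Sylow_subset hq' sol nK co (h2 Q hQ.1.1
      (CA.FG.IsPGrp.piGrp hQ.1.2.1 fun e => hq e.2) hQ.1.2.2) hQ.1.2.1 hQ.1.2.2
    exact hQ.2 S ⟨a.le.trans sK, a.pGrp, b⟩ c ▸ a
  obtain ⟨Q, -, hQ, mQ⟩ := CA.FG.exists_max_subgroup (P := (· ∈ Cfsg.invSubgroups R M {q}))
    (H := ⊥) ⟨bot_le, CA.FG.piGrp_bot _, CA.FG.norm_bot _⟩
  refine ⟨Q, ⟨⟨hQ, mQ⟩, fun Q' h => ⟨(key Q' h).le, (key Q' h).not_dvd_index hq'⟩⟩, fun Q' h => ?_⟩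
  obtain ⟨x, hx, e⟩ := CA.FG.sol_coprime_Sylow_trans hq' sol nK co (key Q' h.1) h.1.1.2.2
    (key Q ⟨hQ, mQ⟩) hQ.2.2
  rw [h1, Subgroup.mem_bot] at hx
  rw [e, hx, CA.FG.conjg_one]

end Cfsg.Agent.S1481
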