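import Cfsg.Statements.S1485
import Cfsg.Agent.Char.Brauer

set_option autoImplicit false
open Cfsg

namespace Cfsg.Agent.S1485

open CA.Chr


/-- Let H be a normal subgroup of the finite group G and θ an irreducible character of H. On H, the function induced from θ equals r times the sum of the distinct G-conjugates of θ, where r is the number of elements of G fixing θ under conjugation divided by the order of H (the index of H in the inertia group). -/
theorem result {G : Type*} [Group G] [Fintype G] (H : Subgroup G) [hN : H.Normal] (θ : H → ℂ) (hθ : Cfsg.IsIrrCharacter H θ) : (fun h : H => Cfsg.indFun H θ h) = ((Nat.card {g : G // ∀ h : H, θ ⟨g * h * g⁻¹, hN.conj_mem h h.2 g⟩ = θ h} : ℂ) / (Nat.card H : ℂ)) • ∑ᶠ ψ ∈ {ψ : H → ℂ | ∃ g : G, ψ = fun h : H => θ ⟨g * h * g⁻¹, hN.conj_mem h h.2 g⟩}, ψ := by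
  have h1 := res_ind H.subtype (IsIrr.mem_CF hθ)
  rw [indFun_eq]
  refine h1.trans ?_
  congr 1
  · have h2 := card_inertia H.subtype (IsIrr.mem_CF hθ)
    have h3 : Nat.card {g : G // ∀ h : H, θ ⟨g * h * g⁻¹, hN.conj_mem h h.2 g⟩ = θ h} =
        Nat.card (inertia H.subtype θ) := by
      refine Nat.card_congr (Equiv.subtypeEquivRight fun g => ?_)
      rw [mem_inertia, comp_cj_subtype, funext_iff]
    rw [h3, h2]
    push_cast
    rw [mul_div_cancel_left₀ _ card_ne_zero]
  · rw [← finsum_mem_coe_finset]
    apply finsum_mem_congr _ (fun _ _ => rfl)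
    ext ψ
    simp only [Finset.mem_coe, mem_cfclass, comp_cj_subtype, Set.mem_setOf_eq, eq_comm]

end Cfsg.Agent.S1485
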