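import Cfsg.Statements.S1487
import Cfsg.Agent.Char.Brauer

set_option autoImplicit false
open Cfsg

namespace Cfsg.Agent.S1487

open CA.Chr


/-- Let A ≤ H be normal subgroups of the finite group G and θ an irreducible character of H. Then θ takes the value θ 1 on all of A if and only if the function induced from θ to G takes its value at 1 on all of A. -/
theorem result {G : Type*} [Group G] [Fintype G] (A H : Subgroup G) [A.Normal] [H.Normal] (hAH : A ≤ H) (θ : H → ℂ) (hθ : Cfsg.IsIrrCharacter H θ) : (∀ a : H, (a : G) ∈ A → θ a = θ 1) ↔ (∀ a : G, a ∈ A → Cfsg.indFun H θ a = Cfsg.indFun H θ 1) := by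
  rw [indFun_eq]
  have := le_cfker_ind_iff H.subtype (A := A) (by rwa [Subgroup.range_subtype]) hθ
  simp only [← IsIrr.mem_cfker hθ, ← IsChar.mem_cfker (IsChar.ind (IsIrr.isChar hθ) H.subtype)]
  exact this.symm

end Cfsg.Agent.S1487
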