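import Cfsg.Statements.S1488
import Cfsg.Agent.Char.Brauer

set_option autoImplicit false
open Cfsg

namespace Cfsg.Agent.S1488

open CA.Chr


/-- Let A be a normal subgroup of the finite group G contained in the subgroup H, let θ be a function on H and θ₁ a function on the image of H in G ⧸ A whose composite with the projection is θ. Then the function induced from θ₁ to G ⧸ A, composed with the projection G → G ⧸ A, equals the function induced from θ to G. -/
theorem result {G : Type*} [Group G] [Fintype G] (A H : Subgroup G) [A.Normal] (hAH : A ≤ H) [Fintype (G ⧸ A)] [Fintype ↥(H.map (QuotientGroup.mk' A))] (θ : H → ℂ) (θ₁ : ↥(H.map (QuotientGroup.mk' A)) → ℂ) (hθ : ∀ x : H, θ₁ ⟨QuotientGroup.mk' A x, Subgroup.mem_map_of_mem _ x.2⟩ = θ x) (g : G) : Cfsg.indFun (H.map (QuotientGroup.mk' A)) θ₁ (QuotientGroup.mk' A g) = Cfsg.indFun H θ g := by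
  rw [indFun_eq, indFun_eq]
  let p : H →* H.map (QuotientGroup.mk' A) := (QuotientGroup.mk' A).subgroupMap H
  have hp : Function.Surjective p := MonoidHom.subgroupMap_surjective _ _
  have e : θ = θ₁ ∘ p := by ext x; exact (hθ x).symm
  have h1 : ind (H.map (QuotientGroup.mk' A)).subtype θ₁ =
      ind (QuotientGroup.mk' A) (ind H.subtype θ) := by
    rw [ind_comp, e, ← ind_comp_surj _ p hp]; rfl
  have h2 : (QuotientGroup.mk' A).ker ≤ cfker (ind H.subtype θ) := by
    rw [QuotientGroup.ker_mk']
    apply le_cfker_ind H.subtype (by rwa [Subgroup.range_subtype]) H.subtype_injective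
    rw [e]
    refine le_trans ?_ (ker_le_cfker_comp θ₁ p)
    intro x hx
    exact Subtype.ext ((QuotientGroup.eq_one_iff _).mpr hx)
  obtain ⟨ψ, hψ⟩ := exists_comp_of_ker_le (QuotientGroup.mk'_surjective A) h2
  rw [h1, hψ, ind_comp_surj_self (QuotientGroup.mk'_surjective A)]
  · rfl
  · exact CF_of_comp_surj (QuotientGroup.mk'_surjective A) (hψ ▸ ind_mem_CF _ _)

end Cfsg.Agent.S1488
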