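import Cfsg.Statements.S1489
import Cfsg.Agent.Char.Brauer

set_option autoImplicit false
open Cfsg

namespace Cfsg.Agent.S1489

open CA.Chr


/-- Let H be a normal subgroup of the finite group G, θ an irreducible character of H, and T the inertia group of θ (the elements g with θ(g h g⁻¹) = θ(h) for all h ∈ H). If ψ and ψ' are irreducible characters of T having nonzero inner product with the function induced from θ to T, then the function induced from ψ to G is an irreducible character of G, and it equals the one induced from ψ' only if ψ = ψ'. -/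
theorem result {G : Type*} [Group G] [Fintype G] (H T : Subgroup G) [hN : H.Normal] [Fintype T] (θ : H → ℂ) (hθ : Cfsg.IsIrrCharacter H θ) (hT : ∀ g : G, g ∈ T ↔ ∀ h : H, θ ⟨g * h * g⁻¹, hN.conj_mem h h.2 g⟩ = θ h) (hHT : H ≤ T) (ψ ψ' : T → ℂ) (hψ : Cfsg.IsIrrCharacter T ψ) (hψ' : Cfsg.IsIrrCharacter T ψ') (hc : Cfsg.classInner (Cfsg.indFun (H.subgroupOf T) (fun x => θ ⟨(x : T), Subgroup.mem_subgroupOf.mp x.2⟩)) ψ ≠ 0) (hc' : Cfsg.classInner (Cfsg.indFun (H.subgroupOf T) (fun x => θ ⟨(x : T), Subgroup.mem_subgroupOf.mp x.2⟩)) ψ' ≠ 0) : Cfsg.IsIrrCharacter G (Cfsg.indFun T ψ) ∧ (Cfsg.indFun T ψ = Cfsg.indFun T ψ' → ψ = ψ') := by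
  rw [indFun_eq, classInner_eq] at hc hc'
  erw [ind_subgroupOf hHT θ] at hc hc'
  rw [frob_rec _ _ (IsIrr.mem_CF hψ)] at hc
  rw [frob_rec _ _ (IsIrr.mem_CF hψ')] at hc'
  haveI : NormalInj (T.subtype.comp (Subgroup.inclusion hHT)) :=
    inferInstanceAs (NormalInj H.subtype)
  have hI : inertia (T.subtype.comp (Subgroup.inclusion hHT)) θ ≤ T.subtype.range := by
    intro g hg
    rw [Subgroup.range_subtype, hT]
    have : θ ∘ cj H.subtype g = θ := hg
    rw [comp_cj_subtype] at this
    exact congrFun this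
  rw [indFun_eq, indFun_eq]
  exact ⟨clifford_corr_irr _ _ T.subtype_injective hθ hI hψ (fun e => hc (dot_comm_zero e)),
    clifford_corr_inj _ _ T.subtype_injective hθ hI hψ hψ' (fun e => hc (dot_comm_zero e))
      (fun e => hc' (dot_comm_zero e))⟩

end Cfsg.Agent.S1489
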