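import Cfsg.Statements.S1490
import Cfsg.Agent.PF.S01

set_option autoImplicit false
open Cfsg

namespace Cfsg.Agent.S1490

open CA.Chr


/-- Let H be a normal subgroup of the finite group G, θ an irreducible character of H with inertia group T, and suppose the commutator of any two elements of T lies in H (T/H abelian). Then there are a positive integer e and a finite set C of irreducible characters of G with e ^ 2 * |C| * |H| = |T|, such that the function induced from θ is e times the sum of the members of C and every member of C has degree [G:T] * e * θ(1). -/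
theorem result {G : Type*} [Group G] [Fintype G] (H T : Subgroup G) [hN : H.Normal] (θ : H → ℂ) (hθ : Cfsg.IsIrrCharacter H θ) (hT : ∀ g : G, g ∈ T ↔ ∀ h : H, θ ⟨g * h * g⁻¹, hN.conj_mem h h.2 g⟩ = θ h) (hab : ∀ x ∈ T, ∀ y ∈ T, x * y * x⁻¹ * y⁻¹ ∈ H) : ∃ (e : ℕ) (C : Finset (G → ℂ)), 0 < e ∧ (∀ χ ∈ C, Cfsg.IsIrrCharacter G χ) ∧ e ^ 2 * C.card * Nat.card H = Nat.card T ∧ Cfsg.indFun H θ = (e : ℂ) • ∑ χ ∈ C, χ ∧ ∀ χ ∈ C, χ 1 = (T.index : ℂ) * e * θ 1 := by
  have hI : T = inertia H.subtype θ := by
    ext g; rw [hT, mem_inertia, comp_cj_subtype, funext_iff]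
  have hHT : H ≤ T := hI ▸ le_inertia_subtype H (IsIrr.mem_CF hθ)
  haveI := normalInj_inclusion hHT (by intro x _; rw [Subgroup.normalizer_eq_top]; trivial)
  haveI : NormalInj (T.subtype.comp (Subgroup.inclusion hHT)) := inferInstanceAs (NormalInj H.subtype)
  obtain ⟨e, C, he, hC, h1, h2, h3⟩ := ind_central_inertia (Subgroup.inclusion hHT) T.subtype
    T.subtype_injective hθ (by rw [Subgroup.range_subtype]; exact hI.symm) (by
      rw [commutator_def, Subgroup.commutator_le]
      intro x _ y _
      exact ⟨⟨_, hab x x.2 y y.2⟩, rfl⟩)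
  refine ⟨e, C.image (ind T.subtype), he, ?_, ?_, ?_, ?_⟩
  · intro χ hχ
    obtain ⟨ψ, hψ, rfl⟩ := Finset.mem_image.mp hχ
    exact (hC ψ hψ).2.2
  · rw [Finset.card_image_of_injOn h1, h2, mul_comm,
      card_mul_index_range (Subgroup.inclusion_injective hHT)]
  · rw [indFun_eq, ← ind_subtype_inclusion hHT, h3, map_smul, map_sum, Finset.sum_image h1]
  · intro χ hχ
    obtain ⟨ψ, hψ, rfl⟩ := Finset.mem_image.mp hχ
    have := congrFun (hC ψ hψ).2.1 1
    simp only [Function.comp_apply, map_one, Pi.smul_apply, smul_eq_mul] at this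
    rw [ind_subtype_one, this, mul_assoc]

end Cfsg.Agent.S1490
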