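import Cfsg.Statements.S1491
import Cfsg.Agent.PF.S01

set_option autoImplicit false
open Cfsg

namespace Cfsg.Agent.S1491

open CA.Chr


/-- Let H be a normal subgroup of the finite group G and θ an irreducible character of H with inertia group T, where T/H is abelian (commutators of T lie in H) and the index of H in T is coprime to the order of H. Then the function induced from θ is the sum of a set of exactly [T:H] irreducible characters of G, each of degree [G:T] * θ(1). -/
theorem result {G : Type*} [Group G] [Fintype G] (H T : Subgroup G) [hN : H.Normal] (θ : H → ℂ) (hθ : Cfsg.IsIrrCharacter H θ) (hT : ∀ g : G, g ∈ T ↔ ∀ h : H, θ ⟨g * h * g⁻¹, hN.conj_mem h h.2 g⟩ = θ h) (hab : ∀ x ∈ T, ∀ y ∈ T, x * y * x⁻¹ * y⁻¹ ∈ H) (hcop : Nat.Coprime (Nat.card H) (H.relIndex T)) : ∃ C : Finset (G → ℂ), (∀ χ ∈ C, Cfsg.IsIrrCharacter G χ) ∧ C.card = H.relIndex T ∧ Cfsg.indFun H θ = ∑ χ ∈ C, χ ∧ ∀ χ ∈ C, χ 1 = (T.index : ℂ) * θ 1 := by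
  have hI : T = inertia H.subtype θ := by
    ext g; rw [hT, mem_inertia, comp_cj_subtype, funext_iff]
  have hHT : H ≤ T := hI ▸ le_inertia_subtype H (IsIrr.mem_CF hθ)
  haveI := normalInj_inclusion hHT (by intro x _; rw [Subgroup.normalizer_eq_top]; trivial)
  haveI : NormalInj (T.subtype.comp (Subgroup.inclusion hHT)) := inferInstanceAs (NormalInj H.subtype)
  have hidx : (Subgroup.inclusion hHT).range.index = H.relIndex T := by
    rw [Subgroup.inclusion_range]; rfl
  obtain ⟨C, hC, h1, h2, h3⟩ := ind_Hall_central_inertia (Subgroup.inclusion hHT) T.subtype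
    T.subtype_injective hθ (by rw [Subgroup.range_subtype]; exact hI.symm) (by
      rw [commutator_def, Subgroup.commutator_le]
      intro x _ y _
      exact ⟨⟨_, hab x x.2 y y.2⟩, rfl⟩) (hidx ▸ hcop)
  refine ⟨C.image (ind T.subtype), ?_, ?_, ?_, ?_⟩
  · intro χ hχ
    obtain ⟨ψ, hψ, rfl⟩ := Finset.mem_image.mp hχ
    exact (hC ψ hψ).2.2
  · rw [Finset.card_image_of_injOn h1, h2, hidx]
  · rw [indFun_eq, ← ind_subtype_inclusion hHT, h3, map_sum, Finset.sum_image h1]
  · intro χ hχ
    obtain ⟨ψ, hψ, rfl⟩ := Finset.mem_image.mp hχ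
    have := congrFun (hC ψ hψ).2.1 1
    simp only [Function.comp_apply, map_one] at this
    rw [ind_subtype_one, this]

end Cfsg.Agent.S1491
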