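import Cfsg.Statements.S1492
import Cfsg.Agent.Char.Brauer

set_option autoImplicit false
open Cfsg

namespace Cfsg.Agent.S1492

open CA.Chr


/-- Let ψ be an irreducible character of the finite group G and B ≤ D ≤ C subgroups with B normal in C, every commutator of an element of D with an element of C lying in B (so D/B is central in C/B), and ψ constant equal to ψ 1 on B. Then ψ(1) ^ 2 * |C| * |D| ≤ |G| ^ 2. -/
theorem result {G : Type*} [Group G] [Finite G] (ψ : G → ℂ) (hψ : Cfsg.IsIrrCharacter G ψ) (B C D : Subgroup G) (hBD : B ≤ D) (hDC : D ≤ C) (hBn : ∀ c ∈ C, ∀ b ∈ B, c * b * c⁻¹ ∈ B) (hcent : ∀ d ∈ D, ∀ c ∈ C, d * c * d⁻¹ * c⁻¹ ∈ B) (hker : ∀ b ∈ B, ψ b = ψ 1) : ‖ψ 1‖ ^ 2 * (Nat.card C : ℝ) * (Nat.card D : ℝ) ≤ (Nat.card G : ℝ) ^ 2 := by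
  have h1 := IsIrr.deg_sq_le_of_central_section hψ (C := C) (D := D) (fun d hd c hc =>
    (IsIrr.mem_cfker hψ).mpr (hker _ (hcent d hd c hc)))
  rw [← IsIrr.coe_deg hψ, Complex.norm_natCast]
  have h2 : Nat.card D * D.relIndex C = Nat.card C := by
    rw [← Nat.card_congr (Subgroup.subgroupOfEquivOfLe hDC).toEquiv, Subgroup.relIndex,
      Subgroup.card_mul_index]
  have h3 := Subgroup.index_mul_card C
  have : deg ψ ^ 2 * Nat.card C * Nat.card D ≤ Nat.card G ^ 2 := by
    calc deg ψ ^ 2 * Nat.card C * Nat.card D ≤ C.index ^ 2 * D.relIndex C * Nat.card C * Nat.card D :=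
          Nat.mul_le_mul_right _ (Nat.mul_le_mul_right _ h1)
      _ = C.index ^ 2 * Nat.card C * (Nat.card D * D.relIndex C) := by ring
      _ = Nat.card G ^ 2 := by rw [h2, ← h3]; ring
  exact_mod_cast this

end Cfsg.Agent.S1492
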