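import Cfsg.Statements.S1497
import Cfsg.Agent.PF.S02

set_option autoImplicit false
open Cfsg

namespace Cfsg.Agent.S1497

open CA.Chr


/-- Let A be a nonempty subset of the finite group G not containing 1 and L a subgroup. Then A is a TI-subset whose normaliser is L if and only if the Dade hypothesis holds for A, L and the constant choice H(a) = ⊥. -/
theorem result {G : Type*} [Group G] [Finite G] (A : Set G) (hA : A.Nonempty) (h1 : (1 : G) ∉ A) (L : Subgroup G) : (Cfsg.IsTISubset A ∧ Subgroup.normalizer A = L) ↔ Cfsg.DadeHypothesis A L (fun _ => ⊥) := by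
  constructor
  · rintro ⟨hTI, rfl⟩
    have hn : ∀ a ∈ A, ∀ g, g * a * g⁻¹ ∈ A → g ∈ Subgroup.normalizer A := fun a ha g hg => by
      by_contra h
      exact h1 (hTI g h a ha hg ▸ ha)
    exact dade_of_TI h1 (fun a ha => hn a ha a (by simpa using ha))
      (fun x hx a ha => (Subgroup.mem_set_normalizer_iff.mp hx a).mp ha) hn
  · intro hD
    have hL : L ≤ Subgroup.normalizer A := fun x hx => Subgroup.mem_set_normalizer_iff.mpr fun a =>
      ⟨hD.conj_mem x hx a, fun h => by
        simpa [mul_assoc] using hD.conj_mem _ (L.inv_mem hx) _ h⟩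
    refine ⟨fun g hg x hx hx' => absurd (hL (Dade.TI_of_bot hD hx rfl hx')) hg, le_antisymm ?_ hL⟩
    intro g hg
    obtain ⟨a, ha⟩ := hA
    exact Dade.TI_of_bot hD ha rfl ((Subgroup.mem_set_normalizer_iff.mp hg a).mp ha)

end Cfsg.Agent.S1497
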