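import Cfsg.Statements.S1503
import Cfsg.Agent.PF.S03b

set_option autoImplicit false
open Cfsg

namespace Cfsg.Agent.S1503

open CA.Chr


/-- Let W₁, W₂ ≤ G with W = W₁ ⊔ W₂ and let χ an orthonormal family of irreducible characters of G up to sign, indexed by the linear characters ω of W, with χ_1 = 1, χ_ω = ω on W outside W₁ ∪ W₂, and the induction identity for (1 − φ)(1 − ψ). If θ is an irreducible character of G orthogonal to χ ω for every linear character ω of W, then θ vanishes at every element of W lying outside W₁ ∪ W₂. -/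
theorem result {G : Type*} [Group G] [Fintype G] (W₁ W₂ : Subgroup G) (hW : Cfsg.IsSelfNormalizingCyclic W₁ W₂) (χ : (↥(W₁ ⊔ W₂) →* ℂˣ) → (G → ℂ)) (hχ : Cfsg.IsCyclicTIFamily W₁ W₂ χ) (θ : G → ℂ) (hθ : Cfsg.IsIrrCharacter G θ) (horth : ∀ ω, Cfsg.classInner θ (χ ω) = 0) (w : ↥(W₁ ⊔ W₂)) (hw₁ : (w : G) ∉ W₁) (hw₂ : (w : G) ∉ W₂) : θ w = 0 := by
  obtain ⟨⟨x, y⟩, rfl⟩ := (supEquiv hW.2.2.2.1 hW.2.2.1).surjective w
  exact (TIFam0.of_family hW hχ).vanish_of_orth (IsIrr.mem_CF hθ)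
    (fun i j => (classInner_eq _ _).symm.trans (horth _))
    ((mul_not_mem_iff hW.2.2.1 x y).2.mp hw₂) ((mul_not_mem_iff hW.2.2.1 x y).1.mp hw₁)

end Cfsg.Agent.S1503
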