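import Cfsg.Statements.S1504
import Cfsg.Agent.PF.S03b

set_option autoImplicit false
open Cfsg

namespace Cfsg.Agent.S1504

open CA.Chr


/-- Let W₁, W₂ be subgroups of a finite group with W₁ ⊓ W₂ = ⊥ whose elements commute, and W = W₁ ⊔ W₂. For linear characters φ, ψ of W with φ trivial on W₂ and ψ trivial on W₁, the function (1 − φ)(1 − ψ) vanishes on W₁ ∪ W₂; and the family of these functions, indexed by pairs (φ, ψ) with φ ≠ 1 ≠ ψ, is linearly independent over ℂ. -/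
theorem result {G : Type*} [Group G] [Finite G] (W₁ W₂ : Subgroup G) (hdisj : W₁ ⊓ W₂ = ⊥) (hcomm : ∀ a ∈ W₁, ∀ b ∈ W₂, a * b = b * a) : (∀ φ ψ : ↥(W₁ ⊔ W₂) →* ℂˣ, (∀ w : ↥(W₁ ⊔ W₂), (w : G) ∈ W₂ → φ w = 1) → (∀ w : ↥(W₁ ⊔ W₂), (w : G) ∈ W₁ → ψ w = 1) → ∀ w : ↥(W₁ ⊔ W₂), ((w : G) ∈ W₁ ∨ (w : G) ∈ W₂) → (1 - (φ w : ℂ) - (ψ w : ℂ) + (φ w : ℂ) * (ψ w : ℂ)) = 0) ∧ LinearIndependent ℂ (fun p : {p : (↥(W₁ ⊔ W₂) →* ℂˣ) × (↥(W₁ ⊔ W₂) →* ℂˣ) // p.1 ≠ 1 ∧ p.2 ≠ 1 ∧ (∀ w : ↥(W₁ ⊔ W₂), (w : G) ∈ W₂ → p.1 w = 1) ∧ (∀ w : ↥(W₁ ⊔ W₂), (w : G) ∈ W₁ → p.2 w = 1)} => fun w : ↥(W₁ ⊔ W₂) => 1 - (p.1.1 w : ℂ) - (p.1.2 w : ℂ) + (p.1.1 w : ℂ) * (p.1.2 w : ℂ)) := by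
  refine ⟨fun φ ψ h1 h2 w hw => ?_, ?_⟩
  · rcases hw with hw | hw
    · simp [h2 w hw]
    · simp [h1 w hw]
  · rw [linearIndependent_iff']
    intro s g hg p hp
    have key : ∀ q ∈ s, ⟪(fun w : ↥(W₁ ⊔ W₂) => 1 - (q.1.1 w : ℂ) - (q.1.2 w : ℂ) +
        (q.1.1 w : ℂ) * (q.1.2 w : ℂ)), lin (p.1.1 * p.1.2)⟫ = if q = p then 1 else 0 := by
      obtain ⟨⟨φ, ψ⟩, h1, h2, h3, h4⟩ := p
      rintro ⟨⟨φ', ψ'⟩, h1', h2', h3', h4'⟩ -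
      have e : (fun w : ↥(W₁ ⊔ W₂) => 1 - (φ' w : ℂ) - (ψ' w : ℂ) + (φ' w : ℂ) * (ψ' w : ℂ)) =
        lin 1 - lin φ' - lin ψ' + lin (φ' * ψ') := by funext w; simp
      obtain ⟨⟨i, j⟩, rfl⟩ := (linSup hcomm hdisj).surjective φ
      obtain ⟨⟨k, l⟩, rfl⟩ := (linSup hcomm hdisj).surjective ψ
      obtain ⟨⟨i', j'⟩, rfl⟩ := (linSup hcomm hdisj).surjective φ'
      obtain ⟨⟨k', l'⟩, rfl⟩ := (linSup hcomm hdisj).surjective ψ'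
      obtain rfl := (linSup_triv2 _ _ _ _).mp h3
      obtain rfl := (linSup_triv1 _ _ _ _).mp h4
      obtain rfl := (linSup_triv2 _ _ _ _).mp h3'
      obtain rfl := (linSup_triv1 _ _ _ _).mp h4'
      have a1 : i ≠ 1 := by simpa using h1
      have a2 : l ≠ 1 := by simpa using h2
      simp only [e, dot_add_left, dot_sub_left, dot_lin, ← map_mul, ← map_one (linSup hcomm hdisj),
        EmbeddingLike.apply_eq_iff_eq, Subtype.mk.injEq, Prod.mk.injEq, Prod.mk_mul_mk, mul_one,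
        one_mul, Prod.ext_iff, Prod.fst_one, Prod.snd_one]
      simp [a1.symm, a2.symm]
    have := congrArg (⟪·, lin (p.1.1 * p.1.2)⟫) hg
    simp only [dot_sum_left, dot_smul_left, dot_zero_left] at this
    rw [Finset.sum_congr rfl fun q hq => by rw [key q hq]] at this
    simpa [hp] using this

end Cfsg.Agent.S1504
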