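import Cfsg.Statements.S1507
import Cfsg.Agent.PF.S03b

set_option autoImplicit false
open Cfsg

namespace Cfsg.Agent.S1507

open CA.Chr


open Classical in
/-- Let W₁, W₂ ≤ G form a self-normalising cyclic subgroup W = W₁ ⊔ W₂ of odd order with Nat.card W₁ < Nat.card W₂, and χ an orthonormal family of irreducible characters of G up to sign, indexed by the linear characters ω of W, with χ_1 = 1, χ_ω = ω on W outside W₁ ∪ W₂, and the induction identity for (1 − φ)(1 − ψ). Let θ be a class function of G vanishing on W outside W₁ ∪ W₂, and suppose fewer than 2 · Nat.card W₁ linear characters ω of W have ⟨θ, χ ω⟩ ≠ 0. Then one of: all ⟨θ, χ ω⟩ vanish; or there are ψ₀ and a with ⟨θ, χ ω⟩ = a when ω ψ₀⁻¹ is trivial on W₂ and 0 otherwise; or there are φ₀ and a with ⟨θ, χ ω⟩ = a when ω φ₀⁻¹ is trivial on W₁ and 0 otherwise. -/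
theorem result {G : Type*} [Group G] [Fintype G] (W₁ W₂ : Subgroup G) (hW : Cfsg.IsSelfNormalizingCyclic W₁ W₂) (hodd : Odd (Nat.card ↥(W₁ ⊔ W₂))) (χ : (↥(W₁ ⊔ W₂) →* ℂˣ) → (G → ℂ)) (hχ : Cfsg.IsCyclicTIFamily W₁ W₂ χ) (hlt : Nat.card W₁ < Nat.card W₂) (θ : G → ℂ) (hθ : Cfsg.IsClassFunction G θ) (hθV : ∀ w : ↥(W₁ ⊔ W₂), (w : G) ∉ W₁ → (w : G) ∉ W₂ → θ w = 0) (hfew : Nat.card {ω : ↥(W₁ ⊔ W₂) →* ℂˣ // Cfsg.classInner θ (χ ω) ≠ 0} < 2 * Nat.card W₁) : (∀ ω, Cfsg.classInner θ (χ ω) = 0) ∨ (∃ (ψ₀ : ↥(W₁ ⊔ W₂) →* ℂˣ) (a : ℂ), ∀ ω, Cfsg.classInner θ (χ ω) = if (∀ w : ↥(W₁ ⊔ W₂), (w : G) ∈ W₂ → (ω * ψ₀⁻¹) w = 1) then a else 0) ∨ (∃ (φ₀ : ↥(W₁ ⊔ W₂) →* ℂˣ) (a : ℂ), ∀ ω, Cfsg.classInner θ (χ ω) = if (∀ w : ↥(W₁ ⊔ W₂), (w : G) ∈ W₁ → (ω * φ₀⁻¹) w = 1) then a else 0) := by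
  have h : TIFam _ _ := ⟨TIFam0.of_family hW hχ, snc_oddCop hW hodd⟩
  have hN : NC (fun i j => χ (linSup hW.2.2.2.1 hW.2.2.1 (i, j))) θ < 2 * Nat.card W₁ := by
    refine lt_of_eq_of_lt ?_ hfew
    rw [NC, ← Fintype.card_subtype, Fintype.card_eq_nat_card]
    refine Nat.card_congr (Equiv.subtypeEquiv (linSup hW.2.2.2.1 hW.2.2.1).toEquiv fun p => ?_)
    rw [classInner_eq]; rfl
  simp only [classInner_eq]
  right
  rcases h.small_NC hθ (fun x y hx hy =>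
    hθV (supEquiv hW.2.2.2.1 hW.2.2.1 (x, y)) ((mul_not_mem_iff hW.2.2.1 x y).1.mpr hy)
      ((mul_not_mem_iff hW.2.2.1 x y).2.mpr hx)) hN (by omega) with ⟨l, c, hc⟩ | ⟨k, c, hc⟩
  · refine Or.inl ⟨linSup hW.2.2.2.1 hW.2.2.1 (1, l), c, fun ω => ?_⟩
    obtain ⟨⟨i, j⟩, rfl⟩ := (linSup hW.2.2.2.1 hW.2.2.1).surjective ω
    rw [hc]
    refine if_congr ?_ rfl rfl
    have := linSup_triv2 hW.2.2.2.1 hW.2.2.1 (i * 1⁻¹) (j * l⁻¹)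
    rw [mul_inv_eq_one] at this
    rw [← this, ← map_inv, ← map_mul]; rfl
  · refine Or.inr ⟨linSup hW.2.2.2.1 hW.2.2.1 (k, 1), c, fun ω => ?_⟩
    obtain ⟨⟨i, j⟩, rfl⟩ := (linSup hW.2.2.2.1 hW.2.2.1).surjective ω
    rw [hc]
    refine if_congr ?_ rfl rfl
    have := linSup_triv1 hW.2.2.2.1 hW.2.2.1 (i * k⁻¹) (j * 1⁻¹)
    rw [mul_inv_eq_one] at this
    rw [← this, ← map_inv, ← map_mul]; rfl

end Cfsg.Agent.S1507
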