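import Cfsg.Statements.S1510
import Cfsg.Agent.PF.S04

set_option autoImplicit false
open Cfsg

namespace Cfsg.Agent.S1510

open CA.Chr


/-- Let L be a finite group with a normal subgroup K and a nontrivial cyclic subgroup W₁ of order coprime to its index, K ⊓ W₁ = ⊥ and K ⊔ W₁ = ⊤; let W₂ ≠ ⊥ be a cyclic subgroup of K with K ⊓ C_L(x) = W₂ for every non-identity x ∈ W₁, and suppose W₁ ⊔ W₂ has odd order. Then (W₁, W₂) is a self-normalising cyclic pair in L. -/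
theorem result {L : Type*} [Group L] [Fintype L] (K W₁ W₂ : Subgroup L) [hK : K.Normal] (hKW₁ : K ⊓ W₁ = ⊥) (hKW₁' : K ⊔ W₁ = ⊤) (hW₁ : W₁ ≠ ⊥) (hW₁c : IsCyclic W₁) (hHall : Nat.Coprime (Nat.card W₁) W₁.index) (hW₂ : W₂ ≠ ⊥) (hW₂c : IsCyclic W₂) (hW₂K : W₂ ≤ K) (hC : ∀ x ∈ W₁, x ≠ 1 → K ⊓ Subgroup.centralizer ({x} : Set L) = W₂) (hodd : Odd (Nat.card ↥(W₁ ⊔ W₂))) : Cfsg.IsSelfNormalizingCyclic W₁ W₂ := by
  obtain ⟨hc, hd, h⟩ := primeTI_of_subgroups hKW₁ hKW₁' hW₁ hW₁c hHall hW₂ hW₂c hC hodd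
  have hcyc : IsCyclic ↥(W₁ ⊔ W₂) :=
    (supEquiv hc hd).isCyclic.mp (Group.isCyclic_prod_iff.mpr ⟨hW₁c, hW₂c, h.cop⟩)
  refine ⟨hW₁, hW₂, hd, hc, hcyc, fun X hX ⟨v, hv⟩ => le_antisymm (fun g hg => ?_) fun g hg => ?_⟩
  · obtain ⟨⟨x, y⟩, e1⟩ := (supEquiv hc hd).surjective ⟨v, (hX hv).1⟩
    have hv' := (Subgroup.mem_set_normalizer_iff.mp (inv_mem hg) v).mp hv
    obtain ⟨b, e2⟩ := (supEquiv hc hd).surjective ⟨_, (hX hv').1⟩
    have e3 : (x : L) * y = v := congrArg Subtype.val e1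
    rw [← mulHom_range hc]
    refine h.TI' g (x, y) ((mul_not_mem_iff hd x y).2.mp fun hh => (hX hv).2 (Or.inr (e3 ▸ hh))) b ?_
    rw [mulHom_apply hc x, e3, ← inv_inv g, inv_inv g⁻¹]
    exact congrArg Subtype.val e2
  · have hcm := CA.FG.abelian_iff_forall.mp (CA.FG.abelian_of_cyclic hcyc)
    refine Subgroup.mem_set_normalizer_iff.mpr fun v => ⟨fun hv => ?_, fun hv => ?_⟩
    · rwa [hcm g hg v (hX hv).1, mul_inv_cancel_right]
    · have := hcm g hg _ (hX hv).1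
      have e : g * v * g⁻¹ = v := mul_left_cancel (a := g) (by rw [this]; group)
      rwa [e] at hv

end Cfsg.Agent.S1510
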