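import Cfsg.Statements.S1511
import Cfsg.Agent.PF.S04

set_option autoImplicit false
open Cfsg

namespace Cfsg.Agent.S1511

open CA.Chr


/-- Let L be a finite group with K normal with complement W₁ ≠ 1 a cyclic Hall subgroup, and W₂ ≠ 1 a cyclic subgroup of K equal to C_K(x) for every non-identity x ∈ W₁, with W₁W₂ of odd order. Then there are a map μ from the linear characters of W = W₁ ⊔ W₂ to irreducible characters of L, injective, and a sign δ(ω) ∈ {1, −1} depending only on the values of ω on W₂, such that: for ω, ω' agreeing on W₂, the function induced to L from ω − ω' equals δ(ω) • (μ ω − μ ω'); μ ω x = δ(ω) ω x for x ∈ W outside W₂; every irreducible character of L not of the form μ ω vanishes on W outside W₂; and μ ω 1 − δ(ω) is an integer multiple of Nat.card W₁. -/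
theorem result {L : Type*} [Group L] [Fintype L] (K W₁ W₂ : Subgroup L) [hK : K.Normal] (hKW₁ : K ⊓ W₁ = ⊥) (hKW₁' : K ⊔ W₁ = ⊤) (hW₁ : W₁ ≠ ⊥) (hW₁c : IsCyclic W₁) (hHall : Nat.Coprime (Nat.card W₁) W₁.index) (hW₂ : W₂ ≠ ⊥) (hW₂c : IsCyclic W₂) (hW₂K : W₂ ≤ K) (hC : ∀ x ∈ W₁, x ≠ 1 → K ⊓ Subgroup.centralizer ({x} : Set L) = W₂) (hodd : Odd (Nat.card ↥(W₁ ⊔ W₂))) : ∃ (μ : (↥(W₁ ⊔ W₂) →* ℂˣ) → (L → ℂ)) (δ : (↥(W₁ ⊔ W₂) →* ℂˣ) → ℂ), Function.Injective μ ∧ (∀ ω, Cfsg.IsIrrCharacter L (μ ω)) ∧ (∀ ω, δ ω = 1 ∨ δ ω = -1) ∧ (∀ ω ω' : ↥(W₁ ⊔ W₂) →* ℂˣ, (∀ w : ↥(W₁ ⊔ W₂), (w : L) ∈ W₂ → ω w = ω' w) → δ ω = δ ω' ∧ Cfsg.indFun (W₁ ⊔ W₂) (fun w => (ω w : ℂ) - (ω' w : ℂ)) = δ ω • (μ ω - μ ω')) ∧ (∀ ω, ∀ w : ↥(W₁ ⊔ W₂), (w : L) ∉ W₂ → μ ω w = δ ω * (ω w : ℂ)) ∧ (∀ θ : L → ℂ, Cfsg.IsIrrCharacter L θ → (∀ ω, θ ≠ μ ω) → ∀ w : ↥(W₁ ⊔ W₂), (w : L) ∉ W₂ → θ w = 0) ∧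 (∀ ω, ∃ n : ℤ, μ ω 1 - δ ω = n * (Nat.card W₁ : ℂ)) := by
  obtain ⟨hc, hd, h⟩ := primeTI_of_subgroups hKW₁ hKW₁' hW₁ hW₁c hHall hW₂ hW₂c hC hodd
  refine ⟨fun ω => mu (mulHom hc) ((linSup hc hd).symm ω).1 ((linSup hc hd).symm ω).2,
    fun ω => del (mulHom hc) ((linSup hc hd).symm ω).2, fun a b hab => ?_, fun ω => h.mu_irr _ _,
    fun ω => del_cases' _ _, fun ω ω' h1 => ?_, fun ω w hw => ?_, fun θ hθ h1 w hw => ?_,
    fun ω => ?_⟩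
  · exact (linSup hc hd).symm.injective (Prod.ext_iff.mpr (h.mu_eq_iff.mp hab))
  · obtain ⟨⟨i, j⟩, rfl⟩ := (linSup hc hd).surjective ω
    obtain ⟨⟨k, l⟩, rfl⟩ := (linSup hc hd).surjective ω'
    obtain rfl : j = l := by
      refine MonoidHom.ext fun y => ?_
      have := h1 (supEquiv hc hd (1, y)) (by simp)
      simpa [linSup_apply] using this
    simp only [MulEquiv.symm_apply_apply, true_and]
    rw [indFun_eq, ind_sup_eq hc hd, smul_sub, ← eta_eq_mu, ← eta_eq_mu, ← h.ind_om_sub]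
    congr 1
    funext ⟨x, y⟩
    simp [linSup_apply]
  · obtain ⟨⟨i, j⟩, rfl⟩ := (linSup hc hd).surjective ω
    obtain ⟨⟨x, y⟩, rfl⟩ := (supEquiv hc hd).surjective w
    simp only [MulEquiv.symm_apply_apply, linSup_apply, Units.val_mul]
    exact h.mu_on i j ((mul_not_mem_iff hd x y).2.mp hw) y
  · obtain ⟨⟨x, y⟩, rfl⟩ := (supEquiv hc hd).surjective w
    refine h.vanish_of_orth (IsIrr.mem_CF hθ) (fun i j => IsIrr.dot_ne hθ (h.mu_irr i j) ?_)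
      ((mul_not_mem_iff hd x y).2.mp hw) y
    simpa using h1 (linSup hc hd (i, j))
  · obtain ⟨n, hn⟩ := h.mu_deg_mod ((linSup hc hd).symm ω).1 ((linSup hc hd).symm ω).2
    exact ⟨n, sub_eq_iff_eq_add'.mpr hn⟩

end Cfsg.Agent.S1511
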