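import Cfsg.Statements.S1512
import Cfsg.Agent.PF.S04

set_option autoImplicit false
open Cfsg

namespace Cfsg.Agent.S1512

open CA.Chr


/-- Let K be a normal subgroup of the finite group L and x a non-identity element whose order is coprime to the order of K, such that K ⊓ C_L(y) = W₂ for every non-identity element y of the cyclic group generated by x. Then the number of conjugacy classes of K mapped to themselves by conjugation by x is at most Nat.card W₂. -/
theorem result {L : Type*} [Group L] [Finite L] (K W₂ : Subgroup L) [hK : K.Normal] (x : L) (hx1 : x ≠ 1) (hx : Nat.Coprime (orderOf x) (Nat.card K)) (hC : ∀ y ∈ Subgroup.zpowers x, y ≠ 1 → K ⊓ Subgroup.centralizer ({y} : Set L) = W₂) : Nat.card {C : ConjClasses K // ConjClasses.map (MulEquiv.toMonoidHom ((MulAut.conjNormal x : MulAut K))) C = C} ≤ Nat.card W₂ := by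
  obtain ⟨p, hp, m, hm⟩ := Nat.exists_prime_and_dvd (mt orderOf_eq_one_iff.mp hx1)
  have hm0 : m ≠ 0 := by rintro rfl; exact (orderOf_pos x).ne' (by simpa using hm)
  have hxm : x ^ m ≠ 1 := pow_ne_one_of_lt_orderOf hm0
    (by rw [hm]; exact lt_mul_of_one_lt_left (Nat.pos_of_ne_zero hm0) hp.one_lt)
  have h1 := hC (x ^ m) (Subgroup.npow_mem_zpowers x m) hxm
  refine card_fixed_classes_le (W := W₂) (MulAut.conjNormal x) (m := m) hp
    (by rw [← pow_mul, ← map_pow, mul_comm, ← hm, pow_orderOf_eq_one, map_one])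
    (fun hc => hp.one_lt.ne' (Nat.eq_one_of_dvd_coprimes hx (Dvd.intro _ hm.symm) hc))
    (Subgroup.inclusion (h1 ▸ inf_le_left)) fun k hk => ⟨⟨k, h1 ▸ ⟨k.2, ?_⟩⟩, rfl⟩
  rw [← map_pow] at hk
  have := congrArg Subtype.val hk
  rw [MulAut.conjNormal_apply, mul_inv_eq_iff_eq_mul] at this
  exact Subgroup.mem_centralizer_singleton_iff.mpr this.symm

end Cfsg.Agent.S1512
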