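import Cfsg.Statements.S1513
import Cfsg.Agent.PF.S04

set_option autoImplicit false
open Cfsg

namespace Cfsg.Agent.S1513

open CA.Chr


/-- Let L be a finite group with K normal with complement W₁ ≠ 1 a cyclic Hall subgroup, and W₂ ≠ 1 a cyclic subgroup of K equal to C_K(x) for every non-identity x ∈ W₁, with W₁W₂ of odd order. For an irreducible character θ of K: if θ is not fixed under conjugation by some element of W₁, then the function induced from θ to L is an irreducible character of L; and the irreducible characters of K fixed by all of W₁ are exactly Nat.card W₂ in number, each inducing to the sum of Nat.card W₁ pairwise distinct irreducible characters of L. -/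
theorem result {L : Type*} [Group L] [Fintype L] (K W₁ W₂ : Subgroup L) [hK : K.Normal] (hKW₁ : K ⊓ W₁ = ⊥) (hKW₁' : K ⊔ W₁ = ⊤) (hW₁ : W₁ ≠ ⊥) (hW₁c : IsCyclic W₁) (hHall : Nat.Coprime (Nat.card W₁) W₁.index) (hW₂ : W₂ ≠ ⊥) (hW₂c : IsCyclic W₂) (hW₂K : W₂ ≤ K) (hC : ∀ x ∈ W₁, x ≠ 1 → K ⊓ Subgroup.centralizer ({x} : Set L) = W₂) (hodd : Odd (Nat.card ↥(W₁ ⊔ W₂))) : (∀ θ : K → ℂ, Cfsg.IsIrrCharacter K θ → (∃ x ∈ W₁, (fun k : K => θ ⟨x * k * x⁻¹, hK.conj_mem (k : L) k.2 x⟩) ≠ θ) → Cfsg.IsIrrCharacter L (Cfsg.indFun K θ)) ∧ Nat.card {θ : Cfsg.IrrCharacter K // ∀ x ∈ W₁, (fun k : K => (θ : K → ℂ) ⟨x * k * x⁻¹, hK.conj_mem (k : L) k.2 x⟩) = θ} = Nat.card W₂ ∧ (∀ θ : K → ℂ, Cfsg.IsIrrCharacter K θ → (∀ x ∈ W₁, (fun k : K => θ ⟨x * k * x⁻¹, hK.conj_mem (k : L) k.2 x⟩) = θ) → ∃ C : Finset (L → ℂ), C.card = Nat.card W₁ ∧ (∀ μ ∈ C, Cfsg.IsIrrCharacter L μ) ∧ Cfsg.indFun K θ = ∑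 μ ∈ C, μ) := by
  obtain ⟨hc, hd, h⟩ := primeTI_of_subgroups hKW₁ hKW₁' hW₁ hW₁c hHall hW₂ hW₂c hC hodd
  obtain ⟨x, hx, hx1⟩ := CA.FG.exists_mem_ne_one hW₁
  have h1 : ∀ θ : K → ℂ, Cfsg.IsIrrCharacter K θ → ((∀ x ∈ W₁, (fun k : K =>
      θ ⟨x * k * x⁻¹, hK.conj_mem (k : L) k.2 x⟩) = θ) ↔ ∃ j, θ = mu (mulHom hc) 1 j ∘ K.subtype) := by
    intro θ hθ
    simp only [← comp_cj_subtype]
    refine ⟨fun h2 => h.eq_res_mu_of_fixed hθ (x := ⟨x, hx⟩) (fun e => hx1 (congrArg Subtype.val e))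
      (by simpa [mem_inertia] using h2 x hx), ?_⟩
    rintro ⟨j, rfl⟩ y _
    exact res_comp_cj _ (h.mu_CF _ _) _
  refine ⟨fun θ hθ h2 => ?_, ?_, fun θ hθ h2 => ?_⟩
  · rw [indFun_eq]
    refine ((h.res_irr_cases hθ).resolve_left fun h3 => ?_).1
    obtain ⟨y, hy, h4⟩ := h2
    exact h4 ((h1 θ hθ).mpr h3 y hy)
  · rw [← h.fam.card_lin2, Fintype.card_eq_nat_card]
    symm
    refine Nat.card_eq_of_bijective (fun j => ⟨⟨_, h.res_mu_irr 1 j⟩, (h1 _ (h.res_mu_irr 1 j)).mpr ⟨j, rfl⟩⟩)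
      ⟨fun a b hab => h.res_mu_inj (congrArg (fun t => t.1.1) hab), fun θ => ?_⟩
    obtain ⟨j, hj⟩ := (h1 _ θ.1.2).mp θ.2
    exact ⟨j, Subtype.ext (Subtype.ext hj.symm)⟩
  · obtain ⟨j, rfl⟩ := (h1 θ hθ).mp h2
    have hinj : Function.Injective fun i => mu (mulHom hc) i j := fun a b hab => (h.mu_eq_iff.mp hab).1
    refine ⟨Finset.univ.image fun i => mu (mulHom hc) i j, ?_, ?_, ?_⟩
    · rw [Finset.card_image_of_injective _ hinj, Finset.card_univ, h.fam.card_lin1]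
    · intro μ hμ
      obtain ⟨i, -, rfl⟩ := Finset.mem_image.mp hμ
      exact h.mu_irr _ _
    · rw [indFun_eq, h.ind_res_mu, Finset.sum_image hinj.injOn, muS]

end Cfsg.Agent.S1513
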