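import Cfsg.Statements.S1514
import Cfsg.Agent.PF.Brg

set_option autoImplicit false
open Cfsg

namespace Cfsg.Agent.S1514

/-- Let S be a nonempty set of irreducible characters of the finite group L, closed under complex conjugation and containing no real-valued member, and τ a linear isometry on the integer combinations of S vanishing at 1, with values virtual characters of G vanishing at 1. Then there is a choice R making (S, τ, R) a coherence system. -/
theorem result {L : Type*} [Group L] [Fintype L] {G : Type*} [Group G] [Fintype G] (S : Set (L → ℂ)) (hS : S.Nonempty) (hirr : ∀ χ ∈ S, Cfsg.IsIrrCharacter L χ) (hconj : ∀ χ ∈ S, Cfsg.conjFun χ ∈ S ∧ Cfsg.conjFun χ ≠ χ) (τ : (L → ℂ) → (G → ℂ)) (hτ : Cfsg.IsLinearIsometryOn (Cfsg.zspanOn S {1}ᶜ) τ) (hτ1 : ∀ α ∈ Cfsg.zspanOn S {1}ᶜ, τ α 1 = 0) : ∃ R : (L → ℂ) → Finset (G → ℂ), Cfsg.IsCoherenceSystem S τ R := by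
  open CA.Chr in
  · skip
    lift S to Finset (L → ℂ) using (irr L).finite_toSet.subset fun χ hχ => mem_irr.2 (hirr χ hχ)
    obtain ⟨ν, hν⟩ := exists_lin_of_isometry hτ
    obtain ⟨R, h⟩ := irr_subcoh (isoOn_of_isometry (deg_int_of_char fun χ hχ => IsIrr.isChar (hirr χ hχ))
      hτ hτ1 hν) hirr (fun χ hχ => (hconj χ hχ).1) fun χ hχ => (hconj χ hχ).2
    refine ⟨R, hS, h.char, h.conj_mem, h.conj_ne, hτ, hτ1, fun χ hχ φ hφ e => ?_, fun χ hχ α hα β hβ => ?_,
      fun χ hχ α hα => ((h.ons χ hχ).dirr α hα).mem_ZIrr, fun χ hχ => ?_, fun χ hχ φ hφ e1 e2 α hα β hβ => ?_⟩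
    · rw [classInner_eq, h.orth χ hχ φ hφ e]
    · rw [classInner_eq]; convert (h.ons χ hχ).dot_eq hα hβ
    · rw [← hν _ (mem_zspanOn.2 ⟨h.sub_conj_mem hχ, h.sub_conj_deg hχ⟩), h.sum_eq χ hχ]
    · rw [classInner_eq] at e1 e2 ⊢
      refine h.disj χ hχ φ hφ ?_ ?_ α hα β hβ
      · rintro rfl; exact h.ne_zero _ hφ (dot_self_eq_zero.1 e1)
      · rintro rfl; exact h.ne_zero _ hφ (dot_self_eq_zero.1 e2)

end Cfsg.Agent.S1514
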