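import Cfsg.Statements.S1516
import Cfsg.Agent.PF.Brg

set_option autoImplicit false
open Cfsg

namespace Cfsg.Agent.S1516

/-- Let (S, τ, R) be a coherence system from L to G with degrees φ 1 = d φ and squared norms ⟨φ, φ⟩ = n φ for φ ∈ S. Let S₁ ⊆ S be a finite subset closed under complex conjugation such that (S₁, L minus 1, τ) is coherent, let χ ∈ S with χ ∉ S₁ and conj χ ∉ S₁, and let χ₁ ∈ S₁ with d χ₁ dividing d χ and 2 d χ d χ₁ < Σ_{φ ∈ S₁} (d φ)² / n φ. Then S₁ together with χ and conj χ is coherent. -/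
theorem result {L : Type*} [Group L] [Fintype L] {G : Type*} [Group G] [Fintype G] (S : Set (L → ℂ)) (τ : (L → ℂ) → (G → ℂ)) (R : (L → ℂ) → Finset (G → ℂ)) (hS : Cfsg.IsCoherenceSystem S τ R) (d n : (L → ℂ) → ℕ) (hd : ∀ φ ∈ S, φ 1 = (d φ : ℂ)) (hn : ∀ φ ∈ S, Cfsg.classInner φ φ = (n φ : ℂ)) (S₁ : Finset (L → ℂ)) (hS₁ : ↑S₁ ⊆ S) (hS₁c : ∀ φ ∈ S₁, Cfsg.conjFun φ ∈ S₁) (hcoh : Cfsg.IsCoherent (↑S₁ : Set (L → ℂ)) {1}ᶜ τ) (χ : L → ℂ) (hχ : χ ∈ S) (hχ₁ : χ ∉ S₁) (hχ₂ : Cfsg.conjFun χ ∉ S₁) (χ₁ : L → ℂ) (hχ₁S : χ₁ ∈ S₁) (hdvd : d χ₁ ∣ d χ) (hineq : (2 * d χ * d χ₁ : ℝ) < ∑ φ ∈ S₁, ((d φ : ℝ) ^ 2 / (n φ : ℝ))) : Cfsg.IsCoherent (↑S₁ ∪ {χ, Cfsg.conjFun χ} : Set (L → ℂ)) {1}ᶜ τ := by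
  open CA.Chr in
  · skip
    classical
    lift S to Finset (L → ℂ) using IsCoherenceSystem.finite hS
    obtain ⟨τ', h, ha⟩ := subcoh_of_system hS
    have s : S₁ ⊆ S := Finset.coe_subset.1 hS₁
    have e1 : ∀ φ ∈ S, d φ = deg φ := fun φ hφ => (deg_eq (hd φ hφ)).symm
    have e2 : ∀ φ ∈ S, (n φ : ℝ) = nrm φ := fun φ hφ =>
      (nrm_eq_of_dot (by rw [← classInner_eq, hn φ hφ]; simp)).symm
    rw [e1 _ hχ, e1 _ (s hχ₁S)] at hdvd hineq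
    rw [Finset.sum_congr rfl fun φ hφ => by rw [e1 φ (s hφ), e2 φ (s hφ)]] at hineq
    have := h.extend s hS₁c ((h.isCoherent ha s hS₁c).1 hcoh).2 hχ hχ₁ hχ₁S hdvd hineq
    have := (h.isCoherent ha (T := S₁ ∪ {χ, conjFun χ}) (Finset.union_subset s (by
      simp [Finset.insert_subset_iff, h.conj_mem χ hχ, Finset.mem_coe.1 hχ])) (by
        intro φ hφ
        simp only [Finset.mem_union, Finset.mem_insert, Finset.mem_singleton] at hφ ⊢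
        rcases hφ with hφ | rfl | rfl <;> simp [*])).2 ⟨⟨χ, by simp⟩, by convert this⟩
    simpa using this

end Cfsg.Agent.S1516
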