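import Cfsg.Statements.S1518
import Cfsg.Agent.PF.Brg

set_option autoImplicit false
open Cfsg

namespace Cfsg.Agent.S1518

/-- Under the Dade hypothesis for (A, L, H): if χ is an irreducible character of L vanishing at every non-identity element of L outside A, then the Dade image of χ − conj χ equals μ − conj μ for some irreducible character μ of G. -/
theorem result {G : Type*} [Group G] [Fintype G] (A : Set G) (L : Subgroup G) [Fintype L] (H : G → Subgroup G) (hD : Cfsg.DadeHypothesis A L H) (χ : L → ℂ) (hχ : Cfsg.IsIrrCharacter L χ) (hsupp : ∀ x : L, x ≠ 1 → (x : G) ∉ A → χ x = 0) : ∃ μ : G → ℂ, Cfsg.IsIrrCharacter G μ ∧ Cfsg.dadeIsometry A L H (χ - Cfsg.conjFun χ) = μ - Cfsg.conjFun μ := by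
  open CA.Chr in
  · skip
    rw [dade_eq]
    by_cases e : conjFun χ = χ
    · exact ⟨1, mem_irr.1 one_mem_irr, by rw [e, sub_self, map_zero]; ext; simp⟩
    have z := IsIrr.mem_ZIrr hχ
    have z' := sub_mem z (ZIrr.conjFun z)
    have s : ∀ a : L, (a : G) ∉ A → (χ - conjFun χ) a = 0 := fun a ha => by
      by_cases h1 : a = 1
      · rw [h1]; exact sub_eq_zero.2 (IsChar.conj_deg (IsIrr.isChar hχ)).symm
      · simp [hsupp a h1 ha]
    refine exists_sub_conj (Dade.dade_mem_ZIrr hD z' s) ?_ (Dade.dade_one hD _) ?_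
    · rw [Dade.nrm_dade hD (ZIrr.mem_CF z') s, nrm_sub_of_orth (IsIrr.dot_ne hχ (IsIrr.conjFun hχ) (Ne.symm e)),
        nrm_conjFun, IsIrr.nrm hχ]
      norm_num
    · rw [← dade_conjFun, conjFun_sub, conjFun_conjFun, ← map_neg, neg_sub]

end Cfsg.Agent.S1518
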