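import Cfsg.Statements.S1519
import Cfsg.Agent.PF.Brg

set_option autoImplicit false
open Cfsg

namespace Cfsg.Agent.S1519

/-- Let K be a solvable normal subgroup of the finite group L and (S, τ, R) a coherence system from L to G where S is the set of functions induced from non-principal irreducible characters of K; write S(A) for those induced from characters whose kernel contains A. Let A, B, C, D be normal subgroups of L with A < K, B < K, B ≤ D ≤ C ≤ K and every commutator of D with C in B. If S(A) is coherent and 4 * [L:C]^2 * [C:D] < ([K:A] − 1)^2, then S(B) is coherent. -/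
theorem result {L : Type*} [Group L] [Fintype L] {G : Type*} [Group G] [Fintype G] (K : Subgroup L) [hK : K.Normal] (hsolv : Group.IsSolvable K) (τ : (L → ℂ) → (G → ℂ)) (R : (L → ℂ) → Finset (G → ℂ)) (hS : Cfsg.IsCoherenceSystem (Cfsg.inducedIrrAbove K ⊥) τ R) (A B C D : Subgroup L) [A.Normal] [B.Normal] [C.Normal] [D.Normal] (hAK : A < K) (hBK : B < K) (hBD : B ≤ D) (hDC : D ≤ C) (hCK : C ≤ K) (hcent : ∀ x ∈ D, ∀ y ∈ C, x * y * x⁻¹ * y⁻¹ ∈ B) (hA : Cfsg.IsCoherent (Cfsg.inducedIrrAbove K A) {1}ᶜ τ) (hlt : 4 * C.index ^ 2 * D.relIndex C < (A.relIndex K - 1) ^ 2) : Cfsg.IsCoherent (Cfsg.inducedIrrAbove K B) {1}ᶜ τ := by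
  open CA.Chr in
  · skip
    obtain ⟨τ', R', h, hc⟩ := top_system K hS
    rw [← coe_seqIndD, hc _ _ le_rfl] at hA ⊢
    have n := fun (X : Subgroup L) [X.Normal] => (normalIn_top' X).2
    refine ⟨SD_nonempty (normalIn_top' K) (n K) (n B) hBK le_rfl, by_contra fun nc => ?_⟩
    have := coherent_seqIndD_bound (normalIn_top' K) hsolv h (n A) (n B) (n C) (n D) hAK hBD hDC hCK
      (Subgroup.commutator_le.2 hcent) hA.2 nc
    rw [Subgroup.relIndex_top_right] at this
    have h1 := (one_lt_relIndex' hAK).le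
    have h2 : (1 : ℝ) ≤ A.relIndex K := by exact_mod_cast h1
    have := pow_le_pow_left₀ (by linarith) this 2
    rw [mul_pow, Real.sq_sqrt (by positivity)] at this
    have h3 : (4 * C.index ^ 2 * D.relIndex C : ℝ) < (A.relIndex K - 1) ^ 2 := by
      rw [← Nat.cast_one, ← Nat.cast_sub h1]; exact_mod_cast hlt
    nlinarith

end Cfsg.Agent.S1519
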