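import Cfsg.Statements.S1521
import Cfsg.Agent.PF.Brg

set_option autoImplicit false
open Cfsg

namespace Cfsg.Agent.S1521

/-- Let K be a solvable normal subgroup of the finite group L of odd order and (S, τ, R) a coherence system from L to G with S the functions induced from non-principal irreducible characters of K; S(A) as before. Let M ≤ K be normal in L with K/M nilpotent, H₁ = [K, K] ⊔ M, H₁ < K < L, and suppose every element of K outside H₁ is centralised modulo H₁ only from inside K (L/H₁ is a Frobenius group with kernel K/H₁). Suppose one of the following: some normal subgroup of L lies strictly between H₁ and K; or [K:H₁] > 4[L:K]^2 + 1; or [K:M] is not a prime power; or [K,K] ≤ M; or [K:M] is a power of a prime p with [L:K] dividing p − 1. Then S(M) is coherent. -/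
theorem result {L : Type*} [Group L] [Fintype L] {G : Type*} [Group G] [Fintype G] (K : Subgroup L) [hK : K.Normal] (hsolv : Group.IsSolvable K) (τ : (L → ℂ) → (G → ℂ)) (R : (L → ℂ) → Finset (G → ℂ)) (hS : Cfsg.IsCoherenceSystem (Cfsg.inducedIrrAbove K ⊥) τ R) (hodd : Odd (Nat.card L)) (M : Subgroup L) [M.Normal] (hMK : M ≤ K) [(M.subgroupOf K).Normal] (hnil : Group.IsNilpotent (↥K ⧸ M.subgroupOf K)) (H₁ : Subgroup L) (hH₁ : H₁ = ⁅K, K⁆ ⊔ M) (hH₁K : H₁ < K) (hKL : K < ⊤) (hfrob : ∀ k ∈ K, k ∉ H₁ → ∀ x : L, x * k * x⁻¹ * k⁻¹ ∈ H₁ → x ∈ K) (hgood : (∃ N : Subgroup L, N.Normal ∧ H₁ < N ∧ N < K) ∨ 4 * K.index ^ 2 + 1 < H₁.relIndex K ∨ (¬ ∃ p m : ℕ, p.Prime ∧ M.relIndex K = p ^ m) ∨ ⁅K, K⁆ ≤ M ∨ (∃ p m : ℕ, p.Prime ∧ M.relIndex K = p ^ m ∧ K.index ∣ p - 1)) : Cfsg.IsCoherent (Cfsg.inducedIrrAbove K M) {1}ᶜ τ := by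
  open CA.Chr in
  · skip
    subst hH₁
    obtain ⟨τ', R', h, hc⟩ := top_system K hS
    rw [← coe_seqIndD, hc _ _ le_rfl]
    have n := fun (X : Subgroup L) [X.Normal] => (normalIn_top' X).2
    obtain ⟨e⟩ := CA.FG.quot_equiv_quotient (K := M) (X := K) (le_top.trans (n M))
    refine ⟨SD_nonempty (normalIn_top' K) (n K) (n M) (le_sup_right.trans_lt hH₁K) le_rfl,
      by_contra fun nc => ?_⟩
    obtain ⟨⟨h1, h2⟩, p, hp, ⟨m, hm⟩, h3, h4⟩ := non_coherent_chief (normalIn_top' K) hsolv h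
      (by rwa [Subgroup.card_top]) (n M) hMK ((Group.isNilpotent_congr e).1 hnil) hH₁K hKL
      (fun k hk hk' x _ => hfrob k hk hk' x) nc
    rw [Subgroup.relIndex_top_right] at h2 h4
    rcases hgood with ⟨N, hN, a, b⟩ | a | a | a | ⟨q, k, hq, a, b⟩
    · exact a.ne' (h1.2.2.2 N a.le b (n N))
    · omega
    · exact a ⟨p, m, hp, hm⟩
    · exact h3 a
    · have := one_lt_relIndex' (le_sup_right.trans_lt hH₁K)
      obtain rfl : q = p := (Nat.prime_dvd_prime_iff_eq hq hp).1 (hq.dvd_of_dvd_pow (hm ▸ a ▸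
        dvd_pow_self q (by rintro rfl; simp [a] at this)))
      exact h4 b

end Cfsg.Agent.S1521
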