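import Cfsg.Statements.S1522
import Cfsg.Agent.PF.Brg

set_option autoImplicit false
open Cfsg

namespace Cfsg.Agent.S1522

/-- Let K be a nilpotent normal subgroup of the finite group L of odd order with [K,K] < K < L and L/[K,K] a Frobenius group with kernel K/[K,K] (elements of K outside [K,K] are centralised modulo [K,K] only from inside K); let (S, τ, R) be a coherence system from L to G with S the functions induced from non-principal irreducible characters of K. Let Z be a nontrivial normal subgroup of L contained in the centre of K, and suppose every member of S outside S(Z) is an irreducible character of L. Then S minus S(Z) is the set of irreducible characters χ of L with χ z ≠ χ 1 for some z ∈ Z, and it is coherent. -/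
theorem result {L : Type*} [Group L] [Fintype L] {G : Type*} [Group G] [Fintype G] (K : Subgroup L) [hK : K.Normal] (hsolv : Group.IsSolvable K) (τ : (L → ℂ) → (G → ℂ)) (R : (L → ℂ) → Finset (G → ℂ)) (hS : Cfsg.IsCoherenceSystem (Cfsg.inducedIrrAbove K ⊥) τ R) (hodd : Odd (Nat.card L)) (hnil : Group.IsNilpotent K) (hH₁K : ⁅K, K⁆ < K) (hKL : K < ⊤) (hfrob : ∀ k ∈ K, k ∉ ⁅K, K⁆ → ∀ x : L, x * k * x⁻¹ * k⁻¹ ∈ ⁅K, K⁆ → x ∈ K) (Z : Subgroup L) [Z.Normal] (hZ1 : Z ≠ ⊥) (hZK : Z ≤ K) (hZc : ∀ z ∈ Z, ∀ k ∈ K, z * k = k * z) (hirr : ∀ χ ∈ Cfsg.inducedIrrAbove K ⊥ \ Cfsg.inducedIrrAbove K Z, Cfsg.IsIrrCharacter L χ) : Cfsg.inducedIrrAbove K ⊥ \ Cfsg.inducedIrrAbove K Z = {χ | Cfsg.IsIrrCharacter L χ ∧ ∃ z ∈ Z, χ z ≠ χ 1} ∧ Cfsg.IsCoherent (Cfsg.inducedIrrAbove K ⊥ \ Cfsg.inducedIrrAbove K Z) {1}ᶜ τ := by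
  open CA.Chr in
  · skip
    obtain ⟨τ', R', h, hc⟩ := top_system K hS
    have n := fun (X : Subgroup L) [X.Normal] => (normalIn_top' X).2
    have e : inducedIrrAbove K ⊥ \ inducedIrrAbove K Z = seqIndD K.subtype Z ⊥ := by
      have r : ∀ {A : Subgroup L}, A ≤ K → A ≤ K.subtype.range := fun h => h.trans K.range_subtype.ge
      ext φ
      rw [← coe_seqIndD, ← coe_seqIndD, Set.mem_diff, Finset.mem_coe, Finset.mem_coe, Finset.mem_coe]
      refine ⟨fun ⟨a, b⟩ => ?_, fun a => ⟨seqIndD_mono hZK le_rfl a, ?_⟩⟩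
      · rw [mem_seqIndD_iff_cfker (r le_rfl) (r hZK) a] at b
        rw [mem_seqIndD_iff_cfker (r hZK) bot_le a]
        exact ⟨fun c => b ⟨((mem_seqIndD_iff_cfker (r le_rfl) bot_le a).1 a).1, c⟩, bot_le⟩
      · rw [mem_seqIndD_iff_cfker (r le_rfl) (r hZK) a]
        exact fun c => ((mem_seqIndD_iff_cfker (r hZK) bot_le a).1 a).1 c.2
    rw [e] at hirr ⊢
    obtain ⟨h1, h2⟩ := seqIndD_irr_coherence (normalIn_top' K) hsolv h (by rwa [Subgroup.card_top]) hnil hH₁K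
      hKL (fun k hk hk' x _ => hfrob k hk hk' x) (n Z) hZ1
      (le_inf hZK fun z hz k hk => (hZc z hz k hk).symm)
      fun χ hχ => IsIrr.comp_equiv (hirr _ (top_SD₁ K Z ⊥ χ hχ)) Subgroup.topEquiv
    refine ⟨Set.ext fun χ => ⟨fun hχ => ⟨hirr χ hχ, by_contra fun c => ?_⟩, fun ⟨a, z, hz, b⟩ => ?_⟩,
      (hc Z ⊥ hZK).2 ⟨SD_nonempty (normalIn_top' K) (n Z) (n ⊥) hZ1.bot_lt hZK, h2⟩⟩
    · push Not at c
      exact ((h1 _).1 (top_SD₂ K Z ⊥ χ hχ)).2 fun z hz x => (IsIrr.mem_cfker (hirr χ hχ)).2 (c z hz) x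
    · exact top_SD₁ K Z ⊥ _ ((h1 _).2 ⟨IsIrr.comp_equiv a Subgroup.topEquiv, fun c =>
        b (by simpa using cfker_apply (c (show (⟨z, trivial⟩ : (⊤ : Subgroup L)) ∈ Z.subgroupOf ⊤ from hz)))⟩)

end Cfsg.Agent.S1522
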