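import Cfsg.Statements.S1524
import Cfsg.Agent.PF.Brg

set_option autoImplicit false
open Cfsg

namespace Cfsg.Agent.S1524

/-- Let G be a finite group and H ≤ L subgroups with L of odd order, H ≠ ⊥ nilpotent and normal in L with a nontrivial complement W₁ in L (H ⊓ W₁ = ⊥, H ⊔ W₁ = L) acting on H without non-identity fixed points (L is a Frobenius group with kernel H), and suppose the underlying set of H is a TI-subset of G whose normaliser is L. Let S be the set of functions on L induced from the non-principal irreducible characters of H. Then (S, L minus 1, induction to G) is coherent. -/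
theorem result {G : Type*} [Group G] [Fintype G] (H L W₁ : Subgroup G) [Fintype L] (hodd : Odd (Nat.card L)) (hHL : H ≤ L) (hW₁L : W₁ ≤ L) (hH1 : H ≠ ⊥) (hW1 : W₁ ≠ ⊥) (hnil : Group.IsNilpotent H) (hHn : ∀ x ∈ L, ∀ h ∈ H, x * h * x⁻¹ ∈ H) (hinf : H ⊓ W₁ = ⊥) (hsup : H ⊔ W₁ = L) (hfpf : ∀ w ∈ W₁, w ≠ 1 → ∀ h ∈ H, w * h = h * w → h = 1) (hTI : Cfsg.IsTISubset (H : Set G)) (hN : Subgroup.normalizer (H : Set G) = L) : Cfsg.IsCoherent (Cfsg.inducedIrrAbove (H.subgroupOf L) ⊥) {1}ᶜ (fun α : L → ℂ => Cfsg.indFun L α) := by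
  open CA.Chr in
  · skip
    have ti := hN ▸ normedTI_of_TI hH1 hTI
    have nH := NormedTI_sharp_normal ti
    haveI := normalSub nH.2
    have h := dadeInd_of_TI nH ti
    have fr : CA.FG.IsFrob L H W₁ := ⟨CA.FG.sdprod_mk (hW₁L.trans nH.2) hsup hinf, hH1, hW1, fun w hw w1 =>
      (Subgroup.eq_bot_iff_forall _).2 fun x hx =>
        hfpf w hw w1 x hx.1 (Subgroup.mem_centralizer_singleton_iff.1 hx.2).symm⟩
    obtain ⟨R, hS⟩ := irr_subcoh (h.isoOn.mono (SD_sub_ST _ H ⊥)) (IsFrob_irr fr) (SD_conj nH) (SD_conj_ne nH hodd)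
    rw [← coe_seqIndD, seqIndD_subgroupOf hHL, ← Subgroup.bot_subgroupOf]
    refine (hS.isCoherent (fun α hα => ?_) le_rfl hS.conj_mem).2 ⟨SD_nonempty nH nH.2 (CA.FG.norm_bot _)
      hH1.bot_lt le_rfl, Sibley_coherence_Frob h hodd hnil ti fr⟩
    rw [indFun_eq]
    exact h.dade_eq_ind ti (CS_mono (SD_sub_ST _ H ⊥) (CS_of_ZS hα.1)) (mem_zspanOn.1 hα).2

end Cfsg.Agent.S1524
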