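import Cfsg.Statements.S1526
import Cfsg.Agent.PF.Brg
import Cfsg.Agent.FT

set_option autoImplicit false
open Cfsg

namespace Cfsg.Agent.S1526

/-- Let G be a finite group of odd order and (L i, H i), i in a finite index type with at least two elements, pairs of subgroups with H i a nontrivial proper normal subgroup of L i such that every non-identity element of H i has its centraliser within L i contained in H i (L i is a Frobenius group with kernel H i), the orders of the H i pairwise coprime, and the underlying set of each H i a TI-subset of G with normaliser L i. If every non-identity element of G is conjugate to an element of some H i, we reach a contradiction. -/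
theorem result {G : Type*} [Group G] [Finite G] (hodd : Odd (Nat.card G)) {ι : Type*} [Fintype ι] (hι : 2 ≤ Fintype.card ι) (L H : ι → Subgroup G) (hHL : ∀ i, H i < L i) (hH1 : ∀ i, H i ≠ ⊥) (hHn : ∀ i, ∀ x ∈ L i, ∀ h ∈ H i, x * h * x⁻¹ ∈ H i) (hfrob : ∀ i, ∀ h ∈ H i, h ≠ 1 → L i ⊓ Subgroup.centralizer ({h} : Set G) ≤ H i) (hcop : ∀ i j, i ≠ j → Nat.Coprime (Nat.card (H i)) (Nat.card (H j))) (hTI : ∀ i, Cfsg.IsTISubset (H i : Set G) ∧ Subgroup.normalizer (H i : Set G) = L i) (hcover : ∀ g : G, g ≠ 1 → ∃ i, ∃ x : G, x * g * x⁻¹ ∈ H i) : False := by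
  open CA.Chr in
  · skip
    have ti := fun i => (hTI i).2 ▸ normedTI_of_TI (hH1 i) (hTI i).1
    haveI := CA.FT.odd_solvable G hodd
    have fr : ∀ i, ∃ E, CA.FG.IsFrob (L i) (H i) E := fun i => by
      have nH := NormedTI_sharp_normal (ti i)
      have c := coprime_of_frob_mod nH (CA.FG.norm_bot _) bot_le fun k hk k1 x hx e => hfrob i k hk k1
        ⟨hx, Subgroup.mem_centralizer_singleton_iff.2 (by rwa [Subgroup.mem_bot, mul_inv_eq_one,
          mul_inv_eq_iff_eq_mul] at e)⟩
      rw [Subgroup.relIndex_bot_left] at c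
      obtain ⟨E, hE⟩ := CA.FG.exists_complIn_of_coprime nH c.symm
      refine ⟨E, hE, hH1 i, fun e => (hHL i).ne (by rw [← hE.sup_eq, e, sup_bot_eq]), fun x hx x1 =>
        (Subgroup.eq_bot_iff_forall _).2 fun y hy => by_contra fun y1 => x1 ?_⟩
      exact (Subgroup.eq_bot_iff_forall _).1 hE.inf_eq x ⟨hfrob i y hy.1 y1
        ⟨hE.right_le hx, CA.FG.mem_cent_singleton_comm.1 hy.2⟩, hx⟩
    obtain ⟨g, g1, hg⟩ := coherent_Frobenius_partition hodd Finset.univ hι L H (fun i _ => inferInstance)
      (fun i _ => fr i) (fun i _ => ti i) fun i _ j _ => hcop i j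
    obtain ⟨i, x, hx⟩ := hcover g g1
    exact hg i (Finset.mem_univ i) ⟨_, ⟨hx, by simpa using g1⟩, x⁻¹, trivial, by group⟩

end Cfsg.Agent.S1526
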