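import Cfsg.Statements.S1527
import Cfsg.Agent.PF.Feit2

set_option autoImplicit false
open Cfsg

namespace Cfsg.Agent.S1527

/-- Let G be a finite group and H i (i in a finite index type) subgroups of pairwise coprime orders, each of whose underlying sets is a TI-subset of G, such that every non-identity element of G is conjugate to an element of some H i. Then Nat.card G − 1 = Σ_i [G : N_G(H i)] · (Nat.card (H i) − 1). -/
theorem result {G : Type*} [Group G] [Finite G] {ι : Type*} [Fintype ι] (H : ι → Subgroup G) (hcop : ∀ i j, i ≠ j → Nat.Coprime (Nat.card (H i)) (Nat.card (H j))) (hTI : ∀ i, Cfsg.IsTISubset (H i : Set G)) (hcover : ∀ g : G, g ≠ 1 → ∃ i, ∃ x : G, x * g * x⁻¹ ∈ H i) : Nat.card G - 1 = ∑ i, (Subgroup.normalizer (H i : Set G)).index * (Nat.card (H i) - 1) := by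
  open CA.Chr in
  · skip
    have e : {g : G | g ≠ 1} = ⋃ i, dsupp (CA.BG.sharp (H i)) fun _ => ⊥ := by
      ext g
      simp only [Set.mem_setOf_eq, Set.mem_iUnion, dsupp, Subgroup.mem_bot]
      refine ⟨fun h => ?_, fun ⟨i, a, ha, u, hu, x, e⟩ f => ha.2 (by simpa [f, hu] using e.symm)⟩
      obtain ⟨i, x, hx⟩ := hcover g h
      exact ⟨i, _, ⟨hx, by simpa using h⟩, 1, rfl, x, (mul_one _).symm⟩
    have c : {g : G | g ≠ 1}.ncard = Nat.card G - 1 := by
      rw [← Subgroup.card_top, ← ncard_sharp]; congr 1; ext; simp [mem_sharp]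
    rw [← c, e, Set.ncard_iUnion_of_finite (fun _ => Set.toFinite _), finsum_eq_sum_of_fintype]
    · refine Finset.sum_congr rfl fun i _ => ?_
      by_cases h : H i = ⊥
      · simp [h, dsupp, mem_sharp]
      have ti := normedTI_of_TI h (hTI i)
      rw [Dade.ncard_dsupp (normedTI_Dade ti fun a ha => ⟨Subgroup.le_normalizer ha.1, ha.2⟩), ncard_sharp,
        mul_comm]
    · intro i j hij
      refine Set.disjoint_left.2 fun g ⟨a, ha, u, hu, x, e⟩ ⟨b, hb, v, hv, y, e'⟩ => ha.2 ?_
      rw [Subgroup.mem_bot.1 hu, mul_one] at e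
      rw [Subgroup.mem_bot.1 hv, mul_one] at e'
      refine orderOf_eq_one_iff.1 (Nat.eq_one_of_dvd_coprimes (hcop i j hij)
        (CA.FG.orderOf_dvd_card_of_mem ha.1) ?_)
      rw [← e, CA.FG.orderOf_conj, ← CA.FG.orderOf_conj g y, e']
      exact CA.FG.orderOf_dvd_card_of_mem hb.1

end Cfsg.Agent.S1527
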