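import Cfsg.Statements.S1529
import Cfsg.Agent.PF.Feit2

set_option autoImplicit false
open Cfsg

namespace Cfsg.Agent.S1529

/-- Let N be a subgroup of the finite group G, S a set of irreducible characters of N with at least two members, and τ₁ a linear isometry on the integer combinations of S with virtual-character values such that τ₁ α vanishes at 1 whenever α ∈ ℤ[S] does. Then there is ε ∈ {1, −1} such that ε • τ₁ χ is an irreducible character of G for every χ ∈ S, and distinct members of S give distinct characters. -/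
theorem result {G : Type*} [Group G] [Fintype G] (N : Subgroup G) [Fintype N] (S : Set (N → ℂ)) (hirr : ∀ χ ∈ S, Cfsg.IsIrrCharacter N χ) (htwo : ∃ χ ∈ S, ∃ ψ ∈ S, χ ≠ ψ) (τ₁ : (N → ℂ) → (G → ℂ)) (hτ₁ : Cfsg.IsLinearIsometryOn (Cfsg.zspan S) τ₁) (h0 : ∀ α ∈ Cfsg.zspan S, α 1 = 0 → τ₁ α 1 = 0) : ∃ ε : ℂ, (ε = 1 ∨ ε = -1) ∧ (∀ χ ∈ S, Cfsg.IsIrrCharacter G (ε • τ₁ χ)) ∧ (∀ χ ∈ S, ∀ ψ ∈ S, τ₁ χ = τ₁ ψ → χ = ψ) := by
  open CA.Chr in
  · skip
    have m : ∀ χ ∈ S, χ ∈ zspan S := fun χ hχ => Submodule.subset_span hχ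
    have iso : ∀ χ ∈ S, ∀ ψ ∈ S, dot (τ₁ χ) (τ₁ ψ) = dot χ ψ := fun χ hχ ψ hψ => by
      simpa only [classInner_eq] using hτ₁.2.2.1 χ (m χ hχ) ψ (m ψ hψ)
    have d : ∀ χ ∈ S, Dirr (τ₁ χ) := fun χ hχ => ZIrr.dirr_of_dot_self (hτ₁.2.2.2 χ (m χ hχ))
      (by rw [iso χ hχ χ hχ, IsIrr.dot_self (hirr χ hχ)])
    obtain ⟨ν, hν⟩ := exists_lin_of_isometry hτ₁
    obtain ⟨ε, hε, h⟩ := exists_sign_of_one (P := (· ∈ S)) deg (fun φ hφ => IsChar.deg_pos
      (IsIrr.isChar (hirr φ hφ)) (IsIrr.ne_zero (hirr φ hφ))) τ₁ d fun φ ψ hφ hψ => by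
        have m' : deg ψ • φ - deg φ • ψ ∈ zspan S :=
          sub_mem (nsmul_mem (Submodule.subset_span hφ) _) (nsmul_mem (Submodule.subset_span hψ) _)
        have := h0 _ m' (by simp [IsChar.coe_deg (IsIrr.isChar (hirr φ hφ)),
          IsChar.coe_deg (IsIrr.isChar (hirr ψ hψ)), mul_comm])
        rw [← hν _ m', map_sub, map_nsmul, map_nsmul, hν _ (m φ hφ), hν _ (m ψ hψ)] at this
        simpa [sub_eq_zero] using this
    refine ⟨ε, by rcases hε with rfl | rfl <;> simp, h, fun χ hχ ψ hψ e => ?_⟩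
    refine IsIrr.eq_of_dot_ne_zero (hirr χ hχ) (hirr ψ hψ) ?_
    rw [← iso χ hχ ψ hψ, e, (d ψ hψ).dot_self]
    exact one_ne_zero

end Cfsg.Agent.S1529
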