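import Cfsg.Statements.S1530
import Cfsg.Agent.PF.Feit2

set_option autoImplicit false
open Cfsg

namespace Cfsg.Agent.S1530

/-- Let N be a subgroup of the finite group G and S₀ a finite set of irreducible characters of N, χ an irreducible character of N not in S₀, with degrees ξ 1 = d ξ. Let τ be a linear isometry on the integer combinations of S₀ ∪ {χ} vanishing at 1, with values virtual characters of G vanishing at 1, such that (S₀, N minus 1, τ) is coherent. If some ψ ∈ S₀ has d ψ dividing d χ and 2 · d ψ · d χ < Σ_{ξ ∈ S₀} (d ξ)², then (S₀ ∪ {χ}, N minus 1, τ) is coherent. -/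
theorem result {G : Type*} [Group G] [Fintype G] (N : Subgroup G) [Fintype N] (S₀ : Finset (N → ℂ)) (χ : N → ℂ) (hirr : ∀ ξ ∈ S₀, Cfsg.IsIrrCharacter N ξ) (hχ : Cfsg.IsIrrCharacter N χ) (hχS : χ ∉ S₀) (d : (N → ℂ) → ℕ) (hd : ∀ ξ ∈ insert χ S₀, ξ 1 = (d ξ : ℂ)) (τ : (N → ℂ) → (G → ℂ)) (hτ : Cfsg.IsLinearIsometryOn (Cfsg.zspanOn (↑(insert χ S₀) : Set (N → ℂ)) {1}ᶜ) τ) (hτ1 : ∀ α ∈ Cfsg.zspanOn (↑(insert χ S₀) : Set (N → ℂ)) {1}ᶜ, τ α 1 = 0) (hcoh : Cfsg.IsCoherent (↑S₀ : Set (N → ℂ)) {1}ᶜ τ) (ψ : N → ℂ) (hψ : ψ ∈ S₀) (hdvd : d ψ ∣ d χ) (hlt : 2 * d ψ * d χ < ∑ ξ ∈ S₀, d ξ ^ 2) : Cfsg.IsCoherent (↑(insert χ S₀) : Set (N → ℂ)) {1}ᶜ τ := by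
  open CA.Chr in
  · skip
    suffices ∀ S : Finset (N → ℂ), (∀ ξ, ξ ∈ S ↔ ξ = χ ∨ ξ ∈ S₀) → (∀ ξ ∈ S, ξ 1 = (d ξ : ℂ)) →
        IsLinearIsometryOn (zspanOn (S : Set (N → ℂ)) {1}ᶜ) τ →
        (∀ α ∈ zspanOn (S : Set (N → ℂ)) {1}ᶜ, τ α 1 = 0) → IsCoherent (S : Set (N → ℂ)) {1}ᶜ τ from
      this _ (by simp) hd hτ hτ1
    intro S mS hd hτ hτ1
    have irr : ∀ ξ ∈ S, IsIrrCharacter N ξ := fun ξ hξ => ((mS ξ).1 hξ).elim (· ▸ hχ) (hirr ξ)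
    obtain ⟨ν, hν⟩ := exists_lin_of_isometry hτ
    have s : S₀ ⊆ S := fun ξ hξ => (mS ξ).2 (Or.inr hξ)
    have m := (mS χ).2 (Or.inl rfl)
    have h := isoOn_of_isometry (deg_int_of_char fun ξ hξ => IsIrr.isChar (irr ξ hξ)) hτ hτ1 hν
    rw [isCoherent_of_irr hirr fun α hα => hν α (zspanOn_mono (Finset.coe_subset.2 s) hα)] at hcoh
    have e : ∀ φ ∈ S, d φ = deg φ := fun φ hφ => (deg_eq (hd φ hφ)).symm
    rw [e _ (s hψ), e _ m] at hdvd hlt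
    rw [Finset.sum_congr rfl fun φ hφ => by rw [e φ (s hφ)], mul_right_comm] at hlt
    refine (isCoherent_of_irr irr hν).2 ⟨hcoh.1.trans_le (Finset.card_le_card s), ?_⟩
    exact (h.extend_irr irr s hcoh.2 m hχS hψ hdvd (by exact_mod_cast hlt)).mono fun ξ hξ => by
      simpa using (mS ξ).1 hξ

end Cfsg.Agent.S1530
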