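import Cfsg.Statements.S1531
import Cfsg.Agent.PF.Feit2

set_option autoImplicit false
open Cfsg

namespace Cfsg.Agent.S1531

/-- Let N be a subgroup of the finite group G, S a set of irreducible characters of N, and α a linear isometry on the integer combinations of S vanishing at 1 with values virtual characters of G vanishing at 1. Let X, Y ⊆ S be disjoint, each with at least two members, and σ, τ linear isometries on ℤ[X], ℤ[Y] into virtual characters agreeing with α on the members vanishing at 1. Then ⟨σ χ, τ η⟩ = 0 for χ ∈ X, η ∈ Y; and if for some χ₀ ∈ X, η₀ ∈ Y with degrees c = χ₀ 1, e = η₀ 1 one has α (c • η₀ − e • χ₀) = c • τ η₀ − e • σ χ₀, then (X ∪ Y, N minus 1, α) is coherent. -/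
theorem result {G : Type*} [Group G] [Fintype G] (N : Subgroup G) [Fintype N] (S X Y : Set (N → ℂ)) (hirr : ∀ ξ ∈ S, Cfsg.IsIrrCharacter N ξ) (hXS : X ⊆ S) (hYS : Y ⊆ S) (hXY : Disjoint X Y) (hX2 : ∃ a ∈ X, ∃ b ∈ X, a ≠ b) (hY2 : ∃ a ∈ Y, ∃ b ∈ Y, a ≠ b) (α : (N → ℂ) → (G → ℂ)) (hα : Cfsg.IsLinearIsometryOn (Cfsg.zspanOn S {1}ᶜ) α) (hα1 : ∀ θ ∈ Cfsg.zspanOn S {1}ᶜ, α θ 1 = 0) (σ τ : (N → ℂ) → (G → ℂ)) (hσ : Cfsg.IsLinearIsometryOn (Cfsg.zspan X) σ) (hσα : ∀ θ ∈ Cfsg.zspanOn X {1}ᶜ, σ θ = α θ) (hτ : Cfsg.IsLinearIsometryOn (Cfsg.zspan Y) τ) (hτα : ∀ θ ∈ Cfsg.zspanOn Y {1}ᶜ, τ θ = α θ) : (∀ χ ∈ X, ∀ η ∈ Y, Cfsg.classInner (σ χ) (τ η) = 0) ∧ ((∃ χ₀ ∈ X, ∃ η₀ ∈ Y, α (χ₀ 1 • η₀ - η₀ 1 • χ₀) = χ₀ 1 • τ η₀ - η₀ 1 • σ χ₀) → Cfsg.IsCoherent (X ∪ Y) {1}ᶜ α) := by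
  open CA.Chr in
  · skip
    classical
    have f := (irr N).finite_toSet.subset fun χ hχ => mem_irr.2 (hirr χ hχ)
    lift X to Finset (N → ℂ) using f.subset hXS
    lift Y to Finset (N → ℂ) using f.subset hYS
    lift S to Finset (N → ℂ) using f
    obtain ⟨ν, hν⟩ := exists_lin_of_isometry hα
    have di := deg_int_of_char fun ξ hξ => IsIrr.isChar (hirr ξ hξ)
    have h := isoOn_of_isometry di hα hα1 hν
    obtain ⟨σ', h1, e1⟩ := cohWith_of_isometry (fun φ hφ => di φ (hXS hφ)) hσ (τ := ν)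
      fun θ hθ => (hσα θ hθ).trans (hν θ (zspanOn_mono hXS hθ)).symm
    obtain ⟨τ', h2, e2⟩ := cohWith_of_isometry (fun φ hφ => di φ (hYS hφ)) hτ (τ := ν)
      fun θ hθ => (hτα θ hθ).trans (hν θ (zspanOn_mono hYS hθ)).symm
    have X2 := Finset.one_lt_card.2 hX2
    have o := h.coh_orth_irr hirr hXS hYS (Finset.disjoint_coe.1 hXY) X2 (Finset.one_lt_card.2 hY2) h1 h2
    refine ⟨fun χ hχ η hη => by rw [classInner_eq, ← e1 χ (mem_ZS hχ), ← e2 η (mem_ZS hη), o χ hχ η hη],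
      fun ⟨χ, hχ, η, hη, e⟩ => ?_⟩
    have s : Y ∪ X ⊆ S := Finset.union_subset hYS hXS
    rw [Set.union_comm, ← Finset.coe_union, isCoherent_of_irr (fun φ hφ => hirr φ (s hφ))
      fun θ hθ => hν θ (zspanOn_mono (Finset.coe_subset.2 s) hθ)]
    obtain ⟨ν', h', -⟩ := bridge_coh (fun φ hφ => IsIrr.ne_zero (hirr φ (s hφ)))
      (fun φ hφ ψ hψ => IsIrr.dot_ne (hirr φ (s hφ)) (hirr ψ (s hψ))) (Finset.disjoint_coe.1 hXY).symm h2 h1
      (fun φ hφ ψ hψ => dot_comm_zero (o ψ hψ φ hφ)) (CS_smul (χ 1) (mem_CS hη)) (CS_smul (η 1) (mem_CS hχ))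
      (mul_comm _ _) (mul_ne_zero (IsIrr.deg_ne_zero (hirr χ (hXS hχ))) (IsIrr.deg_ne_zero (hirr η (hYS hη))))
      (by
        obtain ⟨a, ha⟩ := di χ (hXS hχ)
        obtain ⟨b, hb⟩ := di η (hYS hη)
        rw [hν _ (mem_zspanOn.2 ⟨sub_mem (ha ▸ ZS_intCast_smul a (mem_ZS (hYS hη)))
          (hb ▸ ZS_intCast_smul b (mem_ZS (hXS hχ))), by simp [mul_comm]⟩), e, map_smul, map_smul,
          e1 χ (mem_ZS hχ), e2 η (mem_ZS hη)])
    exact ⟨X2.trans_le (Finset.card_le_card Finset.subset_union_right), ν', by convert h'⟩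

end Cfsg.Agent.S1531
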