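import Cfsg.Statements.S1532
import Cfsg.Agent.PF.Feit2

set_option autoImplicit false
open Cfsg

namespace Cfsg.Agent.S1532

/-- Let G be a finite group, p an odd prime and P a Sylow p-subgroup that is non-abelian, whose underlying set is a TI-subset of G, with P properly contained in its set normaliser N and C_G(x) ≤ P for every non-identity x ∈ P. Let Z be a nontrivial subgroup of the centre of P normalised by N. Then the set of irreducible characters χ of N with χ z ≠ χ 1 for some z ∈ Z is coherent for the map induced by induction from N to G. -/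
theorem result {G : Type*} [Group G] [Fintype G] (p : ℕ) [Fact p.Prime] (hp : p ≠ 2) (P : Sylow p G) (hna : ¬ IsMulCommutative (P : Subgroup G)) (hTI : Cfsg.IsTISubset ((P : Subgroup G) : Set G)) (hlt : (P : Subgroup G) < Subgroup.normalizer ((P : Subgroup G) : Set G)) (hC : ∀ k ∈ (P : Subgroup G), k ≠ 1 → Subgroup.centralizer ({k} : Set G) ≤ (P : Subgroup G)) [Fintype ↥(Subgroup.normalizer ((P : Subgroup G) : Set G))] (Z : Subgroup G) (hZ1 : Z ≠ ⊥) (hZP : ∀ z ∈ Z, z ∈ (P : Subgroup G) ∧ ∀ y ∈ (P : Subgroup G), z * y = y * z) (hZn : ∀ x ∈ Subgroup.normalizer ((P : Subgroup G) : Set G), ∀ z ∈ Z, x * z * x⁻¹ ∈ Z) : Cfsg.IsCoherent {χ : ↥(Subgroup.normalizer ((P : Subgroup G) : Set G)) → ℂ | Cfsg.IsIrrCharacter ↥(Subgroup.normalizer ((P : Subgroup G) : Set G)) χ ∧ ∃ z : ↥(Subgroup.normalizer ((P : Subgroup G) : Set G)), (z : G) ∈ Z ∧ χ z ≠ χ 1} {1}ᶜ (fun α => Cfsg.indFun (Subgroup.normalizer ((P : Subgroup G) : Set G)) α) := by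
  open CA.Chr in
  · skip
    have pP : CA.FG.IsPGrp p (P : Subgroup G) := (CA.FG.sylow_top Fact.out P).pGrp
    generalize (P : Subgroup G) = K at *
    have hZ : Z ≤ K := fun z hz => (hZP z hz).1
    have hK1 : K ≠ ⊥ := fun e => hZ1 (le_bot_iff.1 (e ▸ hZ))
    have ti := normedTI_of_TI hK1 hTI
    have nK := NormedTI_sharp_normal ti
    have h := dadeInd_of_TI nK ti
    have hC' := fun k hk k1 => (inf_le_right (a := Subgroup.normalizer (K : Set G))).trans (hC k hk k1)
    obtain ⟨E, fr⟩ := exists_isFrob_of_cent nK hC' hK1 hlt.ne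
    obtain ⟨m, hm⟩ := (CA.FG.pGrp_iff_card Fact.out).1 pP
    have odd := fr.1.card_mul ▸ (hm ▸ ((Fact.out : p.Prime).odd_of_ne_two hp).pow).mul
      (Nat.not_even_iff_odd.1 fun f => hna (IsFrob_abelian_of_even fr f))
    obtain ⟨R, hS⟩ := irr_subcoh (h.isoOn.mono (SD_sub_ST _ K ⊥)) (IsFrob_irr fr) (SD_conj nK)
      (SD_conj_ne nK odd)
    have nil := pP.nil
    have nK' := CA.FG.norm_comm nK.2 nK.2
    have nZ := Subgroup.le_normalizer_iff.2 hZn
    obtain ⟨h1, h2⟩ := seqIndD_irr_coherence nK inferInstance hS odd nil (CA.FG.der_lt_of_sol inferInstance hK1)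
      hlt (frob_mod_of_cent_le fr.1 (IsFrob_coprime fr) nK' (CA.FG.comm_le_of_le le_rfl le_rfl)
        fun x hx x1 => by rw [fr.2.2.2 x hx x1]; exact bot_le) nZ hZ1
      (le_inf hZ fun z hz k hk => ((hZP z hz).2 k hk).symm) fun χ hχ => IsFrob_irr fr χ (SD_sub_all nK hZ hχ)
    convert (hS.isCoherent (fun α hα => ?_) (SD_sub_all nK hZ) (SD_conj nK)).2
      ⟨SD_nonempty nK nZ (CA.FG.norm_bot _) hZ1.bot_lt hZ, h2⟩
    · ext χ
      rw [Finset.mem_coe, h1]
      refine and_congr_right fun i => ?_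
      simp only [SetLike.not_le_iff_exists, IsIrr.mem_cfker i, Subgroup.mem_subgroupOf]
    · rw [indFun_eq]
      exact h.dade_eq_ind ti (CS_mono (SD_sub_ST _ K ⊥) (CS_of_ZS hα.1)) (mem_zspanOn.1 hα).2

end Cfsg.Agent.S1532
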