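import Cfsg.Statements.S1535
import Cfsg.Agent.PF.Feit2
import Cfsg.Agent.PF.Thm

set_option autoImplicit false
open Cfsg

namespace Cfsg.Agent.S1535

/-- Let N be a finite group with a proper nontrivial normal subgroup H such that every element commuting with a non-identity element of H lies in H (N is a Frobenius group with kernel H); let e be the index of H and suppose Nat.card H ≠ e + 1. Let S be the set of irreducible characters χ of N with χ h ≠ χ 1 for some h ∈ H, and τ a linear isometry on the integer combinations of S vanishing at 1, with values virtual characters of a finite group G vanishing at 1. Then (S, N minus 1, τ) is coherent, or there is a prime p with Nat.card H a power of p, H non-abelian and [H : [H,H]] ≤ 4e² + 1. -/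
theorem result {N : Type*} [Group N] [Fintype N] {G : Type*} [Group G] [Fintype G] (H : Subgroup N) [H.Normal] (hH1 : H ≠ ⊥) (hH2 : H ≠ ⊤) (hC : ∀ h ∈ H, h ≠ 1 → Subgroup.centralizer ({h} : Set N) ≤ H) (he : Nat.card H ≠ H.index + 1) (τ : (N → ℂ) → (G → ℂ)) (hτ : Cfsg.IsLinearIsometryOn (Cfsg.zspanOn {χ : N → ℂ | Cfsg.IsIrrCharacter N χ ∧ ∃ h ∈ H, χ h ≠ χ 1} {1}ᶜ) τ) (hτ1 : ∀ α ∈ Cfsg.zspanOn {χ : N → ℂ | Cfsg.IsIrrCharacter N χ ∧ ∃ h ∈ H, χ h ≠ χ 1} {1}ᶜ, τ α 1 = 0) : Cfsg.IsCoherent {χ : N → ℂ | Cfsg.IsIrrCharacter N χ ∧ ∃ h ∈ H, χ h ≠ χ 1} {1}ᶜ τ ∨ ∃ p : ℕ, p.Prime ∧ (∃ m : ℕ, Nat.card H = p ^ m) ∧ ¬ IsMulCommutative H ∧ (⁅H, H⁆.subgroupOf H).index ≤ 4 * H.index ^ 2 + 1 := by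
  open CA.Chr CA.FG in
  · skip
    have nK := normalIn_top' H
    have hC' : ∀ k ∈ H, k ≠ 1 → ⊤ ⊓ 𝒞[k] ≤ H := fun k hk k1 => inf_le_right.trans (hC k hk k1)
    obtain ⟨E, fr⟩ := exists_isFrob_of_cent nK hC' hH1 hH2
    have hnil : Group.IsNilpotent H := Frobenius_kernel_nil fr (by
      have c := coprime_of_frob_mod nK (norm_bot _) bot_le (frob_bot_of_cent hC')
      rw [Subgroup.relIndex_bot_left, fr.1.1.relIndex_left] at c
      exact c.symm)
    have m := mem_SD_of_cent nK hC'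
    have m' : ∀ χ : N → ℂ, χ ∈ seqIndD H.subtype H ⊥ ↔ IsIrrCharacter N χ ∧ ∃ h ∈ H, χ h ≠ χ 1 := fun χ =>
      ⟨fun hχ => by
        obtain ⟨a, k, hk, b⟩ := (m _).1 (top_SD₂ H H ⊥ χ hχ)
        exact ⟨(isIrr_comp_equiv_iff _).1 a, k, hk, b⟩,
      fun ⟨a, k, hk, b⟩ => top_SD₁ H H ⊥ _ ((m _).2 ⟨IsIrr.comp_equiv a Subgroup.topEquiv, ⟨k, trivial⟩, hk, b⟩)⟩
    have e : {χ : N → ℂ | IsIrrCharacter N χ ∧ ∃ h ∈ H, χ h ≠ χ 1} = seqIndD H.subtype H ⊥ :=
      Set.ext fun χ => (m' χ).symm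
    rw [e] at hτ hτ1 ⊢
    have irr : ∀ φ ∈ seqIndD H.subtype H ⊥, IsIrrCharacter N φ := fun φ hφ => ((m' φ).1 hφ).1
    obtain ⟨ν, hν⟩ := exists_lin_of_isometry hτ
    have h := isoOn_of_isometry (deg_int_of_char fun ξ hξ => IsIrr.isChar (irr ξ hξ)) hτ hτ1 hν
    rw [isCoherent_of_irr irr hν]
    have c : 1 < (seqIndD H.subtype H ⊥).card := by
      by_contra c
      refine he ?_
      have := (card_eq_of_SD_card nK hC' hnil hH1 hH2 (Finset.card_le_one.2 fun a ha b hb =>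
        Subgroup.topEquiv.symm.surjective.injective_comp_right (Finset.card_le_one.1 (not_lt.1 c) _
          (top_SD₁ H H ⊥ a ha) _ (top_SD₁ H H ⊥ b hb)))).2.1
      rwa [Subgroup.relIndex_top_right] at this
    refine or_iff_not_imp_left.2 fun nc => ?_
    obtain ⟨p, hp, pK, nab, hb⟩ := feit_coherence nK hC' (h.comp _ (top_SD₁ H H ⊥)) hnil hH2
      fun f => nc ⟨c, (top_coh H H ⊥ ν).1 f⟩
    rw [Subgroup.relIndex_top_right] at hb
    exact ⟨p, hp, (pGrp_iff_card hp).1 pK, nab, hb⟩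

end Cfsg.Agent.S1535
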