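import Cfsg.Statements.S1536
import Cfsg.Agent.PF.P12a

set_option autoImplicit false
open Cfsg

namespace Cfsg.Agent.S1536

/-- Let H be a normal subgroup of the finite group M whose order is coprime to its index. For x ∈ M: some non-principal irreducible character of H is unchanged under h ↦ θ(x h x⁻¹) if and only if some non-identity element of H commutes with x. -/
theorem result {M : Type*} [Group M] [Finite M] (H : Subgroup M) [hN : H.Normal] (hHall : Nat.Coprime (Nat.card H) H.index) (x : M) : (∃ θ : H → ℂ, Cfsg.IsIrrCharacter H θ ∧ θ ≠ (fun _ => 1) ∧ (fun h : H => θ ⟨x * h * x⁻¹, hN.conj_mem h h.2 x⟩) = θ) ↔ ∃ h ∈ H, h ≠ 1 ∧ x * h = h * x := by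
  open CA.Chr in
  · skip
    simp only [← comp_cj_subtype]
    refine ⟨fun ⟨θ, hθ, h1, h2⟩ => by_contra fun c => ?_, fun ⟨h, hh, h1, e⟩ => ?_⟩
    · push Not at c
      have o : orderOf x ∣ H.index := orderOf_dvd_of_pow_eq_one (by_contra fun f =>
        c _ (H.pow_index_mem x) f (by group))
      refine not_mem_inertia_of_no_fixed_class _ (fun y hy => by_contra fun y1 => ?_) hθ h1 h2
      obtain ⟨u, hu⟩ := isConj_iff.1 hy
      obtain ⟨z, hz, z1, hc⟩ := exists_cent_of_conj (H := H) (u := x) (by simp [Subgroup.normalizer_eq_top])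
        (hHall.symm.coprime_dvd_left o) y.2 (fun f => y1 (Subtype.ext f)) u.2 ((cj_eq_iff _).1 hu.symm).symm
      exact c z hz z1 (Subgroup.mem_centralizer_singleton_iff.1 hc)
    · refine exists_fixed_irr_of_fixed_class (cj H.subtype x) (g := ⟨h, hh⟩) (fun f => h1 (congrArg Subtype.val f)) ?_
      rw [(cj_eq_iff H.subtype (y := ⟨h, hh⟩)).2 (by simp [e])]

end Cfsg.Agent.S1536
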