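import Cfsg.Statements.S5348
import Cfsg.Agent.Fi.Blocks

set_option autoImplicit false
open Cfsg

namespace Cfsg.Agent.S5348

/-- Let D be a conjugation-invariant generating set of 3-transpositions of a finite group G and d a member of D. Let V be the set of members of D commuting with exactly the same members of D as d, and W the set of members w of D such that the members of D other than w commuting with w are precisely the members of D other than d commuting with d. Then V = {d} or W = {d}. -/
theorem result {G : Type*} [Group G] [Finite G] {D : Set G} (hD : Cfsg.IsThreeTranspositionGroup D) {d : G} (hd : d ∈ D) : {v : G | v ∈ D ∧ ∀ e ∈ D, Commute v e ↔ Commute d e} = {d} ∨ {w : G | w ∈ D ∧ {y : G | y ∈ D ∧ y ≠ d ∧ Commute d y} = {y : G | y ∈ D ∧ y ≠ w ∧ Commute w y}} = {d} := by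
  by_contra hcon
  rw [not_or] at hcon
  have h1 : ∃ v ∈ D, CA.Fi.VRel D v d ∧ v ≠ d := by
    by_contra hn
    push Not at hn
    exact hcon.1 (Set.eq_singleton_iff_unique_mem.mpr
      ⟨⟨hd, fun _ _ => Iff.rfl⟩, fun x hx => hn x hx.1 hx.2⟩)
  have h2 : ∃ w ∈ D, CA.Fi.WRel D w d ∧ w ≠ d := by
    by_contra hn
    push Not at hn
    exact hcon.2 (Set.eq_singleton_iff_unique_mem.mpr
      ⟨⟨hd, rfl⟩, fun x hx => hn x hx.1 hx.2⟩)
  obtain ⟨v, hv, h1, h1'⟩ := h1
  obtain ⟨w, hw, h2, h2'⟩ := h2
  exact (CA.Fi.vrel_or_wrel hv hw h1 h2).elim h1' h2'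

end Cfsg.Agent.S5348
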