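import Cfsg.Statements.S5349
import Cfsg.Agent.Fi.Blocks

set_option autoImplicit false
open Cfsg

namespace Cfsg.Agent.S5349

/-- Let D be a conjugacy class of 3-transpositions generating the finite group G, with at least two members, and d a member of D. Then the set of members of D commuting with exactly the same members of D as d coincides with the set of members of D lying in the coset of d modulo the largest normal 2-subgroup of G, and also with the orbit of d under conjugation by that normal 2-subgroup. -/
theorem result {G : Type*} [Group G] [Finite G] {D : Set G} (hD : Cfsg.IsThreeTranspositionClass D) (hD2 : ∃ a ∈ D, ∃ b ∈ D, a ≠ b) {d : G} (hd : d ∈ D) : {v : G | v ∈ D ∧ ∀ e ∈ D, Commute v e ↔ Commute d e} = {v : G | v ∈ D ∧ d⁻¹ * v ∈ Cfsg.pCore 2 G} ∧ {v : G | v ∈ D ∧ ∀ e ∈ D, Commute v e ↔ Commute d e} = {v : G | ∃ g ∈ Cfsg.pCore 2 G, v = g * d * g⁻¹} := by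
  have hc := CA.Fi.class_conjInv hD
  refine ⟨Set.ext fun v => and_congr_right fun hv => ?_, Set.ext fun v => ?_⟩
  · rw [CA.Fi.tt_inv hD.1 hd]
    exact CA.Fi.vrel_iff_pCore hD.1 hc hd hv
  · exact CA.Fi.vrel_iff_orbit hD.1 hc hd (CA.Fi.exists_not_commute hD hD2 hd)

end Cfsg.Agent.S5349
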