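import Cfsg.Statements.S5354
import Cfsg.Agent.Fi.Prim

set_option autoImplicit false
open Cfsg

namespace Cfsg.Agent.S5354

/-- Let D be a conjugation-invariant generating set of 3-transpositions of the finite group G on which G acts primitively by conjugation, and suppose two different members of D commute (width at least 2). Then G has a quasisimple normal subgroup L of index at most 2 with the generalized Fitting subgroup of G equal to L times the centre, the commuting graph of D is connected, and for d in D the subgroup generated by the members of D commuting with d is a maximal D-subgroup: it is proper, and every subgroup generated by members of D that contains it is either it or G. -/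
theorem result {G : Type*} [Group G] [Finite G] {D : Set G} (hD : Cfsg.IsThreeTranspositionGroup D) (hprim : Cfsg.IsPrimitiveUnderConj D) (hw : ∃ a ∈ D, ∃ b ∈ D, a ≠ b ∧ Commute a b) : (∃ L : Subgroup G, L.Normal ∧ Cfsg.IsQuasisimple L ∧ L.index ≤ 2 ∧ Cfsg.generalizedFittingSubgroup G = L ⊔ Subgroup.center G) ∧ (Cfsg.commutingGraph D).Connected ∧ ∀ d ∈ D, Subgroup.closure {y : G | y ∈ D ∧ Commute d y} ≠ ⊤ ∧ ∀ H : Subgroup G, Cfsg.IsDSubgroup D H → Subgroup.closure {y : G | y ∈ D ∧ Commute d y} ≤ H → H = Subgroup.closure {y : G | y ∈ D ∧ Commute d y} ∨ H = ⊤ := by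
  have hcl := CA.Fi.class_of_group hD hprim.1 (by obtain ⟨a, ha, -⟩ := hw; exact ⟨a, ha⟩)
  have h2 := CA.Fi.prim_two hcl hprim
  have h3 := CA.Fi.prim_three hcl hprim hw
  have hconn := CA.Fi.prim_connected hcl hprim hw
  obtain ⟨L, hL⟩ := CA.FG.Comp.exists_component_of_layer_ne_bot
    (CA.Fi.layer_ne_bot hcl hprim.2.1 h2 h3)
  exact ⟨⟨L, CA.Fi.component_normal hcl hL, hL.2, CA.Fi.index_le_two_of_connected hcl hL hconn,
    CA.Fi.Fstar_eq_component hcl hL h2 h3⟩, hconn, fun d hd =>
    ⟨CA.Fi.closure_perp_ne_top hcl hprim.2.1 hd,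
      fun H hH hle => CA.Fi.prim_maximal hcl hprim hw hd hH hle⟩⟩

end Cfsg.Agent.S5354
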