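import Cfsg.Statements.S5358
import Cfsg.Agent.EqAll

set_option autoImplicit false
open scoped MatrixGroups
open Cfsg

namespace Cfsg.Agent.S5358

/-- Let Q be a non-degenerate quadratic form on the n-dimensional coordinate space over the field with three elements and u, v vectors of the same non-zero norm Q(u) = Q(v) spanning different lines (v ≠ u and v ≠ −u). Then the reflection matrices of u and v commute if and only if u and v are orthogonal for the polar form of Q. -/
theorem result (n : ℕ) (Q : QuadraticForm (ZMod 3) (Fin n → ZMod 3)) (hQ : (QuadraticMap.polarBilin Q).Nondegenerate) (u v : Fin n → ZMod 3) (hu : Q u ≠ 0) (huv : Q u = Q v) (h1 : v ≠ u) (h2 : v ≠ -u) : Commute (Cfsg.reflectionMatrix (⇑Q) u) (Cfsg.reflectionMatrix (⇑Q) v) ↔ QuadraticMap.polar (⇑Q) u v = 0 := by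
  have hpol : ∀ a x : Fin n → ZMod 3, Cfsg.polarVec (⇑Q) a ⬝ᵥ x = QuadraticMap.polar (⇑Q) a x := by
    intro a x
    have : x = ∑ j, x j • (Pi.single j 1 : Fin n → ZMod 3) := by
      ext i; simp [Finset.sum_apply, Pi.single_apply]
    conv_rhs => rw [this]
    rw [← QuadraticMap.polarBilin_apply_apply, map_sum]
    simp only [map_smul, QuadraticMap.polarBilin_apply_apply, smul_eq_mul, dotProduct, Cfsg.polarVec]
    exact Finset.sum_congr rfl fun j _ => mul_comm _ _
  have hact : ∀ a x : Fin n → ZMod 3, (Cfsg.reflectionMatrix (⇑Q) a).mulVec x =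
      x - ((Q a)⁻¹ * QuadraticMap.polar (⇑Q) a x) • a := by
    intro a x
    rw [Cfsg.reflectionMatrix, Matrix.sub_mulVec, Matrix.one_mulVec, Matrix.smul_mulVec,
      Matrix.vecMulVec_mulVec, hpol]
    congr 1
    ext i; simp; ring
  have hv : Q v ≠ 0 := huv ▸ hu
  have hc : ∀ c : ZMod 3, c ≠ 0 → c * c = 1 := by decide
  have hc2 := hc _ hu
  have hc1 : (Q u)⁻¹ = Q u := inv_eq_of_mul_eq_one_right hc2
  have huu : QuadraticMap.polar (⇑Q) u u = 2 * Q u := by
    rw [QuadraticMap.polar_self, two_nsmul, two_mul]
  have hvv : QuadraticMap.polar (⇑Q) v v = 2 * Q u := by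
    rw [QuadraticMap.polar_self, two_nsmul, two_mul, huv]
  have hsub : ∀ (a x y : Fin n → ZMod 3) (c : ZMod 3), QuadraticMap.polar (⇑Q) a (x - c • y) =
      QuadraticMap.polar (⇑Q) a x - c * QuadraticMap.polar (⇑Q) a y := by
    intro a x y c
    rw [QuadraticMap.polar_sub_right, QuadraticMap.polar_smul_right, smul_eq_mul]
  constructor
  · intro h
    by_contra hf
    have := congrArg (fun M => Matrix.mulVec M u) h.eq
    simp only [← Matrix.mulVec_mulVec, hact, hsub, ← huv, hc1, huu, QuadraticMap.polar_comm (⇑Q) v u] at this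
    set f := QuadraticMap.polar (⇑Q) u v
    set q := Q u
    have hi : ∀ i, v i = (q * f) * 2 * u i := by
      intro i
      have h3 := congrFun this i
      simp only [Pi.sub_apply, Pi.smul_apply, smul_eq_mul] at h3
      revert h3 hf hc2
      generalize u i = a
      generalize v i = b
      generalize f = f
      generalize q = q
      revert a b f q
      decide
    have : q * f * 2 = 1 ∨ q * f * 2 = -1 := by
      revert hf hc2
      generalize f = f
      generalize q = q
      revert f q
      decide
    rcases this with h | h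
    · exact h1 (funext fun i => by rw [hi, h, one_mul])
    · exact h2 (funext fun i => by rw [hi, h]; simp)
  · intro h
    rw [Commute, SemiconjBy, Matrix.ext_iff_mulVec]
    intro x
    simp only [← Matrix.mulVec_mulVec, hact, hsub, h, QuadraticMap.polar_comm (⇑Q) v u, mul_zero, sub_zero]
    abel

end Cfsg.Agent.S5358
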