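import Cfsg.Statements.S5362
import Cfsg.Agent.Th.TriL

set_option autoImplicit false
open scoped MatrixGroups
open Cfsg

namespace Cfsg.Agent.S5362

open CA.Th CA.QP

/-- Let D be a conjugacy class of 3-transpositions generating the finite group G, with trivial centre and trivial largest normal 2- and 3-subgroups, and suppose the commuting graph of D is not connected. Let F be the generalized Fitting subgroup of G. Then G/F is isomorphic to the symmetric group of degree 3, and F is isomorphic either to the commutator subgroup of the isometry group of the hyperbolic quadratic form in dimension 8 over the field with two elements, or to the commutator subgroup of the isometry group of the hyperbolic quadratic form in dimension 8 over the field with three elements modulo its centre. -/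
theorem result {G : Type*} [Group G] [Finite G] {D : Set G} (hD : Cfsg.IsThreeTranspositionClass D) (hZ : Subgroup.center G = ⊥) (h2 : Cfsg.pCore 2 G = ⊥) (h3 : Cfsg.pCore 3 G = ⊥) (hdisc : ¬ (Cfsg.commutingGraph D).Connected) (F : Subgroup G) [F.Normal] (hF : F = Cfsg.generalizedFittingSubgroup G) : Nonempty (G ⧸ F ≃* Equiv.Perm (Fin 3)) ∧ (Nonempty (F ≃* Cfsg.Omega (ZMod 2) (Cfsg.quadFormPlus 4 (ZMod 2))) ∨ Nonempty (F ≃* Cfsg.POmega (ZMod 3) (Cfsg.quadFormPlus 4 (ZMod 3)))) := by
  obtain ⟨L, hN, h1, hL, hC, h, d, hd, a, ha, n⟩ := exists_TS hD hZ h2 h3 hdisc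
  obtain rfl : F = L := hF.trans h1
  refine ⟨h.quot hD.2.2 (QuotientGroup.mk'_surjective F) hd ha n, ?_⟩
  have k := h.ker a ha
  rw [QuotientGroup.ker_mk'] at k
  have e : (commutator (Subgroup.closure (Cs D (QuotientGroup.mk' F) a))).map (Subgroup.subtype _) = F := by
    rw [Subgroup.map_subtype_commutator]
    refine le_antisymm (le_trans ?_ (QuotientGroup.ker_mk' F).le) (hL.ge.trans (Subgroup.commutator_mono k k))
    rw [← Subgroup.map_eq_bot_iff, Subgroup.map_commutator, Subgroup.commutator_eq_bot_iff_le_centralizer]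
    have : (Subgroup.closure (Cs D (QuotientGroup.mk' F) a)).map (QuotientGroup.mk' F) ≤
        Subgroup.zpowers (QuotientGroup.mk' F a) := by
      rw [Subgroup.map_le_iff_le_comap, Subgroup.closure_le]
      exact fun x hx => ⟨1, (zpow_one _).trans hx.2.symm⟩
    intro x hx y hy
    obtain ⟨i, rfl⟩ := this hx
    obtain ⟨j, rfl⟩ := this hy
    exact (Commute.zpow_zpow_self _ j i).eq
  have f := (Subgroup.equivMapOfInjective _ _ (Subgroup.subtype_injective _)).trans (MulEquiv.subgroupCongr e)
  refine ((h.tp hd ha n).main (fun hf => n (hf.all hD.1 (CA.Fi.class_conjInv hD) (fun _ h => h.1)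
    (fun x hx y hy c => ⟨hy, h.cm x hx.1 y hy c ▸ hx.2⟩) hd).2) ?_).imp (fun ⟨g⟩ => ⟨f.symm.trans g⟩)
    fun ⟨g⟩ => ⟨f.symm.trans g⟩
  exact eq_bot_iff.2 fun x hx => Subtype.ext (hC x fun l hl =>
    (congrArg Subtype.val (Subgroup.mem_center_iff.1 hx ⟨l, k hl⟩)).symm)

end Cfsg.Agent.S5362
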