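import Cfsg.Statements.S5363
import Cfsg.Agent.Fi.Basic

set_option autoImplicit false
open Cfsg

namespace Cfsg.Agent.S5363

open CA.Fi


/-- Let D be a conjugation-invariant set of involutions of a finite group G. Then every product of two members of D has odd order or order 2 if and only if, for every a in D and every b in D different from a and commuting with a, the members of D commuting with a b are exactly those commuting with both a and b. -/
theorem result {G : Type*} [Group G] [Finite G] {D : Set G} (hinv : ∀ d ∈ D, orderOf d = 2) (hconj : ∀ g : G, ∀ d ∈ D, g * d * g⁻¹ ∈ D) : (∀ a ∈ D, ∀ b ∈ D, Odd (orderOf (a * b)) ∨ orderOf (a * b) = 2) ↔ ∀ a ∈ D, ∀ b ∈ D, b ≠ a → Commute a b → {y : G | y ∈ D ∧ Commute (a * b) y} = {y : G | y ∈ D ∧ Commute a y} ∩ {y : G | y ∈ D ∧ Commute b y} := by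
  have sq : ∀ d ∈ D, d * d = 1 := fun d hd => mul_self_of_orderOf_two (hinv d hd)
  have iv : ∀ d ∈ D, d⁻¹ = d := fun d hd => inv_of_orderOf_two (hinv d hd)
  constructor
  · intro h a ha b hb hba hab
    ext y
    refine ⟨fun hy => ?_, fun hy => ⟨hy.1.1, hy.1.2.mul_left hy.2.2⟩⟩
    obtain ⟨hy, hz⟩ := hy
    have hza : Commute (a * b) a := (Commute.refl a).mul_left hab.symm
    have hc : Commute (y * a) (a * b) := hz.symm.mul_left hza.symm
    have hz2 : (a * b) ^ 2 = 1 := sq_eq_one_of_commute (sq a ha) (sq b hb) hab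
    have e : y * b = (y * a) * (a * b) := by rw [mul_assoc, ← mul_assoc a, sq a ha, one_mul]
    have key : Commute a y := by
      rcases h y hy a ha with h1 | h1
      swap
      · exact (commute_of_sq_eq_one (sq y hy) (sq a ha) (by rw [← h1, pow_orderOf_eq_one])).symm
      rcases h y hy b hb with h2 | h2
      · exfalso
        have h3 : (y * b) ^ (orderOf (y * b) * orderOf (y * a)) = 1 := by
          rw [pow_mul, pow_orderOf_eq_one, one_pow]
        have h4 : (y * a) ^ (orderOf (y * b) * orderOf (y * a)) = 1 := by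
          rw [mul_comm, pow_mul, pow_orderOf_eq_one, one_pow]
        have h5 : (a * b) ^ (orderOf (y * b) * orderOf (y * a)) = 1 := by
          have := hc.mul_pow (orderOf (y * b) * orderOf (y * a))
          rwa [← e, h3, h4, one_mul, eq_comm] at this
        have h6 := eq_one_of_pow_coprime hz2 h5 ((Nat.coprime_two_left).mpr (h2.mul h1))
        exact hba (by rw [← iv a ha]; exact eq_inv_of_mul_eq_one_right h6)
      · have h3 : (y * b) ^ 2 = 1 := by rw [← h2, pow_orderOf_eq_one]
        rw [e, hc.mul_pow, hz2, mul_one] at h3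
        exact (commute_of_sq_eq_one (sq y hy) (sq a ha) h3).symm
    refine ⟨⟨hy, key⟩, hy, ?_⟩
    have := key.mul_left hz
    rwa [← mul_assoc, sq a ha, one_mul] at this
  · intro h a ha b hb
    by_contra hn
    rw [not_or, Nat.not_odd_iff_even] at hn
    obtain ⟨⟨m, hm⟩, hn2⟩ := hn
    have hpos := orderOf_pos (a * b)
    have hinvab : a * (a * b) * a⁻¹ = (a * b)⁻¹ := by
      rw [← mul_assoc, sq a ha, one_mul, mul_inv_rev, iv b hb]
    have hsw : ∀ k : ℕ, a * ((a * b) ^ k)⁻¹ = (a * b) ^ k * a := by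
      intro k
      have : a * ((a * b) ^ k)⁻¹ * a⁻¹ = (a * b) ^ k := by
        rw [← inv_pow, ← conj_pow, ← conj_inv, hinvab, inv_inv]
      exact mul_inv_eq_iff_eq_mul.mp this
    obtain ⟨c, hc, hac⟩ : ∃ c ∈ D, a * c = (a * b) ^ m := by
      rcases Nat.even_or_odd' m with ⟨k, rfl | rfl⟩
      · refine ⟨_, hconj ((a * b) ^ k)⁻¹ a ha, ?_⟩
        rw [inv_inv, ← mul_assoc, ← mul_assoc, hsw, mul_assoc _ a a, sq a ha, mul_one, ← pow_add,
          two_mul]
      · refine ⟨_, hconj ((a * b) ^ k)⁻¹ b hb, ?_⟩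
        rw [inv_inv, ← mul_assoc, ← mul_assoc, hsw, mul_assoc _ a b, ← pow_succ, ← pow_add]
        congr 1; ring
    have h1 : (a * c) ^ 2 = 1 := by rw [hac, ← pow_mul, mul_two, ← hm, pow_orderOf_eq_one]
    have h2 : c ≠ a := by
      rintro rfl
      rw [sq c ha] at hac
      have := Nat.le_of_dvd (by omega) (orderOf_dvd_of_pow_eq_one hac.symm)
      omega
    have h3 := commute_of_sq_eq_one (sq a ha) (sq c hc) h1
    have h4 : Commute (a * c) b := by
      have h5 : Commute (a * c) (a * b) := by rw [hac]; exact (Commute.refl _).pow_left m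
      have h6 : Commute (a * c) a := (Commute.refl a).mul_left h3.symm
      have := h6.mul_right h5
      rwa [← mul_assoc a a, sq a ha, one_mul] at this
    have h5 : b ∈ {y : G | y ∈ D ∧ Commute (a * c) y} := ⟨hb, h4⟩
    rw [h a ha c hc h2 h3] at h5
    have h6 := orderOf_dvd_of_pow_eq_one (sq_eq_one_of_commute (sq a ha) (sq b hb) h5.1.2)
    have := Nat.le_of_dvd (by norm_num) h6
    omega

end Cfsg.Agent.S5363
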