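import Cfsg.Statements.S5365
import Cfsg.Agent.Fi.Blocks
import Cfsg.Agent.Fi.WordsS5

set_option autoImplicit false
open Cfsg

namespace Cfsg.Agent.S5365

open CA.Fi CA.FG.Comp Subgroup

section
variable {G : Type*} [Group G] {D : Set G}

/-- `y` is a neighbour of `d` in the commuting graph. -/
abbrev Nb (D : Set G) (d y : G) : Prop := y ∈ D ∧ y ≠ d ∧ Commute d y

theorem Nb.symm {d y : G} (hd : d ∈ D) (h : Nb D d y) : Nb D y d := ⟨hd, h.2.1.symm, h.2.2.symm⟩

theorem Nb.cj (hc : ConjInv D) {d y : G} (g : G) (h : Nb D d y) : Nb D (cj g d) (cj g y) :=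
  ⟨hc.cj g h.1, fun e => h.2.1 (cj_inj e), commute_cj.2 h.2.2⟩

theorem Nb.third (hc : ConjInv D) {d a b : G} (ha : Nb D d a) (hb : Nb D d b) : Nb D d (CA.Fi.cj a b) := by
  have := hb.cj hc a
  rwa [cj_eq_iff.2 ha.2.2.symm] at this

theorem loc1 {d : G} (h : Nonempty (closure {y | Nb D d y} ≃* Equiv.Perm (Fin 3))) :
    ∃ a b, Nb D d a ∧ Nb D d b ∧ a ≠ b := by
  by_contra hn
  push Not at hn
  obtain ⟨e⟩ := h
  have : IsMulCommutative (closure {y | Nb D d y}) :=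
    isMulCommutative_closure fun a ha b hb => by rw [hn a b ha hb]
  have h2 := congrArg e (mul_comm' (e.symm (Equiv.swap 0 1)) (e.symm (Equiv.swap 1 2)))
  simp only [map_mul, MulEquiv.apply_symm_apply] at h2
  exact absurd h2 (by decide)

set_option synthInstance.maxSize 2000 in
theorem loc2 (hD : IsThreeTranspositionSet D) {d : G}
    (h : Nonempty (closure {y | Nb D d y} ≃* Equiv.Perm (Fin 3))) {a b : G} (ha : Nb D d a)
    (hb : Nb D d b) (hab : a ≠ b) :
    ¬ Commute a b ∧ ∀ y, Nb D d y → y = a ∨ y = b ∨ y = cj a b := by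
  obtain ⟨e⟩ := h
  have k : ∀ a b : Equiv.Perm (Fin 3), a * a = 1 ∧ a ≠ 1 → b * b = 1 ∧ b ≠ 1 → a ≠ b → a * b ≠ b * a ∧
      ∀ y : Equiv.Perm (Fin 3), y * y = 1 ∧ y ≠ 1 → y = a ∨ y = b ∨ y = a * b * a⁻¹ := by decide +kernel
  have m : ∀ y (hy : Nb D d y), e ⟨y, subset_closure hy⟩ * e ⟨y, subset_closure hy⟩ = 1 ∧
      e ⟨y, subset_closure hy⟩ ≠ 1 := fun y hy =>
    ⟨by rw [← map_mul, ← map_one e]; exact congrArg e (Subtype.ext (tt_sq hD hy.1)),
      fun h => tt_ne_one hD hy.1 (congrArg Subtype.val (e.map_eq_one_iff.1 h))⟩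
  obtain ⟨k1, k2⟩ := k _ _ (m a ha) (m b hb) (fun h => hab (congrArg Subtype.val (e.injective h)))
  refine ⟨fun h => k1 ?_, fun y hy => ?_⟩
  · rw [← map_mul, ← map_mul]; exact congrArg e (Subtype.ext h)
  · rcases k2 _ (m y hy) with h | h | h
    · exact Or.inl (congrArg Subtype.val (e.injective h))
    · exact Or.inr (Or.inl (congrArg Subtype.val (e.injective h)))
    · rw [← map_inv, ← map_mul, ← map_mul] at h
      exact Or.inr (Or.inr (congrArg Subtype.val (e.injective h)))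

theorem iso_of_range {H : Type*} [Group H] (φ : H →* G) (hφ : Function.Injective φ)
    (h1 : D ⊆ φ.range) {S : Set H} (hS : closure S = ⊤) (h2 : φ '' S ⊆ D) : Nonempty (closure D ≃* H) := by
  have : φ.range = closure D := by
    refine le_antisymm ?_ ((closure_le _).2 h1)
    rw [MonoidHom.range_eq_map, ← hS, MonoidHom.map_closure]
    exact closure_mono h2
  exact ⟨((MonoidHom.ofInjective hφ).trans (MulEquiv.subgroupCongr this)).symm⟩

theorem cen_three [Finite G] {d t : G} (h : Nat.card (pCore 3 (centralizer ({d} : Set G))) = 3)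
    (ht : t ∈ pCore 3 G) (htd : Commute t d) (ht1 : t ≠ 1) {g : G} (hg : g ∈ pCore 3 G) (hgd : Commute g d) :
    g ∈ zpowers t := by
  have hle : pCore 3 G ⊓ centralizer {d} ≤ Op 3 (centralizer {d}) :=
    le_Op inf_le_right (le_trans (by rw [normalizer_eq_top, top_inf_eq]; exact le_normalizer)
      inf_normalizer_le_normalizer_inf) ((pCore_isPGroup 3 G).to_inf_left)
  have hm : ∀ x ∈ pCore 3 G, Commute x d → x ∈ Op 3 (centralizer {d}) := fun x hx hxd =>
    hle ⟨hx, mem_centralizer_singleton_iff.2 hxd⟩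
  have hc : Nat.card (Op 3 (centralizer ({d} : Set G))) = 3 := by
    rw [card_map_of_injective (subtype_injective _), h]
  have h1 : zpowers t ≤ Op 3 (centralizer {d}) := zpowers_le.2 (hm t ht htd)
  have h2 := card_dvd_of_le h1
  rw [hc] at h2
  rcases (Nat.dvd_prime Nat.prime_three).1 h2 with h3 | h3
  · exact absurd (zpowers_eq_bot.1 (card_eq_one.1 h3)) ht1
  · rw [eq_of_le_of_card_ge h1 (by rw [hc, h3])]
    exact hm g hg hgd

theorem caseA [Finite G] (hD : IsThreeTranspositionSet D) (hc : ConjInv D)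
    (hloc : ∀ d ∈ D, Nonempty (closure {y | Nb D d y} ≃* Equiv.Perm (Fin 3)) ∧
      Nat.card (pCore 3 (centralizer ({d} : Set G))) = 3) {d e a b : G} (hd : d ∈ D) (he : e ∈ D)
    (hde : d ≠ e) (hab : a ≠ b) (da : Nb D d a) (db : Nb D d b) (ea : Nb D e a) (eb : Nb D e b) :
    Nonempty (closure D ≃* Equiv.Perm (Fin 3) × Equiv.Perm (Fin 3)) := by
  have ha := da.1
  have hb := db.1
  obtain ⟨nab, Nd⟩ := loc2 hD (hloc d hd).1 da db hab
  obtain ⟨-, Ne⟩ := loc2 hD (hloc e he).1 ea eb hab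
  obtain ⟨nde, Na⟩ := loc2 hD (hloc a ha).1 (da.symm hd) (ea.symm he) hde
  obtain ⟨-, Nb'⟩ := loc2 hD (hloc b hb).1 (db.symm hd) (eb.symm he) hde
  have q1 : a * b ∈ pCore 3 G := (wrel_iff_pCore hD hc ha hb).1 (wrel_iff.2 fun y hy => by
    constructor
    · intro h
      rcases Na y ⟨hy, h⟩ with rfl | rfl | rfl
      exacts [(db.symm hd).2, (eb.symm he).2, ((db.symm hd).third hc (eb.symm he)).2]
    · intro h
      rcases Nb' y ⟨hy, h⟩ with rfl | rfl | rfl
      exacts [(da.symm hd).2, (ea.symm he).2, ((da.symm hd).third hc (ea.symm he)).2])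
  have q2 : e * d ∈ pCore 3 G := (wrel_iff_pCore hD hc he hd).1 (wrel_iff.2 fun y hy => by
    constructor
    · intro h
      rcases Ne y ⟨hy, h⟩ with rfl | rfl | rfl
      exacts [da.2, db.2, (da.third hc db).2]
    · intro h
      rcases Nd y ⟨hy, h⟩ with rfl | rfl | rfl
      exacts [ea.2, eb.2, (ea.third hc eb).2])
  have hab1 : a * b ≠ 1 := fun h => hab (tt_eq_of_mul_eq_one hD ha h)
  have c1 : Commute (a * b) d := (da.2.2.mul_right db.2.2).symm
  have c2 : Commute (a * b) (e * d) := (ea.2.2.mul_right eb.2.2).symm.mul_right c1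
  have i1 : cj (a * d) (a * b) = (a * b)⁻¹ := by
    rw [cj_mul, cj_eq_iff.2 c1.symm, tt_cj_eq hD ha, tt_sq' hD ha, mul_inv_rev, tt_inv hD ha, tt_inv hD hb]
  have i2 : cj (a * d) (e * d) = (e * d)⁻¹ := by
    rw [da.2.2.symm.eq, cj_mul, cj_eq_iff.2 (ea.2.2.symm.mul_right da.2.2.symm), tt_cj_eq hD hd, mul_assoc,
      mul_assoc, tt_sq hD hd, mul_one, mul_inv_rev, tt_inv hD hd, tt_inv hD he]
  have inv : ∀ g ∈ pCore 3 G, cj (a * d) g = g⁻¹ := by
    intro g hg
    obtain ⟨hw, hw'⟩ := (wrel_iff_orbit hD hc hd).2 ⟨g, hg, rfl⟩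
    have h1 : Nb D a (cj g d) := Nb.symm hw ⟨ha, (wrel_iff.1 hw' a ha).1 da.2⟩
    obtain ⟨s, hs, h2⟩ : ∃ s ∈ zpowers (e * d), cj g d = cj s d := by
      rcases Na _ h1 with h | h | h
      · exact ⟨1, one_mem _, by rw [h, cj_one]⟩
      · refine ⟨(e * d)⁻¹, inv_mem (mem_zpowers _), ?_⟩
        rw [h, mul_inv_rev, tt_inv hD hd, tt_inv hD he, cj_mul, ← tt_cj_comm hD hd he nde, tt_cj_cj hD hd]
      · exact ⟨e * d, mem_zpowers _, by rw [h, cj_mul, cj_self, tt_cj_comm hD hd he nde]⟩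
    have h3 : Commute (s⁻¹ * g) d := by rw [← cj_eq_iff, cj_mul, h2, cj_inv_cj]
    have h4 := cen_three (hloc d hd).2 q1 c1 hab1 (mul_mem (inv_mem (zpowers_le.2 q2 hs)) hg) h3
    obtain ⟨j, rfl⟩ := hs
    obtain ⟨i, hi⟩ := h4
    have h5 : g = (e * d) ^ j * (a * b) ^ i := by
      simp only at hi; rw [hi, mul_inv_cancel_left]
    have h6 : ∀ (x : G) (n : ℤ), cj (a * d) (x ^ n) = (cj (a * d) x) ^ n := fun x n => by
      simp only [cj, conj_zpow]
    rw [h5, ← cj_mul_cj, h6, h6, i1, i2, inv_zpow, inv_zpow, mul_inv_rev]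
    exact ((c2.zpow_zpow i j).inv_inv).symm
  have all : ∀ x ∈ D, Commute a x ∨ Commute d x := by
    intro x hx
    by_contra hn
    push Not at hn
    have hm : ∀ u, ∀ g ∈ pCore 3 G, cj u g ∈ pCore 3 G := fun u g hg =>
      (inferInstance : (pCore 3 G).Normal).conj_mem g hg u
    have h1 : ∀ g ∈ pCore 3 G, cj (d * x) g = cj (a * x) g⁻¹ := fun g hg => by
      have : d * x = a * d * (a * x) := by rw [← da.2.2.eq, mul_assoc, tt_sq' hD ha]
      rw [this, cj_mul, inv _ (hm _ g hg)]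
      simp [cj, mul_assoc]
    have h2 : ∀ u g : G, (cj u g)⁻¹ = cj u g⁻¹ := fun u g => by simp [cj, mul_assoc]
    have h3 : cj ((d * x) ^ 3) (a * b) = cj ((a * x) ^ 3) (a * b)⁻¹ := by
      simp only [pow_succ, pow_zero, one_mul]
      rw [cj_mul (d * x * (d * x)), cj_mul (d * x), cj_mul (a * x * (a * x)), cj_mul (a * x), h1 _ q1, h1 _ (hm _ _ (inv_mem q1)), h2, inv_inv,
        h1 _ (hm _ _ (hm _ _ q1)), h2, h2]
    rw [tt_cube hD hd hx hn.2, tt_cube hD ha hx hn.1, cj_one, cj_one] at h3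
    exact hab1 (eq_one_of_two_three (by rw [pow_two]; nth_rw 1 [h3]; exact inv_mul_cancel _)
      (tt_cube hD ha hb nab))
  obtain ⟨φ, p1, p2⟩ := exists_hom_S3 (tt_sq hD ha) (tt_sq hD hb) (tt_braid hD ha hb nab)
  obtain ⟨ψ, r1, r2⟩ := exists_hom_S3 (tt_sq hD hd) (tt_sq hD he) (tt_braid hD hd he nde)
  have iφ := injective_S3 φ (by rwa [p1, p2])
  have iψ := injective_S3 ψ (by rwa [r1, r2])
  have gen : ∀ σ : Equiv.Perm (Fin 3), σ ∈ closure {Equiv.swap (0 : Fin 3) 1, Equiv.swap 1 2} := by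
    have k : ∀ σ : Equiv.Perm (Fin 3), ∃ i j : Fin 3,
        σ = Equiv.swap 0 1 ^ (i : ℕ) * (Equiv.swap 0 1 * Equiv.swap 1 2) ^ (j : ℕ) := by decide +kernel
    intro σ
    obtain ⟨i, j, rfl⟩ := k σ
    exact mul_mem (pow_mem (subset_closure (by simp)) _)
      (pow_mem (mul_mem (subset_closure (by simp)) (subset_closure (by simp))) _)
  have comm : ∀ σ τ, Commute (φ σ) (ψ τ) := by
    intro σ τ
    refine closure_induction₂ (p := fun σ τ _ _ => Commute (φ σ) (ψ τ)) ?_ ?_ ?_ ?_ ?_ ?_ ?_ (gen σ) (gen τ)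
    · rintro _ _ (rfl | rfl) (rfl | rfl) <;> simp only [p1, p2, r1, r2]
      exacts [da.2.2.symm, ea.2.2.symm, db.2.2.symm, eb.2.2.symm]
    · simp
    · simp
    · intro _ _ _ _ _ _ h1 h2; rw [map_mul]; exact h1.mul_left h2
    · intro _ _ _ _ _ _ h1 h2; rw [map_mul]; exact h1.mul_right h2
    · intro _ _ _ _ h; rw [map_inv]; exact h.inv_left
    · intro _ _ _ _ h; rw [map_inv]; exact h.inv_right
  refine iso_of_range (φ.noncommCoprod ψ comm) ?_ ?_
    (S := {(Equiv.swap 0 1, 1), (Equiv.swap 1 2, 1), (1, Equiv.swap 0 1), (1, Equiv.swap 1 2)}) ?_ ?_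
  · rw [injective_iff_map_eq_one]
    rintro ⟨σ, τ⟩ h
    rw [MonoidHom.noncommCoprod_apply] at h
    have k : ∀ σ : Equiv.Perm (Fin 3), (∀ ρ, σ * ρ = ρ * σ) → σ = 1 := by decide +kernel
    obtain rfl : σ = 1 := k σ fun ρ => iφ (by
      rw [map_mul, map_mul, eq_inv_of_mul_eq_one_left h]; exact (comm ρ τ).inv_right.symm)
    rw [map_one, one_mul] at h
    exact Prod.ext rfl (iψ (h.trans (map_one ψ).symm))
  · have m1 : ∀ σ, φ σ ∈ (φ.noncommCoprod ψ comm).range := fun σ => ⟨(σ, 1), by simp⟩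
    have m2 : ∀ σ, ψ σ ∈ (φ.noncommCoprod ψ comm).range := fun σ => ⟨(1, σ), by simp⟩
    have ma := p1 ▸ m1 _
    have mb := p2 ▸ m1 _
    have md := r1 ▸ m2 _
    have me := r2 ▸ m2 _
    intro x hx
    rcases all x hx with h | h
    · by_cases e : x = a
      · exact e ▸ ma
      rcases Na x ⟨hx, e, h⟩ with rfl | rfl | rfl
      exacts [md, me, mul_mem (mul_mem md me) (inv_mem md)]
    · by_cases e : x = d
      · exact e ▸ md
      rcases Nd x ⟨hx, e, h⟩ with rfl | rfl | rfl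
      exacts [ma, mb, mul_mem (mul_mem ma mb) (inv_mem ma)]
  · rw [eq_top_iff]
    rintro ⟨σ, τ⟩ -
    rw [show (σ, τ) = MonoidHom.inl _ _ σ * MonoidHom.inr _ _ τ by simp]
    refine mul_mem ?_ ?_
    · refine (?_ : map _ _ ≤ _) (mem_map_of_mem _ (gen σ))
      rw [MonoidHom.map_closure]
      exact closure_mono (by rintro _ ⟨_, rfl | rfl, rfl⟩ <;> simp)
    · refine (?_ : map _ _ ≤ _) (mem_map_of_mem _ (gen τ))
      rw [MonoidHom.map_closure]
      exact closure_mono (by rintro _ ⟨_, rfl | rfl, rfl⟩ <;> simp)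
  · rintro _ ⟨_, rfl | rfl | rfl | rfl, rfl⟩ <;> simp [p1, p2, r1, r2, ha, hb, hd, he]

end

/-- Let D be a non-empty conjugation-invariant set of involutions of a finite group G satisfying the 3-transposition order conditions, and suppose that for every d in D the members of D other than d commuting with d generate a subgroup isomorphic to the symmetric group of degree 3, and the largest normal 3-subgroup of the centralizer of d has order 3. Then the subgroup generated by D is isomorphic to the symmetric group of degree 5 or to the direct product of two symmetric groups of degree 3. -/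
theorem result {G : Type*} [Group G] [Finite G] {D : Set G} (hD : Cfsg.IsThreeTranspositionSet D) (hconj : ∀ g : G, ∀ d ∈ D, g * d * g⁻¹ ∈ D) (hne : D.Nonempty) (hloc : ∀ d ∈ D, Nonempty (↥(Subgroup.closure {y : G | y ∈ D ∧ y ≠ d ∧ Commute d y}) ≃* Equiv.Perm (Fin 3)) ∧ Nat.card (Cfsg.pCore 3 ↥(Subgroup.centralizer ({d} : Set G))) = 3) : Nonempty (↥(Subgroup.closure D) ≃* Equiv.Perm (Fin 5)) ∨ Nonempty (↥(Subgroup.closure D) ≃* Equiv.Perm (Fin 3) × Equiv.Perm (Fin 3)) := by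
  have hc : ConjInv D := hconj
  by_cases hA : ∃ d ∈ D, ∃ e ∈ D, ∃ a b, d ≠ e ∧ a ≠ b ∧ Nb D d a ∧ Nb D d b ∧ Nb D e a ∧ Nb D e b
  · obtain ⟨d, hd, e, he, a, b, h1, h2, h3, h4, h5, h6⟩ := hA
    exact Or.inr (caseA hD hc hloc hd he h1 h2 h3 h4 h5 h6)
  left
  obtain ⟨d, hd⟩ := hne
  obtain ⟨a, b, da, db, hab⟩ := loc1 (hloc d hd).1
  obtain ⟨e, ae, hed⟩ : ∃ e, Nb D a e ∧ e ≠ d := by
    obtain ⟨x, y, hx, hy, hxy⟩ := loc1 (hloc a da.1).1
    by_cases h : x = d
    · exact ⟨y, hy, fun e => hxy (h.trans e.symm)⟩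
    · exact ⟨x, hx, h⟩
  have nab := (loc2 hD (hloc d hd).1 da db hab).1
  have ned := (loc2 hD (hloc a da.1).1 ae (da.symm hd) hed).1
  have nbe : ¬ Commute b e := fun h => hA ⟨d, hd, e, ae.1, a, b, hed.symm, hab, da, db, ae.symm da.1,
    db.1, fun h' => ned (h' ▸ db.2.2.symm), h.symm⟩
  obtain ⟨φ, p0, p1, p2, p3⟩ := exists_hom_S5 (tt_sq hD da.1) (tt_sq hD db.1) (tt_sq hD ae.1) (tt_sq hD hd)
    (tt_braid hD da.1 db.1 nab) (tt_braid hD db.1 ae.1 nbe) (tt_braid hD ae.1 hd ned) ae.2.2 da.2.2.symm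
    db.2.2.symm
  have iφ : Function.Injective φ := by
    rw [← MonoidHom.ker_eq_bot_iff]
    by_contra hk
    have := Equiv.Perm.alternatingGroup_le_of_normal (N := φ.ker) (by simp) ((nontrivial_iff_ne_bot _).2 hk)
      (show Equiv.swap (0 : Fin 5) 1 * Equiv.swap 1 2 ∈ alternatingGroup _ by
        rw [Equiv.Perm.mem_alternatingGroup]; decide)
    rw [MonoidHom.mem_ker, map_mul, p0, p1] at this
    exact hab (tt_eq_of_mul_eq_one hD da.1 this)
  have k : ∀ i j : Fin 5, i ≠ j → ∃ g : Equiv.Perm (Fin 5), Equiv.swap i j = g * Equiv.swap 3 4 * g⁻¹ := by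
    decide +kernel
  have mD : ∀ i j : Fin 5, i ≠ j → φ (Equiv.swap i j) ∈ D := fun i j h => by
    obtain ⟨g, hg⟩ := k i j h
    rw [hg, map_mul, map_mul, map_inv, p3]
    exact hc _ _ hd
  refine iso_of_range φ iφ (fun x hx => ?_) Equiv.Perm.closure_isSwap
    (by rintro _ ⟨_, ⟨i, j, h, rfl⟩, rfl⟩; exact mD i j h)
  by_contra hn
  have nc : ∀ i j : Fin 5, i ≠ j → ¬ Commute (φ (Equiv.swap i j)) x := by
    intro i j h hcm
    obtain ⟨g, hg⟩ := k i j h
    have h1 : cj (φ g)⁻¹ x ∉ φ.range := fun h => hn (by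
      rw [← cj_cj_inv (φ g) x]; exact mul_mem (mul_mem ⟨g, rfl⟩ h) (inv_mem ⟨g, rfl⟩))
    have h2 : Commute d (cj (φ g)⁻¹ x) := by
      rw [← commute_cj (g := φ g), cj_cj_inv]
      rwa [hg, map_mul, map_mul, map_inv, p3] at hcm
    rcases (loc2 hD (hloc d hd).1 da db hab).2 _ ⟨hc.cj _ hx, fun e => h1 ⟨_, p3.trans e.symm⟩, h2⟩ with
      h | h | h
    · exact h1 ⟨_, p0.trans h.symm⟩
    · exact h1 ⟨_, p1.trans h.symm⟩
    · exact h1 (h ▸ mul_mem (mul_mem ⟨_, p0⟩ ⟨_, p1⟩) (inv_mem ⟨_, p0⟩))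
  have key : ∀ i j k l : Fin 5, i ≠ j → k ≠ l → Equiv.swap i j ≠ Equiv.swap k l →
      Equiv.swap i j * Equiv.swap k l = Equiv.swap k l * Equiv.swap i j →
      Nb D x (cj (φ (Equiv.swap i j * Equiv.swap k l)) x) := by
    intro i j k l h1 h2 h3 h4
    have := tt_string_commute hD (mD i j h1) hx (mD k l h2) (Commute.map h4 φ) (nc i j h1)
      (fun h => nc k l h2 h.symm) (fun h => h3 (iφ h))
    rw [map_mul]
    exact ⟨hc.cj _ hx, this.2.1, this.1.symm⟩
  have k1 := key 0 1 2 3 (by decide) (by decide) (by decide) (by decide)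
  have k2 := key 0 2 1 3 (by decide) (by decide) (by decide) (by decide)
  have k3 := (key 0 3 1 2 (by decide) (by decide) (by decide) (by decide)).cj hc
    (φ (Equiv.swap 0 1 * Equiv.swap 2 3))
  rw [← cj_mul, ← map_mul, show Equiv.swap (0 : Fin 5) 1 * Equiv.swap 2 3 * (Equiv.swap 0 3 * Equiv.swap 1 2) =
    Equiv.swap 0 2 * Equiv.swap 1 3 by decide] at k3
  exact (loc2 hD (hloc x hx).1 k1 k2 k3.2.1.symm).1 k3.2.2

end Cfsg.Agent.S5365
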