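import Cfsg.Statements.S5366
import Cfsg.Agent.Fi.Space

set_option autoImplicit false
open Cfsg

namespace Cfsg.Agent.S5366

open CA.Fi Cfsg.LineSystem

/-- Let L be a nondegenerate Fischer space on the point type X (every point on a line). Then for every point x the map t(x) — sending a point collinear with x to the third point of their common line and fixing every other point — is a permutation of X of order 2 and an automorphism of the line system; and the set of all t(x) satisfies the 3-transposition order conditions in the permutation group of X (any two have product of order at most 3). -/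
theorem result {X : Type*} (L : Set (Set X)) (hL : Cfsg.IsFischerSpace L) (hnd : Cfsg.LineSystem.IsNondegenerate L) : (∀ x : X, ∃ σ : Equiv.Perm X, ⇑σ = Cfsg.LineSystem.lineMap L x ∧ orderOf σ = 2 ∧ Cfsg.LineSystem.IsIso L L σ) ∧ Cfsg.IsThreeTranspositionSet {σ : Equiv.Perm X | ∃ x : X, ⇑σ = Cfsg.LineSystem.lineMap L x} := by
  let t : X → Equiv.Perm X := fun x => (lineMap_invol hL.1 x).toPerm _
  have hsq : ∀ x, t x * t x = 1 := fun x => Equiv.ext fun y => lineMap_invol hL.1 x y
  have ho : ∀ x, orderOf (t x) = 2 := fun x => by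
    refine orderOf_two_of (hsq x) fun e => ?_
    obtain ⟨l, hl, hx⟩ := hnd x
    obtain ⟨y, z, h, -⟩ := exists_col' hl (hL.2.1 l hl) hx
    exact h.2.1 ((h.lineMap_eq hL.1).symm.trans (Equiv.ext_iff.1 e y))
  have hc : ∀ x y, t x * t y = t (lineMap L x y) * t x := fischer_conj hL
  refine ⟨fun x => ⟨t x, rfl, ho x, fischer_iso hL x⟩, ?_, ?_⟩
  · rintro σ ⟨x, hx⟩
    rw [show σ = t x from Equiv.coe_fn_injective hx]
    exact ho x
  · rintro σ ⟨x, hx⟩ τ ⟨y, hy⟩
    rw [show σ = t x from Equiv.coe_fn_injective hx, show τ = t y from Equiv.coe_fn_injective hy]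
    by_cases h : ∃ z, Col L x y z
    · obtain ⟨z, hz⟩ := h
      refine Or.inr (cube_of_braid (hsq x) (hsq y) ?_)
      rw [hc x y, hc y x, hz.lineMap_eq hL.1, hz.swap12.lineMap_eq hL.1, mul_assoc, mul_assoc, hsq, hsq]
    · refine Or.inl (sq_eq_one_of_commute (hsq x) (hsq y) ?_)
      have := hc x y
      rwa [lineMap_of_not h] at this

end Cfsg.Agent.S5366
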