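import Cfsg.Statements.S5376
import Cfsg.Agent.Fi.Main23
import Cfsg.Agent.Fi.IModel22

set_option autoImplicit false
open Cfsg

namespace Cfsg.Agent.S5376

/-- Let G be a finite group with trivial centre generated by a conjugation-invariant set D of 3-transpositions on which it acts primitively, of type M(22), and suppose some finite primitive 3-transposition group of type M(23) exists. Then G is simple, and for every d in D the subgroup generated by the members of D other than d commuting with d contains d and is quasisimple with centre generated by d. -/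
theorem result {G : Type*} [Group G] [Finite G] {D : Set G} (hD : Cfsg.IsThreeTranspositionGroup D) (hprim : Cfsg.IsPrimitiveUnderConj D) (ht : Cfsg.IsOfTypeM22 G D) (hex : ∃ (X : Type) (_ : Group X) (_ : Finite X) (E : Set X), Cfsg.IsThreeTranspositionClass E ∧ Cfsg.IsPrimitiveUnderConj E ∧ Cfsg.IsOfTypeM23 X E) : IsSimpleGroup G ∧ ∀ d ∈ D, d ∈ Subgroup.closure {y : G | y ∈ D ∧ y ≠ d ∧ Commute d y} ∧ Cfsg.IsQuasisimple ↥(Subgroup.closure {y : G | y ∈ D ∧ y ≠ d ∧ Commute d y}) ∧ Subgroup.center ↥(Subgroup.closure {y : G | y ∈ D ∧ y ≠ d ∧ Commute d y}) = (Subgroup.zpowers d).subgroupOf (Subgroup.closure {y : G | y ∈ D ∧ y ≠ d ∧ Commute d y}) := by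
  obtain ⟨e, h⟩ := CA.TC.real22 hD ht
  refine ⟨h.simple22 hD.2.2 ht.1, fun d hd => ?_⟩
  obtain ⟨f, hf, rfl⟩ := h.exists_base CA.TC.trans22 (by decide) hd
  exact ⟨CA.TC.zmem22 hf hD.2.2 ht.1, hf.qs22 hD.2.2 ht.1,
    hf.center_nb (CA.TC.zmem22 hf hD.2.2 ht.1) fun _ => CA.TC.zcent22 hf hD.2.2 ht.1⟩

end Cfsg.Agent.S5376
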