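import Cfsg.Statements.S5378
import Cfsg.Agent.Typ.B3

set_option autoImplicit false
open Cfsg

namespace Cfsg.Agent.S5378

open CA.Typ CA.M24
open scoped Pointwise
set_option maxRecDepth 100000
set_option maxHeartbeats 400000



/-- Let G be a finite group of Conway type: it has an involution z whose centralizer C has generalized Fitting subgroup Q extraspecial of order 2^9 with C/Q isomorphic to the commutator subgroup of the isometry group of the hyperbolic quadratic form in dimension 8 over the field with two elements, and some conjugate of z other than z lies in Q. Then G has exactly three conjugacy classes of involutions. -/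
theorem result {G : Type*} [Group G] [Finite G] (z : G) (hz : orderOf z = 2) (Q : Subgroup (Subgroup.centralizer ({z} : Set G))) [Q.Normal] (hF : Cfsg.generalizedFittingSubgroup (Subgroup.centralizer ({z} : Set G)) = Q) (hQ : Cfsg.IsExtraspecial 2 Q) (hcard : Nat.card Q = 2 ^ 9) (e : (Subgroup.centralizer ({z} : Set G)) ⧸ Q ≃* Cfsg.Omega (ZMod 2) (Cfsg.quadFormPlus 4 (ZMod 2))) (hnwc : ∃ g : G, (∃ hq : g * z * g⁻¹ ∈ Subgroup.centralizer ({z} : Set G), (⟨g * z * g⁻¹, hq⟩ : Subgroup.centralizer ({z} : Set G)) ∈ Q) ∧ g * z * g⁻¹ ≠ z) : ∃ a b c : G, orderOf a = 2 ∧ orderOf b = 2 ∧ orderOf c = 2 ∧ ¬ IsConj a b ∧ ¬ IsConj a c ∧ ¬ IsConj b c ∧ ∀ x : G, orderOf x = 2 → IsConj x a ∨ IsConj x b ∨ IsConj x c := by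
  obtain ⟨s, Qs, h, Θ, M⟩ := exists_am8 hz Q hF hQ hcard e hnwc
  have hD := (mem_dodecads.1 D0_mem).1
  have h1 := M.dvd_cent_t
  have h2 := M.not_dvd_cent_b h
  refine ⟨z, Θ (mk1 (eps (unmask D0))), Θ (mk1 bb), hz,
    orderOf_eq_prime ((pow_two _).trans (M.A_sq (M.a_mem hD))) fun e => ?_, orderOf_eq_prime ?_ fun e => ?_,
    fun e => ?_, fun e => ?_, fun e => ?_, fun x hx => M.inv_cases h.left hx⟩
  · exact absurd ((M.a_inj hD empty_mem_Cs).1 (e.trans M.a_empty.symm)) (by decide +kernel)
  · rw [pow_two, ← M.H.mul _ bb_H _ bb_H, ← map_mul, bb_sq, mk1_ng, M.H.one]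
  · have h3 := bb_sq
    rcases mk1_eq_one.1 (M.H.inj _ bb_H e) with r | r <;> rw [r] at h3
    · exact ng_ne_one (h3.symm.trans (mul_one 1))
    · exact ng_ne_one (h3.symm.trans ng_mul_ng)
  · rw [← card_cent_conj e, h.cH] at h1
    exact absurd h1 (by decide)
  · rw [← card_cent_conj e, h.cH] at h2
    exact h2 (by decide)
  · rw [← card_cent_conj e] at h2
    exact h2 (Dvd.dvd.trans (by decide) h1)

end Cfsg.Agent.S5378
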