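import Cfsg.Statements.S5392
import Cfsg.Agent.M24.Leech4

set_option autoImplicit false
open Cfsg

namespace Cfsg.Agent.S5392

open CA.M24
open scoped Pointwise
set_option maxRecDepth 100000
set_option maxHeartbeats 400000



/-- The Leech lattice modulo twice itself is a faithful irreducible module for the first Conway group: an automorphism of the rank-24 lattice built from the length-24 code that moves every lattice vector only by twice a lattice vector lies in the centre of the automorphism group (the centre consists of ±1, which act trivially there, so the kernel is exactly the centre), and an additive subgroup lying between twice the lattice and the lattice that is invariant under all lattice automorphisms is one of the two. -/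
theorem result : (∀ g : ↥Cfsg.Co0, (∀ v : ↥Cfsg.leechLattice, ∃ w : ↥Cfsg.leechLattice, ((g • v : ↥Cfsg.leechLattice) : Cfsg.GolayPt → ℤ) - (v : Cfsg.GolayPt → ℤ) = 2 • (w : Cfsg.GolayPt → ℤ)) → g ∈ Subgroup.center ↥Cfsg.Co0) ∧ ∀ M : AddSubgroup (Cfsg.GolayPt → ℤ), (∀ v ∈ Cfsg.leechLattice, (2 : ℤ) • v ∈ M) → M ≤ Cfsg.leechLattice → (∀ g : ↥Cfsg.Co0, ∀ v : ↥Cfsg.leechLattice, (v : Cfsg.GolayPt → ℤ) ∈ M → ((g • v : ↥Cfsg.leechLattice) : Cfsg.GolayPt → ℤ) ∈ M) → (∀ x ∈ M, ∃ w ∈ Cfsg.leechLattice, x = (2 : ℤ) • w) ∨ M = Cfsg.leechLattice := by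
  refine ⟨fun g h => mem_center_iff.2 (eq_of_cong_all fun x hx => ?_), fun M h2 hM hinv => ?_⟩
  · obtain ⟨w, hw⟩ := h ⟨x, hx⟩
    exact ⟨w, w.2, by rw [act_mk g hx]; exact hw⟩
  · by_cases h : ∀ x ∈ M, Cong x 0
    · refine Or.inl fun x hx => ?_
      obtain ⟨z, hz, e⟩ := h x hx
      exact ⟨z, hz, by rw [two_zsmul, ← two_nsmul, ← e, sub_zero]⟩
    · push Not at h
      obtain ⟨x, hx, h0⟩ := h
      refine Or.inr (le_antisymm hM (irreducible_mod_two h2 (fun g v hv hvM => ?_) (hM hx) hx h0))
      rw [act_mk g hv]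
      exact hinv g ⟨v, hv⟩ hvM

end Cfsg.Agent.S5392
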