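import Cfsg.Statements.S5394
import Cfsg.Agent.M24.Classes

set_option autoImplicit false
open Cfsg

namespace Cfsg.Agent.S5394

open CA.M24
set_option maxRecDepth 100000



/-- The automorphism group of the length-24 code built from the squares modulo 23 has exactly two conjugacy classes of involutions: an involution either fixes exactly the eight points of an octad or has no fixed points, both kinds occur, and any two involutions of the same kind are conjugate in the group. -/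
theorem result : (∀ g ∈ Cfsg.M24, orderOf g = 2 → (Finset.univ.filter fun p => g p = p) ∈ Cfsg.octads ∨ ∀ p, g p ≠ p) ∧ (∃ g ∈ Cfsg.M24, orderOf g = 2 ∧ (Finset.univ.filter fun p => g p = p) ∈ Cfsg.octads) ∧ (∃ g ∈ Cfsg.M24, orderOf g = 2 ∧ ∀ p, g p ≠ p) ∧ ∀ g ∈ Cfsg.M24, ∀ h ∈ Cfsg.M24, orderOf g = 2 → orderOf h = 2 → ((∀ p, g p ≠ p) ↔ (∀ p, h p ≠ p)) → ∃ k ∈ Cfsg.M24, k * g * k⁻¹ = h := by
  refine ⟨fun g hg h => ?_, ⟨_, r2A_in.perm_mem, orderOf_r2A, ?_⟩,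
    ⟨_, r2B_in.perm_mem, orderOf_r2B, card_fixS_eq_zero.1 card_fix_r2B⟩, fun g hg h hh h1 h2 h3 => ?_⟩
  · exact (card_fix_two hg h).imp_right card_fixS_eq_zero.1
  · have := O0_mem
    rw [← fixS_r2A] at this
    exact this
  · by_cases hf : ∀ p, g p ≠ p
    · obtain ⟨k, hk, e⟩ := conj_2B hg h1 hf
      obtain ⟨k', hk', e'⟩ := conj_2B hh h2 (h3.1 hf)
      refine ⟨k'⁻¹ * k, mul_mem (inv_mem hk') hk, ?_⟩
      rw [show k'⁻¹ * k * g * (k'⁻¹ * k)⁻¹ = k'⁻¹ * (k * g * k⁻¹) * k' by group, e, ← e']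
      group
    · obtain ⟨k, hk, e⟩ := conj_2A hg h1 (by rwa [ne_eq, card_fixS_eq_zero])
      obtain ⟨k', hk', e'⟩ := conj_2A hh h2 (by rwa [ne_eq, card_fixS_eq_zero, ← h3])
      refine ⟨k'⁻¹ * k, mul_mem (inv_mem hk') hk, ?_⟩
      rw [show k'⁻¹ * k * g * (k'⁻¹ * k)⁻¹ = k'⁻¹ * (k * g * k⁻¹) * k' by group, e, ← e']
      group

end Cfsg.Agent.S5394
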