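import Cfsg.Statements.S5395
import Cfsg.Agent.Fi.Extra

set_option autoImplicit false
open Cfsg

namespace Cfsg.Agent.S5395

open CA.Fi CA.FG.Comp Subgroup

/-- For a finite extraspecial 2-group E, an automorphism of E that induces the identity on E modulo its centre is inner (so these automorphisms form exactly the inner automorphism group, an elementary abelian 2-group of order |E|/2). -/
theorem result {E : Type*} [Group E] [Finite E] (hE : Cfsg.IsExtraspecial 2 E) (φ : E ≃* E) (hφ : ∀ x : E, φ x * x⁻¹ ∈ Subgroup.center E) : ∃ g : E, ∀ x : E, φ x = g * x * g⁻¹ := by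
  obtain ⟨z, h⟩ := exists_ES_top hE
  have hc : ∀ x ∈ center E, x = 1 ∨ x = z := fun x hx =>
    h.cen x (mem_top x) fun y _ => (mem_center_iff.1 hx y).symm
  have key : ∀ x, φ x = x ∨ φ x = x * z := fun x => by
    rcases hc _ (hφ x) with e | e
    · exact Or.inl (mul_inv_eq_one.1 e)
    · right; rw [← (h.z_comm x (mem_top x)).eq, ← e]; group
  obtain ⟨g, -, hg⟩ := h.exists_inner φ (fun x _ y _ => map_mul φ x y) (fun x _ => key x)
    ((key z).resolve_right fun e => h.z_ne (φ.injective (by rw [e, h.z_sq, map_one])))
  exact ⟨g, fun x => hg x (mem_top x)⟩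

end Cfsg.Agent.S5395
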