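import Cfsg.Statements.S5396
import Cfsg.Agent.Fi.ExtraRank

set_option autoImplicit false
open Cfsg

namespace Cfsg.Agent.S5396

open CA.Fi CA.FG.Comp Subgroup

/-- For every n ≥ 1 there exist finite extraspecial 2-groups of order 2^(2n+1) whose 2-rank (the largest rank of an elementary abelian subgroup) is n, and ones whose 2-rank is n + 1 (so for each such order there are two non-isomorphic extraspecial 2-groups, told apart by their 2-rank). -/
theorem result (n : ℕ) (hn : 1 ≤ n) : ∀ r ∈ ({n, n + 1} : Set ℕ), ∃ (E : Type) (_ : Group E) (_ : Finite E), Cfsg.IsExtraspecial 2 E ∧ Nat.card E = 2 ^ (2 * n + 1) ∧ sSup {k : ℕ | ∃ A : Subgroup E, Cfsg.IsElementaryAbelian 2 A ∧ Nat.card A = 2 ^ k} = r := by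
  obtain ⟨n, rfl⟩ : ∃ m, n = m + 1 := ⟨n - 1, by omega⟩
  rintro r (rfl | rfl)
  · refine ⟨Ext n 1, inferInstance, inferInstance, Ext.es.isExtraspecial_of_top, Ext.card_eq, ?_⟩
    have mB : ∀ g : Ext n 1, g ∈ Ext.B0 n 1 ⊓ centralizer {(⟨0, 0, Pi.single 0 1⟩ : Ext n 1)} ↔
        g.y = 0 ∧ g.x 0 = 0 := fun g => by
      rw [mem_inf, Ext.mem_B0, mem_cent_iff, Ext.commute_iff]; simp
    refine rank_eq_of_max Ext.es (B := Ext.B0 n 1 ⊓ centralizer {(⟨0, 0, Pi.single 0 1⟩ : Ext n 1)})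
      ((mB _).2 ⟨rfl, rfl⟩) (fun b hb => ?_) (fun g h1 h2 => ?_) ?_
    · rw [mB] at hb
      rw [Ext.sq_iff, hb.1, hb.2]; simp
    · have hy : ∀ i : Fin n, g.y i.succ = 0 := fun i => by
        have := (Ext.commute_iff _ _).1 (h2 ⟨0, Pi.single i.succ 1, 0⟩ ((mB _).2 ⟨rfl, by simp⟩))
        simpa using this.symm
      rw [Ext.sq_iff, dotProduct, Fin.sum_univ_succ] at h1
      simp only [hy, mul_zero, Finset.sum_const_zero, add_zero, one_mul] at h1
      have key : ∀ a b : ZMod 2, a * b + (a * a + b * b) = 0 → a = 0 ∧ b = 0 := by decide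
      refine (mB g).2 ⟨funext fun i => ?_, (key _ _ h1).1⟩
      exact Fin.cases (key _ _ h1).2 hy i
    · have := Ext.es.card_eq_two_mul (H := Ext.B0 n 1) le_top (w := ⟨0, 0, Pi.single 0 1⟩) (mem_top _)
        (a := ⟨0, Pi.single 0 1, 0⟩) rfl (by rw [Ext.commute_iff]; simp)
      rw [Ext.card_B0, pow_succ'] at this
      omega
  · refine ⟨Ext n 0, inferInstance, inferInstance, Ext.es.isExtraspecial_of_top, Ext.card_eq, ?_⟩
    refine rank_eq_of_max Ext.es (B := Ext.B0 n 0) rfl (fun b hb => ?_) (fun g _ h2 => ?_) Ext.card_B0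
    · rw [Ext.sq_iff, Ext.mem_B0.1 hb]; simp
    · refine funext fun i => ?_
      have := (Ext.commute_iff _ _).1 (h2 ⟨0, Pi.single i 1, 0⟩ rfl)
      simpa using this.symm

end Cfsg.Agent.S5396
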