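import Cfsg.Statements.S5397
import Cfsg.Agent.Typ.B2

set_option autoImplicit false
open Cfsg

namespace Cfsg.Agent.S5397

open CA.Typ CA.M24
open scoped Pointwise
set_option maxRecDepth 100000
set_option maxHeartbeats 400000



/-- Let G be a finite group of Conway type (involution z with generalized Fitting subgroup Q of its centralizer C extraspecial of order 2^9, C/Q the commutator subgroup of the isometry group of the hyperbolic quadratic form in dimension 8 over the field with two elements, z not weakly closed in Q). Then G has an elementary abelian subgroup A of order 2^11 containing z whose normalizer N is a split extension of A with N/A isomorphic to the automorphism group of the length-24 code built from the squares modulo 23, and N has exactly two orbits on the non-identity elements of A. -/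
theorem result {G : Type*} [Group G] [Finite G] (z : G) (hz : orderOf z = 2) (Q : Subgroup (Subgroup.centralizer ({z} : Set G))) [Q.Normal] (hF : Cfsg.generalizedFittingSubgroup (Subgroup.centralizer ({z} : Set G)) = Q) (hQ : Cfsg.IsExtraspecial 2 Q) (hcard : Nat.card Q = 2 ^ 9) (e : (Subgroup.centralizer ({z} : Set G)) ⧸ Q ≃* Cfsg.Omega (ZMod 2) (Cfsg.quadFormPlus 4 (ZMod 2))) (hnwc : ∃ g : G, (∃ hq : g * z * g⁻¹ ∈ Subgroup.centralizer ({z} : Set G), (⟨g * z * g⁻¹, hq⟩ : Subgroup.centralizer ({z} : Set G)) ∈ Q) ∧ g * z * g⁻¹ ≠ z) : ∃ A : Subgroup G, Cfsg.IsElementaryAbelian 2 A ∧ Nat.card A = 2 ^ 11 ∧ z ∈ A ∧ ∃ _ : (A.subgroupOf (Subgroup.normalizer (A : Set G))).Normal, Nonempty (↥(Subgroup.normalizer (A : Set G)) ⧸ A.subgroupOf (Subgroup.normalizer (A : Set G)) ≃* ↥Cfsg.M24) ∧ (∃ K : Subgroup ↥(Subgroup.normalizer (A : Set G)), (A.subgroupOf (Subgroup.normalizer (A : Set G))).IsComplement' K) ∧ ∃ a ∈ A, ∃ b ∈ A, a ≠ 1 ∧ b ≠ 1 ∧ (∀ n ∈ Subgroup.normalizer (A :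 Set G), n * a * n⁻¹ ≠ b) ∧ ∀ c ∈ A, c ≠ 1 → ∃ n ∈ Subgroup.normalizer (A : Set G), n * c * n⁻¹ = a ∨ n * c * n⁻¹ = b := by
  obtain ⟨s, Qs, h, Θ, M⟩ := exists_am8 hz Q hF hQ hcard e hnwc
  obtain ⟨f, h1, h2, h3⟩ := M.exists_f
  have hD := (mem_dodecads.1 D0_mem).1
  refine ⟨M.A, ⟨⟨⟨fun a b => Subtype.ext (M.A_comm a.2 b.2)⟩⟩, fun a ha => (pow_two a).trans (M.A_sq ha)⟩, M.card_A,
    M.z_mem_A, inferInstance, ⟨(QuotientGroup.quotientMulEquivOfEq h3.symm).trans
      (QuotientGroup.quotientKerEquivOfSurjective f h1)⟩, M.split, z, M.z_mem_A, _, M.a_mem hD, h.left.z_ne,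
    fun e => ?_, fun n hn e => ?_, fun c hc h => M.A_cases hc h⟩
  · exact absurd ((M.a_inj hD empty_mem_Cs).1 (e.trans M.a_empty.symm)) (by decide +kernel)
  · have h4 := h2 ⟨n, hn⟩ _ OO_Cs
    rw [show Θ (mk1 (eps OO)) = z from M.z, e] at h4
    have h5 := (mem_octads.1 (smul_mem_octads (f ⟨n, hn⟩).2 O0_mem))
    have h6 := (mem_dodecads.1 D0_mem).2
    rcases (M.a_inj hD h5.1).1 h4 with r | r <;> rw [r] at h6
    · omega
    · rw [Finset.card_compl, card_Pt, h5.2] at h6
      omega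

end Cfsg.Agent.S5397
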