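import Cfsg.Statements.S5401
import Cfsg.Agent.Fi.Exi22
import Cfsg.Agent.Fi.Exi23
import Cfsg.Agent.Fi.Exi24
import Cfsg.Agent.Fi.IType24
import Cfsg.Agent.Fi.Main24

set_option autoImplicit false
open Cfsg

namespace Cfsg.Agent.S5401

/-- Existence of the Fischer 3-transposition groups: there exist finite groups generated by a conjugacy class of 3-transpositions on which they act primitively that are of type M(22), of type M(23), and of type M(24) respectively. -/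
theorem result : (∃ (X : Type) (_ : Group X) (_ : Finite X) (E : Set X), Cfsg.IsThreeTranspositionClass E ∧ Cfsg.IsPrimitiveUnderConj E ∧ Cfsg.IsOfTypeM22 X E) ∧ (∃ (X : Type) (_ : Group X) (_ : Finite X) (E : Set X), Cfsg.IsThreeTranspositionClass E ∧ Cfsg.IsPrimitiveUnderConj E ∧ Cfsg.IsOfTypeM23 X E) ∧ (∃ (X : Type) (_ : Group X) (_ : Finite X) (E : Set X), Cfsg.IsThreeTranspositionClass E ∧ Cfsg.IsPrimitiveUnderConj E ∧ Cfsg.IsOfTypeM24 X E) := by
  refine ⟨?_, ?_, ?_⟩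
  · obtain ⟨G, _, _, D, e, h, hD, hZ⟩ := CA.TC.exists22
    exact ⟨G, _, ‹_›, D, CA.Fi.class_of_group ⟨h.tt22, h.conjInv hD, hD⟩ h.prim22.1 ⟨_, h.mem 0 (by decide)⟩, h.prim22,
      CA.TC.type22_of_real h hD hZ⟩
  · obtain ⟨G, _, _, D, e, h, hD, hZ⟩ := CA.TC.exists23
    exact ⟨G, _, ‹_›, D, CA.Fi.class_of_group ⟨h.tt23, h.conjInv hD, hD⟩ h.prim23.1 ⟨_, h.mem 0 (by decide)⟩, h.prim23,
      CA.TC.type23_of_real h hD hZ⟩
  · obtain ⟨G, _, _, D, e, h, hD, hZ⟩ := CA.TC.exists24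
    exact ⟨G, _, ‹_›, D, CA.Fi.class_of_group ⟨h.tt24, h.conjInv hD, hD⟩ h.prim24.1 ⟨_, h.mem 0 (by decide)⟩, h.prim24,
      CA.TC.type24_of_real h hD hZ⟩

end Cfsg.Agent.S5401
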