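import Cfsg.Statements.S5404
import Cfsg.Agent.U6.Main24

set_option autoImplicit false
open Cfsg

namespace Cfsg.Agent.S5404

open CA.U6 CA.Fi CA.FG in

/-- Let X be a finite group with a subgroup G₀ of index 2 of the following type: G₀ has an involution z, central in some Sylow 2-subgroup of G₀, whose centralizer C in G₀ has generalized Fitting subgroup Q extraspecial of order 2^13 and normal subgroups Q ≤ N ≤ M with N/Q of order 3, M/N isomorphic to the projective special unitary group of dimension 4 over the field with nine elements and M of index 2 in C, some G₀-conjugate of z other than z lying in Q; and suppose the generalized Fitting subgroup of the centralizer of z in X equals that of C. Then X is generated by a conjugacy class of 3-transpositions with respect to which it is of type M(24). -/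
theorem result {X : Type*} [Group X] [Finite X] (G₀ : Subgroup X) (hidx : G₀.index = 2) (z : ↥G₀) (hz : orderOf z = 2) (Q N M : Subgroup (Subgroup.centralizer ({z} : Set ↥G₀))) [Q.Normal] [N.Normal] [M.Normal] (hF : Cfsg.generalizedFittingSubgroup (Subgroup.centralizer ({z} : Set ↥G₀)) = Q) (hQ : Cfsg.IsExtraspecial 2 Q) (hcard : Nat.card Q = 2 ^ 13) (hQN : Q ≤ N) (hNM : N ≤ M) (hN : Nat.card N = 3 * Nat.card Q) (K : Type) [Field K] [Fintype K] (hK : Fintype.card K = 9) (e : M ⧸ N.subgroupOf M ≃* Cfsg.PSU 4 K 3) (hM : M.index = 2) (hnwc : ∃ g : ↥G₀, (∃ hq : g * z * g⁻¹ ∈ Subgroup.centralizer ({z} : Set ↥G₀), (⟨g * z * g⁻¹, hq⟩ : Subgroup.centralizer ({z} : Set ↥G₀)) ∈ Q) ∧ g * z * g⁻¹ ≠ z) (hcentral : ∃ P : Sylow 2 ↥G₀, z ∈ (P : Subgroup ↥G₀) ∧ ∀ x ∈ (P : Subgroup ↥G₀), Commute x z) (hFX : (Cfsg.generalizedFittingSubgroup ↥(Subgroup.centralizer ({(z : X)} : Set X))).map (Subgroup.subtype _) = ((Q.map (Subgroup.subtype _)).map G₀.subtype)) : ∃ E : Set X, Cfsg.IsThreeTranspositionClass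 E ∧ Cfsg.IsOfTypeM24 X E := by
  have hT : IsOfLargeFischerTypeAt z Q := ⟨⟨hz, hF, hQ, hcard, hnwc⟩, N, M, inferInstance, inferInstance, hQN, hNM, hN,
    ⟨K, inferInstance, inferInstance, hK, ⟨e⟩⟩, hM⟩
  obtain ⟨π, ρ, x, s, τ, h⟩ := exists_GX' hT
  obtain ⟨D, e, r, c⟩ := (XX.of_sub hidx hF h.es.z_mem hFX).main hT
  exact ⟨D, c, CA.TC.type24_of_real r.toReal r.gen r.ctr⟩

end Cfsg.Agent.S5404
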