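import Cfsg.Statements.S5407
import Cfsg.Agent.M24.Monster2

set_option autoImplicit false
open Cfsg

namespace Cfsg.Agent.S5407

open CA.M24 CA.Fi CA.FG.Comp
set_option maxRecDepth 100000
set_option maxHeartbeats 400000



/-- Let G be a finite group of Monster type at the involution z with Q the extraspecial normal subgroup of order 2^25 of C = C_G(z) (so C/Q is identified with the first Conway group with Q modulo its centre the Leech lattice modulo 2, and z is not weakly closed in Q). Then under any such identification ψ of the Leech lattice modulo 2 with Q modulo its centre, an element x of Q is a conjugate of z other than z exactly when x modulo the centre is the image under ψ of a lattice vector of squared length 64 in the coordinates used here, that is, of norm 8 in the customary normalisation in which the minimal vectors have norm 4 (twice the minimal norm). -/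
theorem result {G : Type*} [Group G] [Finite G] (z : G) (Q : Subgroup (Subgroup.centralizer ({z} : Set G))) [Q.Normal] (hM : Cfsg.IsOfMonsterType z Q) (e : (Subgroup.centralizer ({z} : Set G)) ⧸ Q ≃* Cfsg.Spor.Co1) (ψ : Cfsg.leechLattice → Q ⧸ Subgroup.center Q) (hψ : Cfsg.IsLeechModTwoIso Q e ψ) (x : Q) : (IsConj z ((x : Subgroup.centralizer ({z} : Set G)) : G) ∧ ((x : Subgroup.centralizer ({z} : Set G)) : G) ≠ z) ↔ ∃ v : Cfsg.leechLattice, Cfsg.sqNorm (v : Cfsg.GolayPt → ℤ) = 64 ∧ ψ v = QuotientGroup.mk x := by
  have M := MS_of hM.1 e ψ hψ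
  refine (M.isConj_iff ⟨x, x.2, rfl⟩).trans ⟨?_, ?_⟩
  · rintro ⟨v, ⟨q, hv, e1, e2⟩, h⟩
    obtain rfl : q = x := Subtype.ext (Subtype.ext e1)
    exact ⟨⟨v, hv⟩, h, e2⟩
  · rintro ⟨v, h, e1⟩
    exact ⟨v, ⟨x, v.2, rfl, e1⟩, h⟩

end Cfsg.Agent.S5407
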