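import Cfsg.Statements.S5408
import Cfsg.Agent.M24.Monster2

set_option autoImplicit false
open Cfsg

namespace Cfsg.Agent.S5408

open CA.M24 CA.Fi CA.FG.Comp
set_option maxRecDepth 100000
set_option maxHeartbeats 400000



/-- Let G be a finite group of Monster type at the involution z with Q the extraspecial normal subgroup of order 2^25 of C = C_G(z) (so C/Q is identified with the first Conway group with Q modulo its centre the Leech lattice modulo 2, and z is not weakly closed in Q). Then Q is of plus type: it contains an elementary abelian subgroup of order 2^13. -/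
theorem result {G : Type*} [Group G] [Finite G] (z : G) (Q : Subgroup (Subgroup.centralizer ({z} : Set G))) [Q.Normal] (hM : Cfsg.IsOfMonsterType z Q) : ∃ E : Subgroup Q, Cfsg.IsElementaryAbelian 2 E ∧ Nat.card E = 2 ^ 13 := by
  obtain ⟨φ, L, M⟩ := exists_MS hM
  obtain ⟨g, hg, hne⟩ := M.nwc
  have P := M.pair hg hne
  let f : Q →* G := (Subgroup.centralizer ({z} : Set G)).subtype.comp Q.subtype
  have hf : Function.Injective f := fun a b h => Subtype.ext (Subtype.ext h)
  have hsq : ∀ a ∈ ((amb Q).map (MulAut.conj g).toMonoidHom).comap f, a * a = 1 := fun a ha =>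
    hf (by rw [map_mul, map_one]; exact P.E_sq ⟨⟨a, a.2, rfl⟩, ha⟩)
  refine ⟨((amb Q).map (MulAut.conj g).toMonoidHom).comap f, ⟨⟨⟨fun a b => Subtype.ext ?_⟩⟩,
    fun a ha => by rw [pow_two, hsq a ha]⟩, ?_⟩
  · have := hsq _ (mul_mem a.2 b.2)
    show (a : Q) * b = b * a
    rw [← inv_eq_self_of_sq this, mul_inv_rev, inv_eq_self_of_sq (hsq a a.2), inv_eq_self_of_sq (hsq b b.2)]
  · rw [← Subgroup.card_map_of_injective hf, Subgroup.map_comap_eq, ← M.card_inf P]
    have : f.range = amb Q := by
      ext x
      constructor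
      · rintro ⟨q, rfl⟩
        exact ⟨q, q.2, rfl⟩
      · rintro ⟨q, hq, rfl⟩
        exact ⟨⟨q, hq⟩, rfl⟩
    rw [this]

end Cfsg.Agent.S5408
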