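import Cfsg.Statements.S5410
import Cfsg.Agent.M24.Monster2

set_option autoImplicit false
open Cfsg

namespace Cfsg.Agent.S5410

open CA.M24 CA.Fi CA.FG.Comp
set_option maxRecDepth 100000
set_option maxHeartbeats 400000



/-- Let G be a finite group of Monster type at the involution z with Q the extraspecial normal subgroup of order 2^25 of C = C_G(z) (so C/Q is identified with the first Conway group with Q modulo its centre the Leech lattice modulo 2, and z is not weakly closed in Q). Let g in G with s = g z g⁻¹ a member of Q other than z, let X be the image in C/Q of the centralizer of s in C, and let E be the image in C/Q of the intersection of g Q g⁻¹ with C. Then E is a normal subgroup of X, elementary abelian of order 2^11, and it has a complement in X isomorphic to the Mathieu group of degree 24 (the automorphism group of the length-24 binary Golay code). -/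
theorem result {G : Type*} [Group G] [Finite G] (z : G) (Q : Subgroup (Subgroup.centralizer ({z} : Set G))) [Q.Normal] (hM : Cfsg.IsOfMonsterType z Q) (s : G) (hsQ : ∃ hsc : s ∈ Subgroup.centralizer ({z} : Set G), (⟨s, hsc⟩ : Subgroup.centralizer ({z} : Set G)) ∈ Q) (hs : IsConj z s) (hs1 : s ≠ z) (g : G) (hg : g * z * g⁻¹ = s) (X E : Subgroup ((Subgroup.centralizer ({z} : Set G)) ⧸ Q)) (hX : X = ((Subgroup.centralizer ({z} : Set G) ⊓ Subgroup.centralizer ({s} : Set G)).subgroupOf (Subgroup.centralizer ({z} : Set G))).map (QuotientGroup.mk' Q)) (hE : E = (((Q.map (Subgroup.centralizer ({z} : Set G)).subtype).map (MulAut.conj g).toMonoidHom ⊓ Subgroup.centralizer ({z} : Set G)).subgroupOf (Subgroup.centralizer ({z} : Set G))).map (QuotientGroup.mk' Q)) : E ≤ X ∧ (∀ x ∈ X, ∀ y ∈ E, x * y * x⁻¹ ∈ E) ∧ Cfsg.IsElementaryAbelian 2 E ∧ Nat.card E = 2 ^ 11 ∧ ∃ K : Subgroup ((Subgroup.centralizer ({z} : Set G)) ⧸ Q), K ≤ X ∧ E ⊓ K = ⊥ ∧ E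 ⊔ K = X ∧ Nonempty (K ≃* Cfsg.M24) := by
  obtain ⟨φ, L, M⟩ := exists_MS hM
  subst hg
  have P := M.pair (mem_amb.2 hsQ) hs1
  obtain ⟨k, hk⟩ := M.exists_e8 P
  replace M := M.conj k
  have h1 : E = Sg.map _ := hE.trans (M.pair_e8 P hk).2
  rw [inf_comm] at hX
  have h2 : X = Mon.map _ := hX.trans (M.img_cent hk)
  generalize φ.comp (MulAut.conj k).toMonoidHom = φ at M h1 h2
  subst h1 h2
  have hinj : ∀ π : M24, φ (pC π) ∈ Sg.map φ → π = 1 := fun π h =>
    Subtype.ext (eq_one_of_pC_mem_Sg π.2 ((M.mem_map ng_mem_Sg).1 h))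
  refine ⟨Subgroup.map_mono Sg_le_Mon, ?_, ⟨⟨⟨?_⟩⟩, ?_⟩, M.card_map_Sg, (φ.comp pHom).range, ?_, ?_, ?_, ?_⟩
  · rintro _ ⟨x, hx, rfl⟩ _ ⟨y, hy, rfl⟩
    exact ⟨_, Sg_conj hx hy, by rw [map_mul, map_mul, map_inv]⟩
  · rintro ⟨_, x, hx, rfl⟩ ⟨_, y, hy, rfl⟩
    exact Subtype.ext (by
      show φ x * φ y = φ y * φ x
      rw [← map_mul, ← map_mul, Sg_comm hx hy])
  · rintro _ ⟨x, hx, rfl⟩
    rw [pow_two, ← map_mul, Sg_sq hx, map_one]
  · rintro _ ⟨π, rfl⟩
    exact ⟨_, pC_mem_Mon π.2, rfl⟩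
  · rw [eq_bot_iff]
    rintro _ ⟨h, π, rfl⟩
    rw [hinj π h, map_one]
    exact one_mem _
  · refine le_antisymm (sup_le (Subgroup.map_mono Sg_le_Mon) ?_) ?_
    · rintro _ ⟨π, rfl⟩
      exact ⟨_, pC_mem_Mon π.2, rfl⟩
    · rintro _ ⟨x, hx, rfl⟩
      obtain ⟨c, hc, π, hπ, rfl⟩ := mem_Mon_iff.1 hx
      rw [map_mul]
      exact Subgroup.mul_mem_sup ⟨_, mem_Sg.2 ⟨c, hc, rfl⟩, rfl⟩ ⟨⟨π, hπ⟩, rfl⟩
  · refine ⟨(MonoidHom.ofInjective ((injective_iff_map_eq_one _).2 fun π h => hinj π ?_)).symm⟩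
    rw [show φ (pC π) = 1 from h]
    exact one_mem _

end Cfsg.Agent.S5410
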