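import Cfsg.Statements.S5413
import Cfsg.Agent.M24.Hara

set_option autoImplicit false
open Cfsg

namespace Cfsg.Agent.S5413

open CA.M24 CA.Fi Subgroup
set_option maxRecDepth 100000
set_option maxHeartbeats 400000



/-- Let G be a finite group of Monster type at the involution z with Q the extraspecial normal subgroup of order 2^25 of C = C_G(z) (so C/Q is identified with the first Conway group with Q modulo its centre the Leech lattice modulo 2, and z is not weakly closed in Q). Let s be a conjugate of z in Q other than z and let B be a Sylow 5-subgroup of the joint centralizer of z and s. Then the centralizer of B modulo B is a group of Harada–Norton type (an involution whose centralizer D has generalized Fitting subgroup R extraspecial of order 2^9 with D/R the wreath product of the alternating group of degree 5 by a group of order 2, the involution not weakly closed in R). -/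
theorem result {G : Type*} [Group G] [Finite G] (z : G) (Q : Subgroup (Subgroup.centralizer ({z} : Set G))) [Q.Normal] (hM : Cfsg.IsOfMonsterType z Q) (s : G) (hsQ : ∃ hsc : s ∈ Subgroup.centralizer ({z} : Set G), (⟨s, hsc⟩ : Subgroup.centralizer ({z} : Set G)) ∈ Q) (hs : IsConj z s) (hs1 : s ≠ z) (B : Subgroup G) (hB : B ≤ Subgroup.centralizer ({z, s} : Set G)) (hBp : Nat.card B = 5 ^ (Nat.card ↥(Subgroup.centralizer ({z, s} : Set G))).factorization 5) [hn : (B.subgroupOf (Subgroup.centralizer (B : Set G))).Normal] : Cfsg.IsOfHaradaNortonType (↥(Subgroup.centralizer (B : Set G)) ⧸ B.subgroupOf (Subgroup.centralizer (B : Set G))) := by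
  obtain ⟨φ, L, M, h8⟩ := exists_MS_e8 hM (mem_amb.2 hsQ) hs hs1
  rw [M.card_cent_pair h8, fact_five, pow_one] at hBp
  obtain ⟨b, hb, rfl, hz, hbs⟩ := exists_gen hB Nat.prime_five hBp
  obtain ⟨φ, L, M, h8, π, hπ, ho, hA⟩ := M.normal h8 hz hbs Nat.prime_five (by decide) hb
  obtain ⟨k, hk, e⟩ := classes_five hπ ho
  obtain ⟨φ, L, M, h8, hA⟩ := M.reconj' h8 hπ hk hA
  rw [e] at hA
  obtain ⟨zb, R, hR, h1, h2, -⟩ := M.setting (w := 4) h8 hbs (by decide) hb r5A_in.perm_mem
    (Hara.order ▸ pow_orderOf_eq_one _) hA Hara.crd Hara.main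
  exact ⟨zb, R, hR, h1, h2⟩

end Cfsg.Agent.S5413
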