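import Cfsg.Statements.S5416
import Cfsg.Agent.M24.Held

set_option autoImplicit false
open Cfsg

namespace Cfsg.Agent.S5416

open CA.M24 CA.Fi Subgroup
set_option maxRecDepth 100000
set_option maxHeartbeats 400000



/-- Let G be a finite group of Monster type at the involution z with Q the extraspecial normal subgroup of order 2^25 of C = C_G(z) (so C/Q is identified with the first Conway group with Q modulo its centre the Leech lattice modulo 2, and z is not weakly closed in Q). Let s be a conjugate of z in Q other than z and let B be a Sylow 7-subgroup of the joint centralizer of z and s. Then the centralizer of B modulo B is a group of Held type (an involution whose centralizer D has generalized Fitting subgroup R extraspecial of order 2^7 with D/R isomorphic to SL(3, 2), exactly 29 of its conjugates lying in R, and the involution not weakly closed in R). -/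
theorem result {G : Type*} [Group G] [Finite G] (z : G) (Q : Subgroup (Subgroup.centralizer ({z} : Set G))) [Q.Normal] (hM : Cfsg.IsOfMonsterType z Q) (s : G) (hsQ : ∃ hsc : s ∈ Subgroup.centralizer ({z} : Set G), (⟨s, hsc⟩ : Subgroup.centralizer ({z} : Set G)) ∈ Q) (hs : IsConj z s) (hs1 : s ≠ z) (B : Subgroup G) (hB : B ≤ Subgroup.centralizer ({z, s} : Set G)) (hBp : Nat.card B = 7 ^ (Nat.card ↥(Subgroup.centralizer ({z, s} : Set G))).factorization 7) [hn : (B.subgroupOf (Subgroup.centralizer (B : Set G))).Normal] : Cfsg.IsOfHeldType (↥(Subgroup.centralizer (B : Set G)) ⧸ B.subgroupOf (Subgroup.centralizer (B : Set G))) := by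
  obtain ⟨φ, L, M, h8⟩ := exists_MS_e8 hM (mem_amb.2 hsQ) hs hs1
  rw [M.card_cent_pair h8, fact_seven, pow_one] at hBp
  obtain ⟨b, hb, rfl, hz, hbs⟩ := exists_gen hB Nat.prime_seven hBp
  have key : ∃ b', orderOf b' = 7 ∧ zpowers b = zpowers b' ∧ Commute b' s ∧ ∃ φ L, MS z Q φ L ∧ L s (e8 none) ∧
      AA φ b' (pC (perm r7A)) := by
    obtain ⟨φ, L, M, h8, π, hπ, ho, hA⟩ := M.normal h8 hz hbs Nat.prime_seven (by decide) hb
    obtain ⟨k, hk, e⟩ := classes_seven hπ (of_orderOf ho (by norm_num)).1 (of_orderOf ho (by norm_num)).2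
    obtain ⟨φ, L, M, h8, hA⟩ := M.reconj' h8 hπ hk hA
    rcases e with e | e <;> rw [e] at hA
    · exact ⟨b, hb, rfl, hbs, φ, L, M, h8, hA⟩
    · have h5 : orderOf (b ^ 5) = 7 := by rw [Nat.Coprime.orderOf_pow (by rw [hb]; norm_num), hb]
      refine ⟨b ^ 5, h5, (eq_of_le_of_card_ge (zpowers_le.2 (npow_mem_zpowers b 5)) (by
        rw [Nat.card_zpowers, Nat.card_zpowers, h5, hb])).symm, hbs.pow_left 5, φ, L, M, h8, ?_⟩
      have := hA.pow 5
      rw [← pHom_apply ⟨_, r7B_in.perm_mem⟩, ← map_pow, pHom_apply] at this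
      exact r7B_eq ▸ this
  obtain ⟨b', hb', e, hbs, φ, L, M, h8, hA⟩ := key
  revert hn
  rw [e]
  intro hn
  obtain ⟨zb, R, hR, h1, h2, h3⟩ := M.setting (w := 3) h8 hbs (by decide) hb' r7A_in.perm_mem
    (Held.order ▸ pow_orderOf_eq_one _) hA Held.crd Held.main
  exact ⟨zb, R, hR, h1, h2, h3.trans (by rw [show Nat.card {a : Fin (2 ^ (2 * 3)) // T4 (cmbV Held.ws 6 a)} = 14 from
    Held.count])⟩

end Cfsg.Agent.S5416
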