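import Cfsg.Statements.S5418
import Cfsg.Agent.S5417
import Cfsg.Agent.He.Sv
import Cfsg.Agent.He.M1

set_option autoImplicit false
open Cfsg

namespace Cfsg.Agent.S5418

open CA.M24 CA.Fi Subgroup
set_option maxRecDepth 100000


/-- Let G be a finite group of Monster type at the involution z with Q the extraspecial normal subgroup of order 2^25 of C = C_G(z) (so C/Q is identified with the first Conway group with Q modulo its centre the Leech lattice modulo 2, and z is not weakly closed in Q). Let s be a conjugate of z in Q other than z and let B be a Sylow 7-subgroup of the joint centralizer of z and s. Then the centralizer of B has index 6 in the normalizer of B; and some involution inverting B induces, by conjugation, a non-inner automorphism of the layer of the centralizer of B. -/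
theorem result {G : Type*} [Group G] [Finite G] (z : G) (Q : Subgroup (Subgroup.centralizer ({z} : Set G))) [Q.Normal] (hM : Cfsg.IsOfMonsterType z Q) (s : G) (hsQ : ∃ hsc : s ∈ Subgroup.centralizer ({z} : Set G), (⟨s, hsc⟩ : Subgroup.centralizer ({z} : Set G)) ∈ Q) (hs : IsConj z s) (hs1 : s ≠ z) (B : Subgroup G) (hB : B ≤ Subgroup.centralizer ({z, s} : Set G)) (hBp : Nat.card B = 7 ^ (Nat.card ↥(Subgroup.centralizer ({z, s} : Set G))).factorization 7) : (Subgroup.centralizer (B : Set G)).relIndex (Subgroup.normalizer (B : Set G)) = 6 ∧ ∃ t : G, orderOf t = 2 ∧ (∀ b ∈ B, t * b * t⁻¹ = b⁻¹) ∧ (∀ x ∈ (Cfsg.layer ↥(Subgroup.centralizer (B : Set G))).map (Subgroup.centralizer (B : Set G)).subtype, t * x * t⁻¹ ∈ (Cfsg.layer ↥(Subgroup.centralizer (B : Set G))).map (Subgroup.centralizer (B : Set G)).subtype) ∧ ¬ ∃ l ∈ (Cfsg.layer ↥(Subgroup.centralizer (B : Set G))).map (Subgroup.centralizer (B : Set G)).subtype, ∀ x ∈ (Cfsg.layer ↥(Subgroup.centralizer (B : Set G))).map (Subgroup.centralizer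 (B : Set G)).subtype, t * x * t⁻¹ = l * x * l⁻¹ := by
  haveI hn : (B.subgroupOf (centralizer (B : Set G))).Normal := ⟨fun a ha c => by
    rw [mem_subgroupOf, coe_mul, coe_mul, coe_inv, conj_eq_iff_commute.2 (mem_cent_subgroup_iff.1 c.2 a ha)]
    exact ha⟩
  obtain ⟨e0⟩ := Cfsg.Agent.S5417.result z Q hM s hsQ hs hs1 B hB hBp
  haveI := e0.isSimpleGroup
  have hc : ¬ IsMulCommutative (centralizer (B : Set G) ⧸ B.subgroupOf (centralizer (B : Set G))) := fun h => by
    obtain ⟨x, -, y, -, hxy⟩ := CA.PM.He.hs0.le.exists_pair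
    refine hxy (e0.symm.injective ?_)
    rw [map_mul, map_mul]
    exact h.is_comm.comm _ _
  obtain ⟨φ, L, M, h8⟩ := exists_MS_e8 hM (mem_amb.2 hsQ) hs hs1
  rw [M.card_cent_pair h8, fact_seven, pow_one] at hBp
  obtain ⟨b, hb, e1, hz, hbs⟩ := exists_gen hB Nat.prime_seven hBp
  obtain ⟨φ, L, M, h8, π, hπ, ho, hA⟩ := M.normal h8 hz hbs Nat.prime_seven (by decide) hb
  obtain ⟨k, hk, e⟩ := classes_seven hπ (of_orderOf ho (by norm_num)).1 (of_orderOf ho (by norm_num)).2
  obtain ⟨φ, L, M, h8, hA⟩ := M.reconj' h8 hπ hk hA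
  rcases e with e | e <;> rw [e] at hA
  · exact Sv.main M h8 hA hb hbs e1 hc
  · have h5 : orderOf (b ^ 5) = 7 := by rw [Nat.Coprime.orderOf_pow (by rw [hb]; norm_num), hb]
    have := hA.pow 5
    rw [← Sv.pC_pow r7B_in.perm_mem, r7B_eq] at this
    exact Sv.main M h8 this h5 (hbs.pow_left 5) (e1.trans (eq_of_le_of_card_ge (zpowers_le.2 (npow_mem_zpowers b 5))
      (by rw [Nat.card_zpowers, Nat.card_zpowers, h5, hb])).symm) hc

end Cfsg.Agent.S5418
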