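import Cfsg.Statements.S5423
import Cfsg.Agent.Lin.Hol

set_option autoImplicit false
open Cfsg

namespace Cfsg.Agent.S5423

/-- Let G be a finite group that is the split extension of an elementary abelian normal subgroup U of order 2^(n+1), n ≥ 1, by its full automorphism group: U has a complement M in G whose conjugation action on U is faithful and realizes every automorphism of U. Let Z be a subgroup of U of order 2 and Q the largest normal 2-subgroup of the centralizer C of Z. Then Q is extraspecial of order 2^(2n+1) with an elementary abelian subgroup of order 2^(n+1) (plus type), Q is a large extraspecial 2-subgroup of G, and C is the split extension of Q by the general linear group of degree n over the field with two elements. -/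
theorem result {G : Type*} [Group G] [Finite G] (n : ℕ) (hn : 1 ≤ n) (U M : Subgroup G) [U.Normal] (hU : Cfsg.IsElementaryAbelian 2 U) (hUcard : Nat.card ↥U = 2 ^ (n + 1)) (hUM : U ⊓ M = ⊥) (hUM' : U ⊔ M = ⊤) (hfaith : ∀ m ∈ M, (∀ u ∈ U, m * u * m⁻¹ = u) → m = 1) (hfull : ∀ φ : ↥U ≃* ↥U, ∃ m ∈ M, ∀ u : ↥U, ((φ u : ↥U) : G) = m * u * m⁻¹) (Z : Subgroup G) (hZU : Z ≤ U) (hZ : Nat.card ↥Z = 2) (Q : Subgroup G) (hQ : Q = (Cfsg.pCore 2 ↥(Subgroup.centralizer (Z : Set G))).map (Subgroup.centralizer (Z : Set G)).subtype) : Cfsg.IsExtraspecial 2 ↥Q ∧ Nat.card ↥Q = 2 ^ (2 * n + 1) ∧ (∃ E : Subgroup G, E ≤ Q ∧ Cfsg.IsElementaryAbelian 2 E ∧ Nat.card ↥E = 2 ^ (n + 1)) ∧ Cfsg.IsLargeExtraspecial Q ∧ ∃ K : Subgroup G, K ≤ Subgroup.centralizer (Z : Set G) ∧ Q ⊓ K = ⊥ ∧ Q ⊔ K = Subgroup.centralizer (Z : Set G) ∧ Nonempty (↥K ≃* Matrix.GeneralLinearGroup (Fin n) (ZMod 2)) := by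
  classical
  have := hU.1
  letI : CommGroup U := { (inferInstance : Group U) with mul_comm := mul_comm' }
  letI : Module (ZMod 2) (Additive U) := AddCommGroup.zmodModule fun v =>
    Additive.toMul.injective (Subtype.ext (hU.2 _ (Additive.toMul v).2))
  obtain ⟨z, hz1, hzZ⟩ : ∃ z : G, z ≠ 1 ∧ Z = Subgroup.zpowers z := by
    have := Fact.mk Nat.prime_two
    obtain ⟨z, hz⟩ := exists_prime_orderOf_dvd_card' (G := Z) 2 hZ.symm.dvd
    refine ⟨z, fun e => by simp [show z = 1 from Subtype.ext e] at hz,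
      (Subgroup.eq_of_le_of_card_ge (Subgroup.zpowers_le.2 z.2) ?_).symm⟩
    rw [hZ, Nat.card_zpowers, Subgroup.orderOf_coe, hz]
  have hzU : z ∈ U := hZU (hzZ ▸ Subgroup.mem_zpowers z)
  have hc : Subgroup.centralizer (Z : Set G) = Subgroup.centralizer {z} := by
    rw [hzZ, Subgroup.zpowers_eq_closure, Subgroup.centralizer_closure]
  obtain ⟨e, he⟩ : ∃ e : (ZMod 2 × (Fin n → ZMod 2)) ≃ₗ[ZMod 2] Additive U,
      e (1, 0) = Additive.ofMul ⟨z, hzU⟩ := by
    have h1 := Module.natCard_eq_pow_finrank (K := ZMod 2) (V := Additive U)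
    rw [Nat.card_zmod, Nat.card_congr Additive.toMul, hUcard] at h1
    let e : (ZMod 2 × (Fin n → ZMod 2)) ≃ₗ[ZMod 2] Additive U := LinearEquiv.ofFinrankEq _ _ (by
      rw [← Nat.pow_right_injective le_rfl h1]; simp [add_comm])
    obtain ⟨a, ha⟩ := Lin.exists_equiv_map (v := e (1, 0)) (w := Additive.ofMul ⟨z, hzU⟩) (by simp)
      fun h => hz1 (congrArg (fun v => ((Additive.toMul v : U) : G)) h)
    exact ⟨e.trans a, ha⟩
  let ι : ZMod 2 × (Fin n → ZMod 2) → G := fun v => (Additive.toMul (e v) : U)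
  have hι : ∀ v w, ι (v + w) = ι v * ι w := fun v w => by simp [ι]
  have hinj : Function.Injective ι := fun v w h => e.injective (Additive.toMul.injective (Subtype.ext h))
  have hs : ∀ u ∈ U, ∃ v, ι v = u := fun u hu => ⟨e.symm (Additive.ofMul ⟨u, hu⟩), by simp [ι]⟩
  have ex : ∀ a : (ZMod 2 × (Fin n → ZMod 2)) ≃ₗ[ZMod 2] (ZMod 2 × (Fin n → ZMod 2)),
      ∃ m ∈ M, ∀ v, m * ι v * m⁻¹ = ι (a v) := fun a => by
    obtain ⟨m, hm, h⟩ := hfull (AddEquiv.toMultiplicativeRight.symm.symm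
      ((e.symm.trans (a.trans e)).toAddEquiv) |>.trans (MulEquiv.multiplicativeAdditive U))
    exact ⟨m, hm, fun v => by rw [← h]; simp [ι]⟩
  choose s hs1 hs2 using ex
  have un : ∀ m ∈ M, ∀ m' ∈ M, (∀ v, m * ι v * m⁻¹ = m' * ι v * m'⁻¹) → m = m' := fun m hm m' hm' h =>
    (inv_mul_eq_one.1 (hfaith _ (mul_mem (inv_mem hm') hm) fun u hu => by
      obtain ⟨v, rfl⟩ := hs u hu
      rw [mul_inv_rev, inv_inv, mul_assoc m'⁻¹, mul_assoc m'⁻¹, ← mul_assoc (m * _), h]; group)).symm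
  let σ : ((ZMod 2 × (Fin n → ZMod 2)) ≃ₗ[ZMod 2] (ZMod 2 × (Fin n → ZMod 2))) →* G :=
    MonoidHom.mk' s fun a b => un _ (hs1 _) _ (mul_mem (hs1 _) (hs1 _)) fun v => by
      rw [hs2, LinearEquiv.mul_apply, ← hs2, ← hs2]; group
  have hz : ι (1, 0) = z := by simp [ι, he]
  have : Nontrivial (Fin n → ZMod 2) := by
    have : Nonempty (Fin n) := ⟨⟨0, hn⟩⟩
    infer_instance
  rw [hc] at hQ ⊢
  rw [← hz] at hQ ⊢
  obtain ⟨h1, h2, h3, K, k1, k2, k3, ⟨k4⟩⟩ := Lin.hol ι hι hinj σ hs2 (fun g _ => by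
    obtain ⟨u, hu, m, hm, rfl⟩ := Subgroup.mem_sup_of_normal_left.1 (hUM'.ge (Subgroup.mem_top g))
    obtain ⟨v, rfl⟩ := hs u hu
    let f := (MulAut.conjNormal (H := U) m).toAdditive
    let a := e.trans ((LinearEquiv.ofBijective (f.toAddMonoidHom.toZModLinearMap 2) f.bijective).trans
      e.symm)
    exact ⟨v, a, congrArg _ (un _ hm _ (hs1 a) fun w => Eq.trans (by simp [ι, a, f]) (hs2 a w).symm)⟩) hQ
  have hL := h1.large_of_pCore (CA.FG.Comp.le_pCore (p := 2) inferInstance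
    (IsPGroup.of_card hUcard) (hz ▸ hzU))
  refine ⟨hL.1, by rw [h2]; simp; ring, ⟨U, fun u hu => ?_, hU, hUcard⟩, hL, K, k1, k2, k3,
    ⟨k4.trans (Lin.glEquiv _ _).symm⟩⟩
  obtain ⟨v, rfl⟩ := hs u hu
  exact h3 v

end Cfsg.Agent.S5423
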