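import Cfsg.Statements.S5424
import Cfsg.Agent.Lin.Hol

set_option autoImplicit false
open Cfsg

namespace Cfsg.Agent.S5424

/-- Let G be the special linear group of degree n + 2 over the field with two elements, n ≥ 2, let z be a transvection, and let Q be the largest normal 2-subgroup of the centralizer C of z. Then Q is extraspecial of order 2^(2n+1) with an elementary abelian subgroup of order 2^(n+1) (plus type), Q is a large extraspecial 2-subgroup of G, and C is the split extension of Q by the special linear group of degree n over the field with two elements. -/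
theorem result (n : ℕ) (hn : 2 ≤ n) (z : Matrix.SpecialLinearGroup (Fin (n + 2)) (ZMod 2)) (hz : (z : Matrix (Fin (n + 2)) (Fin (n + 2)) (ZMod 2)) = Matrix.transvection 0 1 1) (Q : Subgroup (Matrix.SpecialLinearGroup (Fin (n + 2)) (ZMod 2))) (hQ : Q = (Cfsg.pCore 2 ↥(Subgroup.centralizer ({z} : Set (Matrix.SpecialLinearGroup (Fin (n + 2)) (ZMod 2))))).map (Subgroup.centralizer ({z} : Set (Matrix.SpecialLinearGroup (Fin (n + 2)) (ZMod 2)))).subtype) : Cfsg.IsExtraspecial 2 ↥Q ∧ Nat.card ↥Q = 2 ^ (2 * n + 1) ∧ (∃ E : Subgroup (Matrix.SpecialLinearGroup (Fin (n + 2)) (ZMod 2)), E ≤ Q ∧ Cfsg.IsElementaryAbelian 2 E ∧ Nat.card ↥E = 2 ^ (n + 1)) ∧ Cfsg.IsLargeExtraspecial Q ∧ ∃ K : Subgroup (Matrix.SpecialLinearGroup (Fin (n + 2)) (ZMod 2)), K ≤ Subgroup.centralizer ({z} : Set (Matrix.SpecialLinearGroup (Fin (n + 2)) (ZMod 2))) ∧ Q ⊓ K = ⊥ ∧ Q ⊔ K = Subgroup.centralizer ({z} : Set (Matrix.SpecialLinearGroup (Fin (n + 2)) (ZMod 2))) ∧ Nonempty (↥K ≃* Matrix.SpecialLinearGroup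 (Fin n) (ZMod 2)) := by
  classical
  let e : (Fin (n + 2) → ZMod 2) ≃ₗ[ZMod 2] ZMod 2 × ZMod 2 × (Fin n → ZMod 2) :=
    { toFun := fun v => (v 1, v 0, fun i => v i.succ.succ)
      invFun := fun x => Fin.cons x.2.1 (Fin.cons x.1 x.2.2)
      map_add' := fun _ _ => rfl
      map_smul' := fun _ _ => rfl
      left_inv := fun v => funext fun i => Fin.cases rfl (fun j => Fin.cases rfl (fun _ => rfl) j) i
      right_inv := fun _ => rfl }
  let c : ((Fin (n + 2) → ZMod 2) ≃ₗ[ZMod 2] (Fin (n + 2) → ZMod 2)) ≃* (_ ≃ₗ[ZMod 2] _) :=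
    { toFun := fun a => e.symm.trans (a.trans e)
      invFun := fun b => e.trans (b.trans e.symm)
      left_inv := fun a => by ext1; simp
      right_inv := fun a => by ext1; simp
      map_mul' := fun a b => by ext1; simp }
  let Φ := (Lin.slEquivTwo (Fin (n + 2))).trans c
  let t : ZMod 2 × (Fin n → ZMod 2) → (ZMod 2 × ZMod 2 × (Fin n → ZMod 2)) ≃ₗ[ZMod 2]
      (ZMod 2 × ZMod 2 × (Fin n → ZMod 2)) := fun w => LinearEquiv.ofInvolutive
    ((LinearMap.fst _ _ _).prod (LinearMap.snd _ _ _ + (LinearMap.fst _ _ _).smulRight w))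
    fun x => by simp [add_assoc, Lin.add_self_two]
  have ht : ∀ w x, t w x = (x.1, x.2 + x.1 • w) := fun _ _ => rfl
  have he : ∀ v, e v = (v 1, v 0, fun i => v i.succ.succ) := fun _ => rfl
  have hΦ : Φ z = t (1, 0) := LinearEquiv.ext fun x => by
    change e (z.1.mulVec (e.symm x)) = _
    rw [hz, ht, Matrix.transvection, Matrix.add_mulVec, Matrix.one_mulVec, map_add,
      e.apply_symm_apply, Matrix.single_mulVec, he, show e.symm x 1 = x.1 from rfl]
    refine Prod.ext ?_ (Prod.ext ?_ (funext fun i => ?_)) <;>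
      simp [Function.update_of_ne (Fin.succ_ne_zero _)]
  have hz' : z = Φ.symm (t (1, 0)) := Φ.eq_symm_apply.2 hΦ
  have hι : ∀ v w, Φ.symm (t (v + w)) = Φ.symm (t v) * Φ.symm (t w) := fun v w => by
    rw [← map_mul]
    exact congrArg _ (LinearEquiv.ext fun x => by simp [ht, add_assoc, add_comm v, add_comm (_ • v)])
  have hinj : Function.Injective fun v => Φ.symm (t v) := fun v w h => by
    simpa [ht] using congrArg (fun a => (a (1, 0)).2) (Φ.symm.injective h)
  have hσ : ∀ a v, Φ.symm (Lin.incl _ _ a) * Φ.symm (t v) * (Φ.symm (Lin.incl _ _ a))⁻¹ =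
      Φ.symm (t (a v)) := fun a v => by
    rw [mul_inv_eq_iff_eq_mul, ← map_mul, ← map_mul]
    exact congrArg _ (LinearEquiv.ext fun x => by simp [ht, Lin.incl_apply])
  have : Nontrivial (Fin n → ZMod 2) := by
    have : Nonempty (Fin n) := ⟨⟨0, by omega⟩⟩
    infer_instance
  rw [hz'] at hQ ⊢
  obtain ⟨h1, h2, h3, K, k1, k2, k3, ⟨k4⟩⟩ := Lin.hol (fun v => Φ.symm (t v)) hι hinj
    (Φ.symm.toMonoidHom.comp (Lin.incl _ _)) hσ (fun g hg => by
      obtain ⟨g, rfl⟩ := Φ.symm.surjective g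
      have hc : ∀ x, x.1 • g (0, 1, 0) = (g x).1 • (0, 1, 0) := fun x => by
        have := LinearEquiv.congr_fun (Φ.symm.injective
          ((map_mul _ _ _).trans (hg.eq.trans (map_mul _ _ _).symm))) x
        simp only [LinearEquiv.mul_apply, ht] at this
        rw [show (x.1, x.2 + x.1 • (1, 0)) = x + x.1 • (0, 1, 0) by simp [Prod.ext_iff], map_add,
          map_smul] at this
        exact add_left_cancel (this.trans (by simp [Prod.ext_iff]))
      have h0 : ∀ y, (g (0, y)).1 = 0 := fun y => by simpa using (hc (0, y)).symm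
      have h1 : (g (1, 0)).1 = 1 := (Lin.zmod2_cases _).resolve_left fun h => by
        simpa [h] using hc (1, 0)
      let L := (LinearMap.snd _ _ _).comp (g.toLinearMap.comp (LinearMap.inr (ZMod 2) (ZMod 2) _))
      have hL : Function.Injective L := (injective_iff_map_eq_zero L).2 fun y hy =>
        congrArg Prod.snd (g.injective (a₁ := (0, y)) (a₂ := 0) (by rw [map_zero]; exact Prod.ext (h0 y) hy))
      refine ⟨(g (1, 0)).2, LinearEquiv.ofInjectiveEndo L hL, (congrArg _ (LinearEquiv.ext fun x => ?_)).trans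
        (map_mul _ _ _)⟩
      rw [show g x = x.1 • g (1, 0) + g (0, x.2) by rw [← map_smul, ← map_add]; simp]
      simp [ht, Lin.incl_apply, Prod.ext_iff, h0, h1, L, add_comm]) hQ
  have h2' : Nat.card Q = 2 ^ (2 * n + 1) := by rw [h2]; simp; ring
  obtain ⟨y, hy⟩ := exists_ne (0 : Fin n → ZMod 2)
  obtain ⟨a, ha⟩ := Lin.exists_equiv_map (v := ((1, 0) : ZMod 2 × (Fin n → ZMod 2))) (w := (0, y))
    (by simp) (by simp [hy])
  have hL := h1.large_of_conj (by
    rw [h2']; exact Nat.pow_lt_pow_right (a := 2) (m := 3) one_lt_two (by omega))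
    (g := Φ.symm (Lin.incl _ _ a)) (by rw [hσ]; exact h3 _) (by
      rw [hσ, ha]; exact fun h => hy (congrArg Prod.snd (hinj h)))
  let f : Multiplicative (ZMod 2 × (Fin n → ZMod 2)) →* _ :=
    MonoidHom.mk' (fun v => Φ.symm (t v.toAdd)) fun v w => hι _ _
  refine ⟨hL.1, h2', ⟨f.range, ?_, ⟨inferInstance, ?_⟩, ?_⟩, hL, K, k1, k2, k3,
    ⟨k4.trans (Lin.slEquivTwo _).symm⟩⟩
  · rintro _ ⟨v, rfl⟩
    exact h3 _
  · rintro _ ⟨v, rfl⟩
    rw [← map_pow, sq, ← map_one f]
    exact congrArg f (Lin.add_self_two v.toAdd)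
  · rw [← Nat.card_congr (MonoidHom.ofInjective (f := f) fun v w h => hinj h).toEquiv]
    simp [pow_succ']

end Cfsg.Agent.S5424
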