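import Cfsg.Statements.S5427
import Cfsg.Agent.Fi.LargeStruct

set_option autoImplicit false
open Cfsg

namespace Cfsg.Agent.S5427

open CA.Fi CA.FG.Comp Subgroup

/-- Let z be an involution of the finite group G whose centralizer C has generalized Fitting subgroup Q, an extraspecial 2-group of width at least 2 (order 2^(2w+1), w ≥ 2). Let K be a subgroup of G such that the subgroup U generated by the K-conjugates of z is abelian and C is generated by the C-conjugates of U. Suppose that either some K-conjugate of z other than z lies in Q, or some element u of U ∩ Q outside the subgroup generated by z has z in the largest normal 2-subgroup of its centralizer. Then G is simple and Q is a large extraspecial 2-subgroup of G. -/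
theorem result {G : Type*} [Group G] [Finite G] (z : G) (hz : orderOf z = 2) (Q : Subgroup G) (hQC : Q ≤ Subgroup.centralizer ({z} : Set G)) (hF : (Cfsg.generalizedFittingSubgroup ↥(Subgroup.centralizer ({z} : Set G))).map (Subgroup.centralizer ({z} : Set G)).subtype = Q) (hQ : Cfsg.IsExtraspecial 2 ↥Q) (w : ℕ) (hw : 2 ≤ w) (hcard : Nat.card ↥Q = 2 ^ (2 * w + 1)) (K U : Subgroup G) (hU : U = Subgroup.closure {x : G | ∃ k ∈ K, x = k * z * k⁻¹}) (hUab : IsMulCommutative ↥U) (hgen : Subgroup.closure {x : G | ∃ c ∈ Subgroup.centralizer ({z} : Set G), ∃ u ∈ U, x = c * u * c⁻¹} = Subgroup.centralizer ({z} : Set G)) (h3 : (∃ k ∈ K, k * z * k⁻¹ ∈ Q ∧ k * z * k⁻¹ ≠ z) ∨ ∃ u ∈ U ⊓ Q, u ∉ Subgroup.zpowers z ∧ (∃ hz' : z ∈ Subgroup.centralizer ({u} : Set G), (⟨z, hz'⟩ : ↥(Subgroup.centralizer ({u} : Set G))) ∈ Cfsg.pCore 2 ↥(Subgroup.centralizer ({u} : Set G)))) : IsSimpleGroup G ∧ Cfsg.IsLargeExtraspecial Q := by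
  have h := LE_of_Fstar hz hF hQ
  have hc : 8 < Nat.card Q := by
    rw [hcard]; exact Nat.pow_lt_pow_right (a := 2) (m := 3) (by norm_num) (by omega)
  have hUM : U ≤ normalClosure ({z} : Set G) := by
    rw [hU, closure_le]
    rintro _ ⟨k, -, rfl⟩
    exact (normalClosure_normal).conj_mem z (subset_normalClosure (Set.mem_singleton z)) k
  have hL : IsLargeExtraspecial Q := by
    rcases h3 with ⟨k, -, hk, hne⟩ | ⟨u, hu, hu', hz', hz2⟩
    · exact h.large_of_conj hc hk hne
    · rw [h.mem_zpowers, not_or] at hu'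
      refine h.large_of_inv hu.2 hu'.1 hu'.2 ?_ ⟨_, hz2, rfl⟩
      have hcomm := CA.FG.abelian_iff_forall.1 hUab
      let S : Subgroup G :=
        { carrier := {x | x ∈ U ∧ x * x = 1}
          one_mem' := ⟨one_mem _, one_mul 1⟩
          mul_mem' := fun {a b} ha hb => ⟨mul_mem ha.1 hb.1, by
            rw [mul_assoc, ← mul_assoc b, hcomm b hb.1 a ha.1, mul_assoc, hb.2, mul_one, ha.2]⟩
          inv_mem' := fun {a} ha => by rw [inv_eq_self_of_sq ha.2]; exact ha }
      have : closure {x : G | ∃ k ∈ K, x = k * z * k⁻¹} ≤ S := by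
        rw [closure_le]
        rintro _ ⟨k, hk, rfl⟩
        exact ⟨hU ▸ subset_closure ⟨k, hk, rfl⟩, (h.conj k).z_sq⟩
      exact (this (hU ▸ hu.1)).2
  refine ⟨h.simple_of hL (eq_Op_of_Fstar hF h.isPGroup) ?_, hL⟩
  rw [← hgen, closure_le]
  rintro _ ⟨c, -, u, hu, rfl⟩
  exact (normalClosure_normal).conj_mem u (hUM hu) c

end Cfsg.Agent.S5427
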