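import Cfsg.Statements.S5428
import Cfsg.Agent.Fi.Pair

set_option autoImplicit false
open Cfsg

namespace Cfsg.Agent.S5428

open CA.Fi CA.FG.Comp Subgroup

/-- Let z be an involution of the finite group G whose centralizer C has generalized Fitting subgroup Q extraspecial (as a 2-group), let A be a subgroup of C of odd order, and let R be the centralizer of A in Q; suppose R has order at least 32, the largest normal subgroup of odd order of the centralizer of the subgroup generated by A and R lies in A, the order of that centralizer is not divisible by 4, and g is an element of G with g z g⁻¹ in R but outside the centre Z of Q. Let M be the subgroup generated by A and the centralizer of A (A is normal in it). Then: the centralizer in M of the subgroup generated by R and A, joined with A, equals the subgroup generated by A and Z; the image of R in M/A is a large extraspecial 2-subgroup of M/A; and g z g⁻¹ is conjugate to z inside the subgroup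 generated by R and the centralizer of A in g Q g⁻¹. -/
theorem result {G : Type*} [Group G] [Finite G] (z : G) (hz : orderOf z = 2) (Q : Subgroup G) (hQC : Q ≤ Subgroup.centralizer ({z} : Set G)) (hF : (Cfsg.generalizedFittingSubgroup ↥(Subgroup.centralizer ({z} : Set G))).map (Subgroup.centralizer ({z} : Set G)).subtype = Q) (hQ : Cfsg.IsExtraspecial 2 ↥Q) (A : Subgroup G) (hA : A ≤ Subgroup.centralizer ({z} : Set G)) (hAodd : Odd (Nat.card ↥A)) (R : Subgroup G) (hR : R = Q ⊓ Subgroup.centralizer (A : Set G)) (hR32 : 32 ≤ Nat.card ↥R) (hO : (Cfsg.oddCore ↥(Subgroup.centralizer ((A ⊔ R : Subgroup G) : Set G))).map (Subgroup.centralizer ((A ⊔ R : Subgroup G) : Set G)).subtype ≤ A) (h4 : ¬ 4 ∣ Nat.card ↥(Subgroup.centralizer ((A ⊔ R : Subgroup G) : Set G))) (g : G) (hgR : g * z * g⁻¹ ∈ R) (hgZ : g * z * g⁻¹ ∉ ((Subgroup.center ↥Q).map Q.subtype)) (M : Subgroup G) (hM : M = Subgroup.centralizer (A : Set G) ⊔ A) [hn : (A.subgroupOf M).Normal] :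 (M ⊓ Subgroup.centralizer ((R ⊔ A : Subgroup G) : Set G)) ⊔ A = A ⊔ ((Subgroup.center ↥Q).map Q.subtype) ∧ Cfsg.IsLargeExtraspecial ((R.subgroupOf M).map (QuotientGroup.mk' (A.subgroupOf M))) ∧ ∃ x ∈ R ⊔ ((Q).map (MulAut.conj g).toMonoidHom ⊓ Subgroup.centralizer (A : Set G)), x * (g * z * g⁻¹) * x⁻¹ = z := by
  have h := LE_of_Fstar hz hF hQ
  have hc : 8 < Nat.card Q := lt_of_lt_of_le (by norm_num) (hR32.trans (card_le_of_le (hR ▸ inf_le_left)))
  rw [h.center_eq] at hgZ ⊢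
  rw [h.mem_zpowers, not_or] at hgZ
  subst hR
  have hp := h.pair hgR.1 (h.mem_conj hc hgR.1) fun e => hgZ.2 e.symm
  set t := g * z * g⁻¹ with ht
  set Q' := Q.map (MulAut.conj g).toMonoidHom with hQ'
  have hzA : z ∈ centralizer (A : Set G) := mem_cent_subgroup_iff.2 fun a ha => (mem_cent_iff.1 (hA ha)).symm
  have hAQ : A ≤ normalizer (Q : Set G) := fun a ha => h.mem_normalizer (mem_cent_iff.1 (hA ha))
  have hAQ' : A ≤ normalizer (Q' : Set G) := fun a ha =>
    hp.right.mem_normalizer (mem_cent_subgroup_iff.1 hgR.2 a ha).symm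
  have e1 := h.cent_odd hAQ hAodd ⟨t, hgR, hgZ.1, hgZ.2⟩
  have e2 := hp.right.cent_odd hAQ' hAodd ⟨z, ⟨hp.z_mem, hzA⟩, h.z_ne, hp.ne⟩
  obtain ⟨s, hs, hst⟩ := e1.exists_not_commute hgR hgZ.1 hgZ.2
  obtain ⟨c, hc1, hcz⟩ := e2.exists_not_commute ⟨hp.z_mem, hzA⟩ h.z_ne hp.ne
  -- the centralizer of `A R`
  have hD : ∀ d : G, (∀ a ∈ A, Commute d a) → (∀ r ∈ Q ⊓ centralizer (A : Set G), Commute d r) →
      d ∈ A ⊔ zpowers z := by
    set D := centralizer ((A ⊔ (Q ⊓ centralizer (A : Set G)) : Subgroup G) : Set G) with hD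
    have mD : ∀ d : G, d ∈ D ↔ (∀ a ∈ A, Commute d a) ∧ ∀ r ∈ Q ⊓ centralizer (A : Set G), Commute d r := by
      intro d
      rw [hD, CA.FG.cent_sup, mem_inf, mem_cent_subgroup_iff, mem_cent_subgroup_iff]
    have hzD : z ∈ D := (mD z).2 ⟨mem_cent_subgroup_iff.1 hzA, e1.z_comm⟩
    have hzc : (⟨z, hzD⟩ : D) ∈ center D := mem_center_iff.2 fun d => Subtype.ext (((mD d).1 d.2).2 z e1.z_mem)
    have hle : zpowers (⟨z, hzD⟩ : D) ≤ center D := (zpowers_le).2 hzc
    haveI : (zpowers (⟨z, hzD⟩ : D)).Normal := normalizer_eq_top_iff.1 (eq_top_iff.2 fun d _ =>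
      mem_normalizer_of_conj fun x hx => by rw [mem_center_iff.1 (hle hx) d, mul_inv_cancel_right]; exact hx)
    have hc2 : Nat.card (zpowers (⟨z, hzD⟩ : D)) = 2 := by rw [Nat.card_zpowers, Subgroup.orderOf_mk, hz]
    have hidx : Odd (zpowers (⟨z, hzD⟩ : D)).index := by
      rw [← Nat.not_even_iff_odd, even_iff_two_dvd]
      intro h2
      apply h4
      rw [← (zpowers (⟨z, hzD⟩ : D)).card_mul_index, hc2]
      exact Nat.mul_dvd_mul_left 2 h2
    obtain ⟨N, hN⟩ := exists_right_complement'_of_coprime (N := zpowers (⟨z, hzD⟩ : D))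
      (by rw [hc2]; exact Nat.coprime_two_left.2 hidx)
    have hNn : N.Normal := by
      rw [← normalizer_eq_top_iff, eq_top_iff, ← hN.sup_eq_top]
      exact sup_le (hle.trans (center_le_normalizer _)) le_normalizer
    have hNo : N ≤ oddCore D := le_sSup ⟨hNn, by
      rw [← hN.symm.index_eq_card]; exact Nat.coprime_two_right.2 hidx⟩
    intro d h1 h2
    obtain ⟨⟨⟨w, hw⟩, ⟨n, hn⟩⟩, e⟩ := hN.2 ⟨d, (mD d).2 ⟨h1, h2⟩⟩
    have e' : (w : G) * n = d := congrArg Subtype.val e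
    rw [← e']
    refine mul_mem (mem_sup_right ?_) (mem_sup_left (hO ⟨n, hNo hn, rfl⟩))
    obtain ⟨k, rfl⟩ := hw
    exact ⟨k, by simp⟩
  have hCM : centralizer (A : Set G) ≤ M := hM ▸ le_sup_left
  refine ⟨le_antisymm (sup_le (fun d hd => ?_) le_sup_left) (sup_le le_sup_right ?_), ?_, ?_⟩
  · have := (mem_inf.1 hd).2
    rw [CA.FG.cent_sup, mem_inf, mem_cent_subgroup_iff, mem_cent_subgroup_iff] at this
    exact hD d this.2 this.1
  · refine (zpowers_le).2 (mem_sup_left (mem_inf.2 ⟨hCM hzA, ?_⟩))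
    rw [CA.FG.cent_sup, mem_inf, mem_cent_subgroup_iff]
    exact ⟨e1.z_comm, hzA⟩
  · set π := QuotientGroup.mk' (A.subgroupOf M) with hπ
    have hπ1 : ∀ x : M, π x = 1 ↔ (x : G) ∈ A := fun x => by
      rw [← mem_subgroupOf]; exact QuotientGroup.eq_one_iff x
    have hsurj : ∀ d, ∃ c : M, (c : G) ∈ centralizer (A : Set G) ∧ π c = d := by
      intro d
      obtain ⟨⟨m, hm⟩, rfl⟩ := QuotientGroup.mk'_surjective _ d
      obtain ⟨c, hc, a, ha, rfl⟩ := mem_sup_of_le_normalizer (centralizer_le_normalizer _) (hM ▸ hm)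
      refine ⟨⟨c, hCM hc⟩, hc, ?_⟩
      rw [← inv_mul_eq_one, ← map_inv, ← map_mul, hπ1]
      simpa using ha
    have hlift : ∀ c r : M, (c : G) ∈ centralizer (A : Set G) → (r : G) ∈ centralizer (A : Set G) →
        (r : G) ^ 4 = 1 → Commute (π c) (π r) → Commute (c : G) r := by
      intro c r hc hr h4 hcr
      rw [← commutatorElement_eq_one_iff_commute, commutatorElement_def, ← map_inv, ← map_inv, ← map_mul,
        ← map_mul, ← map_mul, hπ1] at hcr
      change (c : G) * r * (c : G)⁻¹ * (r : G)⁻¹ ∈ A at hcr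
      have hcm := mem_cent_subgroup_iff.1 hr _ hcr
      rw [← commutatorElement_eq_one_iff_commute, commutatorElement_def]
      refine eq_one_of_odd_of_pow hAodd hcr (k := 2) ?_
      have : ((c : G) * r * (c : G)⁻¹ * (r : G)⁻¹ * r) ^ 4 = 1 := by
        rw [inv_mul_cancel_right, conj_pow, h4]; simp
      rwa [hcm.symm.mul_pow, h4, mul_one] at this
    have gen : ∀ (Q : Subgroup G) (w : G) (hw : CA.Fi.LE Q w) (e : ES (Q ⊓ centralizer (A : Set G)) w),
        ES (((Q ⊓ centralizer (A : Set G)).subgroupOf M).map π) (π ⟨w, hCM e.z_mem.2⟩) ∧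
        ∀ c, Commute c (π ⟨w, hCM e.z_mem.2⟩) → ∀ x ∈ ((Q ⊓ centralizer (A : Set G)).subgroupOf M).map π,
          c * x * c⁻¹ ∈ ((Q ⊓ centralizer (A : Set G)).subgroupOf M).map π := by
      intro Q w hw e
      refine ⟨(e.subgroupOf (inf_le_right.trans hCM)).map π fun x hx h1 =>
        Subtype.ext (eq_one_of_odd_of_two hAodd e.isPGroup ((hπ1 x).1 h1) hx), fun d hd => ?_⟩
      obtain ⟨d, hdA, rfl⟩ := hsurj d
      have := hlift d _ hdA e.z_mem.2 (e.pow_four e.z_mem) hd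
      rintro _ ⟨x, hx, rfl⟩
      refine ⟨d * x * d⁻¹, ⟨hw.norm d this x hx.1, ?_⟩, by simp⟩
      exact (centralizer _).mul_mem ((centralizer _).mul_mem hdA hx.2) ((centralizer _).inv_mem hdA)
    obtain ⟨f1, f2⟩ := gen Q z h e1
    obtain ⟨g1, g2⟩ := gen Q' t hp.right e2
    have hmem : ∀ (Q : Subgroup G) (x : G) (hx : x ∈ Q ⊓ centralizer (A : Set G)),
        π ⟨x, hCM hx.2⟩ ∈ ((Q ⊓ centralizer (A : Set G)).subgroupOf M).map π := fun Q x hx =>
      ⟨⟨x, hCM hx.2⟩, hx, rfl⟩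
    have hL : CA.Fi.LE (((Q ⊓ centralizer (A : Set G)).subgroupOf M).map π) (π ⟨z, hCM hzA⟩) := by
      refine ⟨f1, fun d hd => ?_, f2⟩
      obtain ⟨d, hdA, rfl⟩ := hsurj d
      have := hD d (mem_cent_subgroup_iff.1 hdA) fun r hr =>
        hlift d ⟨r, hCM hr.2⟩ hdA hr.2 (e1.pow_four hr) (hd _ (hmem Q r hr))
      obtain ⟨a, ha, w, hw, e⟩ := mem_sup_of_le_normalizer' ((zpowers_le.2 hzA).trans
        (centralizer_le_normalizer _)) this
      have hw' := e1.zpowers_le hw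
      refine ⟨⟨w, hCM hw'.2⟩, hw', ?_⟩
      rw [eq_comm, ← mul_inv_eq_one, ← map_inv, ← map_mul, hπ1]
      simpa [← e] using ha
    refine hL.large_of_inv (b := π ⟨t, hCM hgR.2⟩) (hmem Q t hgR) g1.z_ne (fun e => hst ?_) g1.z_sq ?_
    · exact (hlift ⟨s, hCM hs.2⟩ ⟨t, hCM hgR.2⟩ hs.2 hgR.2 (e1.pow_four hgR)
        (e ▸ (f1.z_comm _ (hmem Q s hs)).symm)).symm
    · exact le_Op g1.le_cent (le_normalizer_iff.2 fun d hd => g2 d (mem_cent_iff.1 hd)) g1.isPGroup
        (hmem Q' z ⟨hp.z_mem, hzA⟩)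
  · refine ⟨c * s, mul_mem (mem_sup_right hc1) (mem_sup_left hs), ?_⟩
    calc c * s * t * (c * s)⁻¹ = c * (s * t * s⁻¹) * c⁻¹ := by group
      _ = z := by rw [(hp.conj_s hs.1 fun e => hst e.symm).2.1, (hp.conj_c hc1.1 fun e => hcz e.symm).2.2]

end Cfsg.Agent.S5428
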