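import Cfsg.Statements.S5430
import Cfsg.Agent.Fi.Pair

set_option autoImplicit false
open Cfsg

namespace Cfsg.Agent.S5430

open CA.Fi CA.FG.Comp Subgroup

/-- Let Q be a large extraspecial 2-subgroup of the finite group G (extraspecial; centralizer equal to its centre; normal in the centralizer of its centre; normalizing no non-trivial subgroup of odd order) with centre generated by z, an involution, of width w ≥ 2 (order 2^(2w+1)); let g be an element outside the centralizer H of z with g z g⁻¹ in Q; write V for the subgroup generated by z and g z g⁻¹, X for the subgroup generated by Q and g Q g⁻¹, R for the subgroup generated by the centralizer of z in g Q g⁻¹ and the centralizer of g z g⁻¹ in Q, and E for the intersection of Q and g Q g⁻¹. Then R is the centralizer of V in X and is the largest normal 2-subgroup of X, and X/R is isomorphic to the symmetric group of degree 3; moreover the normalizer of V is the product of X and the centralizer of V in H, X is normal in it, and modulo R it is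 the direct product of X/R and of the centralizer of V in H modulo R. -/
theorem result {G : Type*} [Group G] [Finite G] (Q : Subgroup G) (hQ : Cfsg.IsLargeExtraspecial Q) (z : G) (hz : ((Subgroup.center ↥Q).map Q.subtype) = Subgroup.zpowers z) (hz2 : orderOf z = 2) (w : ℕ) (hw : 2 ≤ w) (hcard : Nat.card ↥Q = 2 ^ (2 * w + 1)) (g : G) (hgH : g ∉ Subgroup.centralizer ({z} : Set G)) (hgQ : g * z * g⁻¹ ∈ Q) (V X R E : Subgroup G) (hV : V = Subgroup.closure ({z, g * z * g⁻¹} : Set G)) (hX : X = Q ⊔ (Q).map (MulAut.conj g).toMonoidHom) (hR : R = ((Q).map (MulAut.conj g).toMonoidHom ⊓ Subgroup.centralizer ({z} : Set G)) ⊔ (Q ⊓ Subgroup.centralizer ({g * z * g⁻¹} : Set G))) (hE : E = Q ⊓ (Q).map (MulAut.conj g).toMonoidHom) : R = X ⊓ Subgroup.centralizer (V : Set G) ∧ R = (Cfsg.pCore 2 ↥X).map X.subtype ∧ (∃ h : (R.subgroupOf X).Normal, Nonempty (↥X ⧸ R.subgroupOf X ≃* Equiv.Perm (Fin 3))) ∧ Subgroup.normalizer (V : Set G) = X ⊔ (Subgroup.centralizer ({z} : Set G) ⊓ Subgroup.centralizer (V : Set G)) ∧ (∀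 y ∈ Subgroup.normalizer (V : Set G), ∀ x ∈ X, y * x * y⁻¹ ∈ X) ∧ R ≤ Subgroup.centralizer ({z} : Set G) ⊓ Subgroup.centralizer (V : Set G) ∧ (∀ x ∈ X, ∀ c ∈ Subgroup.centralizer ({z} : Set G) ⊓ Subgroup.centralizer (V : Set G), x * c * x⁻¹ * c⁻¹ ∈ R) ∧ X ⊓ (Subgroup.centralizer ({z} : Set G) ⊓ Subgroup.centralizer (V : Set G)) = R := by
  have h := LE_of_large hQ hz
  have hc : 8 < Nat.card Q := by
    rw [hcard]; exact Nat.pow_lt_pow_right (a := 2) (m := 3) (by norm_num) (by omega)
  have hne : z ≠ g * z * g⁻¹ := fun e => hgH (mem_cent_iff.2 (conj_eq_iff_commute.1 e.symm))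
  have hp := h.pair hgQ (h.mem_conj hc hgQ) hne
  have hC : centralizer ({z} : Set G) ⊓ centralizer (V : Set G) = centralizer (V : Set G) :=
    inf_eq_right.2 fun c hc => mem_cent_iff.2 (mem_cent_pair_iff.1 (hV ▸ hc)).1
  rw [hC]
  subst hV hX hR
  refine ⟨hp.X_inf_cent.symm, hp.R_eq_Op, ⟨hp.normal_R, @Pair.iso_S3 _ _ _ _ _ _ hp hp.normal_R⟩, hp.norm_V,
    fun y hy x hx => conj_mem_of_mem_normalizer (hp.norm_V_le_norm_X hy) hx,
    fun r hr => mem_cent_pair_iff.2 (hp.R_comm hr), fun x hx c hc => ?_, hp.X_inf_cent⟩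
  have := mem_cent_pair_iff.1 hc
  exact hp.commutator_mem_R hx this.1 this.2

end Cfsg.Agent.S5430
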