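import Cfsg.Statements.S5431
import Cfsg.Agent.Fi.Pair

set_option autoImplicit false
open Cfsg

namespace Cfsg.Agent.S5431

open CA.Fi CA.FG.Comp Subgroup

/-- Let Q be a large extraspecial 2-subgroup of the finite group G (extraspecial; centralizer equal to its centre; normal in the centralizer of its centre; normalizing no non-trivial subgroup of odd order) with centre generated by z, an involution, of width w ≥ 2 (order 2^(2w+1)); let g be an element outside the centralizer H of z with g z g⁻¹ in Q; write V for the subgroup generated by z and g z g⁻¹, X for the subgroup generated by Q and g Q g⁻¹, R for the subgroup generated by the centralizer of z in g Q g⁻¹ and the centralizer of g z g⁻¹ in Q, and E for the intersection of Q and g Q g⁻¹. Then V is the centre of R, E lies in the second centre of R, R is nilpotent of class at most 3, E and R/E are elementary abelian, R/E is the direct product of the images of the centralizer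 of g z g⁻¹ in Q and of the centralizer of z in g Q g⁻¹ (R is their product and they meet in E), and the commutator subgroup of X and E lies in V. -/
theorem result {G : Type*} [Group G] [Finite G] (Q : Subgroup G) (hQ : Cfsg.IsLargeExtraspecial Q) (z : G) (hz : ((Subgroup.center ↥Q).map Q.subtype) = Subgroup.zpowers z) (hz2 : orderOf z = 2) (w : ℕ) (hw : 2 ≤ w) (hcard : Nat.card ↥Q = 2 ^ (2 * w + 1)) (g : G) (hgH : g ∉ Subgroup.centralizer ({z} : Set G)) (hgQ : g * z * g⁻¹ ∈ Q) (V X R E : Subgroup G) (hV : V = Subgroup.closure ({z, g * z * g⁻¹} : Set G)) (hX : X = Q ⊔ (Q).map (MulAut.conj g).toMonoidHom) (hR : R = ((Q).map (MulAut.conj g).toMonoidHom ⊓ Subgroup.centralizer ({z} : Set G)) ⊔ (Q ⊓ Subgroup.centralizer ({g * z * g⁻¹} : Set G))) (hE : E = Q ⊓ (Q).map (MulAut.conj g).toMonoidHom) : (Subgroup.center ↥R).map R.subtype = V ∧ E ≤ (Subgroup.upperCentralSeries ↥R 2).map R.subtype ∧ Subgroup.upperCentralSeries ↥R 3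 = ⊤ ∧ Cfsg.IsElementaryAbelian 2 E ∧ (∀ x ∈ R, ∀ y ∈ R, x * y * x⁻¹ * y⁻¹ ∈ E ∧ x ^ 2 ∈ E) ∧ ((Q).map (MulAut.conj g).toMonoidHom ⊓ Subgroup.centralizer ({z} : Set G)) ⊓ (Q ⊓ Subgroup.centralizer ({g * z * g⁻¹} : Set G)) = E ∧ ⁅X, E⁆ ≤ V := by
  have h := LE_of_large hQ hz
  have hc : 8 < Nat.card Q := by
    rw [hcard]; exact Nat.pow_lt_pow_right (a := 2) (m := 3) (by norm_num) (by omega)
  have hne : z ≠ g * z * g⁻¹ := fun e => hgH (mem_cent_iff.2 (conj_eq_iff_commute.1 e.symm))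
  have hp := h.pair hgQ (h.mem_conj hc hgQ) hne
  set t := g * z * g⁻¹ with ht
  set Q' := Q.map (MulAut.conj g).toMonoidHom with hQ'
  have hRX : R ≤ X := hR ▸ hX ▸ Pair.R_le_X _ _ _ _
  have hER : E ≤ R := by rw [hE, ← hp.P_inf_P, hR]; exact inf_le_left.trans le_sup_left
  have hVE : V ≤ E := hV ▸ hE ▸ hp.V_le_E
  have hXE : ∀ x ∈ X, ∀ e ∈ E, x * e * x⁻¹ * e⁻¹ ∈ V := fun x hx e he =>
    hV ▸ hp.commutator_mem_V (hX ▸ hx) (hE ▸ he)
  have hVc : ∀ v ∈ V, ∀ r ∈ R, Commute r v := fun v hv r hr =>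
    mem_cent_subgroup_iff.1 (mem_cent_pair_iff.2 (hp.R_comm (hR ▸ hr))) v (hV ▸ hv)
  have h1 : (center R).map R.subtype = V := by
    ext y
    rw [mem_map_center]
    refine ⟨fun hy => ?_, fun hy => ⟨hER (hVE hy), hVc y hy⟩⟩
    rw [hV, hp.mem_V]
    exact hp.cent_P fun p hp' hpt => (hy.2 p (hR ▸ mem_sup_right ⟨hp', mem_cent_iff.2 hpt⟩)).symm
  have hXn : ∀ x ∈ X, ∀ e ∈ E, x * e * x⁻¹ ∈ E := fun x hx e he => by
    simpa using E.mul_mem (hVE (hXE x hx e he)) he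
  have h2 : ∀ e : R, (e : G) ∈ E → e ∈ Subgroup.upperCentralSeries R 2 := by
    intro e he
    rw [Subgroup.mem_upperCentralSeries_succ_iff]
    intro y
    rw [Subgroup.upperCentralSeries_one, mem_center_iff]
    intro r
    have := V.inv_mem (hXE y (hRX y.2) e he)
    refine Subtype.ext (hVc _ ?_ r r.2)
    simpa [mul_assoc, commutatorElement_def] using this
  have hzE : z ∈ E := hE ▸ ⟨h.z_mem, hp.z_mem⟩
  have htE : t ∈ E := hE ▸ ⟨hgQ, hp.right.z_mem⟩
  -- `R / E` is elementary abelian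
  have h5 : ∀ x ∈ R, ∀ y ∈ R, x * y * x⁻¹ * y⁻¹ ∈ E ∧ x ^ 2 ∈ E := by
    have gen : ∀ S : Subgroup G, Q' ⊓ centralizer ({z} : Set G) ≤ S → Q ⊓ centralizer ({t} : Set G) ≤ S →
        R ≤ S := fun S a b => hR ▸ sup_le a b
    have mk : ∀ y : G, ∃ S : Subgroup G, ∀ x, x ∈ S ↔ x ∈ R ∧ x * y * x⁻¹ * y⁻¹ ∈ E := fun y =>
      ⟨{ carrier := {x | x ∈ R ∧ x * y * x⁻¹ * y⁻¹ ∈ E}
         one_mem' := ⟨one_mem _, by simp⟩
         mul_mem' := fun {a b} ha hb => ⟨mul_mem ha.1 hb.1, by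
           have := mul_mem (hXn a (hRX ha.1) _ hb.2) ha.2
           convert this using 1; group⟩
         inv_mem' := fun {a} ha => ⟨inv_mem ha.1, by
           have := hXn a⁻¹ (hRX (inv_mem ha.1)) _ (inv_mem ha.2)
           convert this using 1; group⟩ }, fun _ => Iff.rfl⟩
    have hl : Q' ⊓ centralizer ({z} : Set G) ≤ R := hR ▸ le_sup_left
    have hr : Q ⊓ centralizer ({t} : Set G) ≤ R := hR ▸ le_sup_right
    have mixed : ∀ x ∈ Q' ⊓ centralizer ({z} : Set G), ∀ y ∈ Q ⊓ centralizer ({t} : Set G),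
        x * y * x⁻¹ * y⁻¹ ∈ E := by
      intro x hx y hy
      rw [hE]
      refine ⟨Q.mul_mem (h.norm x (mem_cent_iff.1 hx.2) y hy.1) (Q.inv_mem hy.1), ?_⟩
      have := Q'.mul_mem hx.1 (hp.right.norm y (mem_cent_iff.1 hy.2) _ (Q'.inv_mem hx.1))
      simpa [mul_assoc] using this
    have flip : ∀ x y : G, x * y * x⁻¹ * y⁻¹ ∈ E → y * x * y⁻¹ * x⁻¹ ∈ E := fun x y hxy => by
      simpa [mul_assoc] using E.inv_mem hxy
    have hcomm : ∀ x ∈ R, ∀ y ∈ R, x * y * x⁻¹ * y⁻¹ ∈ E := by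
      intro x hx y hy
      obtain ⟨S, hS⟩ := mk y
      refine ((hS x).1 (gen S (fun a ha => (hS a).2 ⟨hl ha, flip _ _ ?_⟩)
        (fun a ha => (hS a).2 ⟨hr ha, flip _ _ ?_⟩) hx)).2
      · obtain ⟨S', hS'⟩ := mk a
        refine ((hS' y).1 (gen S' (fun b hb => (hS' b).2 ⟨hl hb, ?_⟩)
          (fun b hb => (hS' b).2 ⟨hr hb, flip _ _ (mixed a ha b hb)⟩) hy)).2
        exact (zpowers_le.2 htE) (hp.right.commutator_mem hb.1 ha.1)
      · obtain ⟨S', hS'⟩ := mk a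
        refine ((hS' y).1 (gen S' (fun b hb => (hS' b).2 ⟨hl hb, mixed b hb a ha⟩)
          (fun b hb => (hS' b).2 ⟨hr hb, ?_⟩) hy)).2
        exact (zpowers_le.2 hzE) (h.commutator_mem hb.1 ha.1)
    intro x hx y hy
    refine ⟨hcomm x hx y hy, ?_⟩
    let S : Subgroup G :=
      { carrier := {x | x ∈ R ∧ x ^ 2 ∈ E}
        one_mem' := ⟨one_mem _, by simp⟩
        mul_mem' := fun {a b} ha hb => ⟨mul_mem ha.1 hb.1, by
          have := mul_mem (mul_mem ha.2 (hcomm _ (inv_mem ha.1) _ hb.1)) hb.2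
          convert this using 1; rw [pow_two, pow_two, pow_two]; group⟩
        inv_mem' := fun {a} ha => ⟨inv_mem ha.1, by rw [inv_pow]; exact inv_mem ha.2⟩ }
    refine (gen S (fun a ha => ⟨hl ha, ?_⟩) (fun a ha => ⟨hr ha, ?_⟩) hx).2
    · rw [pow_two]; exact (zpowers_le.2 htE) (hp.right.mem_zpowers.2 (hp.right.sq ha.1))
    · rw [pow_two]; exact (zpowers_le.2 hzE) (h.mem_zpowers.2 (h.sq ha.1))
  refine ⟨h1, fun e he => ⟨⟨e, hER he⟩, h2 _ he, rfl⟩, ?_, ⟨⟨⟨fun a b => Subtype.ext ?_⟩⟩, fun a ha => ?_⟩, h5,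
    hE ▸ hp.P_inf_P, commutator_le.2 hXE⟩
  · rw [eq_top_iff]
    intro x _
    rw [Subgroup.mem_upperCentralSeries_succ_iff]
    intro y
    exact h2 _ (h5 x x.2 y y.2).1
  · have sq : ∀ e ∈ E, e * e = 1 := fun e he => hp.E_sq (hE ▸ he)
    exact (commute_of_sq_eq_one (sq _ a.2) (sq _ b.2) (by rw [pow_two]; exact sq _ (E.mul_mem a.2 b.2))).eq
  · rw [pow_two]; exact hp.E_sq (hE ▸ ha)

end Cfsg.Agent.S5431
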