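import Cfsg.Statements.S5432
import Cfsg.Agent.Orth.Extra

set_option autoImplicit false
open Cfsg

namespace Cfsg.Agent.S5432

/-- Let E be an extraspecial 2-group of order 2^(2n+1), n ≥ 1. If E contains an elementary abelian subgroup of order 2^(n+1) (plus type), then its outer automorphism group is isomorphic to the full isometry group of the hyperbolic quadratic form in dimension 2n over the field with two elements; otherwise (minus type) it is isomorphic to the full isometry group of the elliptic quadratic form in dimension 2n over that field. -/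
theorem result {E : Type*} [Group E] [Finite E] (hE : Cfsg.IsExtraspecial 2 E) (n : ℕ) (hn : 1 ≤ n) (hcard : Nat.card E = 2 ^ (2 * n + 1)) : ((∃ A : Subgroup E, Cfsg.IsElementaryAbelian 2 A ∧ Nat.card ↥A = 2 ^ (n + 1)) → Nonempty (Cfsg.Out E ≃* Cfsg.isometryGroup (ZMod 2) (Cfsg.quadFormPlus n (ZMod 2)))) ∧ ((¬ ∃ A : Subgroup E, Cfsg.IsElementaryAbelian 2 A ∧ Nat.card ↥A = 2 ^ (n + 1)) → Nonempty (Cfsg.Out E ≃* Cfsg.isometryGroup (ZMod 2) (Cfsg.quadFormMinus (n - 1) (ZMod 2) 1 1))) := by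
  obtain ⟨z, hz⟩ := CA.Fi.exists_ES_top hE
  obtain ⟨V, _, _, Q, π, h⟩ := Orth.exists_model hz
  have : Finite V := Finite.of_surjective _ h.surj
  have h1 : Module.finrank (ZMod 2) V = 2 * n := by
    have h2 := h.card
    rw [hcard, pow_succ', Module.natCard_eq_pow_finrank (K := ZMod 2) (V := V), Nat.card_zmod] at h2
    exact (Nat.pow_right_injective le_rfl (Nat.eq_of_mul_eq_mul_left two_pos h2)).symm
  rcases Orth.classify_two n V Q h.nondeg h1 with ⟨φ, hφ⟩ | ⟨m, rfl, φ, hφ⟩
  · obtain ⟨e⟩ := (h.congr φ hφ).nonempty_out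
    exact ⟨fun _ => ⟨e.trans (Orth.isometryEquiv _ (Orth.hsum_plusEquiv n)).symm⟩,
      fun H => absurd (h.congr φ hφ).exists_elem H⟩
  · obtain ⟨e⟩ := (h.congr φ hφ).nonempty_out
    refine ⟨fun ⟨A, hA, hA'⟩ => ?_,
      fun _ => ⟨e.trans (Orth.isometryEquiv _ (Orth.hsum_minusEquiv 1 1 m)).symm⟩⟩
    have : Fact (∀ r : ZMod 2, r ^ 2 ≠ -1 + 1 * r) := ⟨by decide⟩
    have := (h.congr φ hφ).card_elem_le (fun w hw => Orth.normQ_eq_zero.1 hw) hA
    rw [hA', Nat.pow_le_pow_iff_right (by norm_num)] at this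
    omega

end Cfsg.Agent.S5432
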