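import Cfsg.Statements.S5433
import Cfsg.Agent.Fi.Large

set_option autoImplicit false
open Cfsg

namespace Cfsg.Agent.S5433

open CA.Fi CA.FG.Comp Subgroup

/-- Let Q be a large extraspecial 2-subgroup of the finite group G (extraspecial; centralizer equal to its centre; normal in the centralizer of its centre; normalizing no non-trivial subgroup of odd order), and L a normal subgroup of G containing Q. Then G is the product of L and the normalizer of Q. -/
theorem result {G : Type*} [Group G] [Finite G] (Q : Subgroup G) (hQ : Cfsg.IsLargeExtraspecial Q) (L : Subgroup G) [L.Normal] (hQL : Q ≤ L) : L ⊔ Subgroup.normalizer (Q : Set G) = ⊤ := by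
  haveI : Fact (Nat.Prime 2) := ⟨Nat.prime_two⟩
  obtain ⟨z, h⟩ := exists_LE hQ.1 hQ.2.1 hQ.2.2.1
  obtain ⟨T, hT⟩ := (isPGroup_subgroupOf h.isPGroup L).exists_le_sylow
  have hfr := Sylow.normalizer_sup_eq_top T
  rw [eq_top_iff, ← hfr, sup_comm]
  refine sup_le_sup_left ?_ _
  set T' := (T : Subgroup L).map L.subtype with hT'
  have hQT : Q ≤ T' := fun x hx => ⟨⟨x, hQL hx⟩, hT hx, rfl⟩
  have hp : IsPGroup 2 T' := T.isPGroup'.map _
  haveI : Nontrivial T' := ⟨⟨⟨z, hQT h.z_mem⟩, 1, fun e => h.z_ne (congrArg Subtype.val e)⟩⟩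
  haveI := hp.center_nontrivial
  obtain ⟨⟨c, hc⟩, hc1⟩ := exists_ne (1 : center T')
  have hcen : ∀ w ∈ T', w ≠ 1 → (∀ x ∈ T', Commute w x) → w = z := fun w _ h1 hw =>
    (h.cent' fun x hx => hw x (hQT hx)).resolve_left h1
  have hcz : (c : G) = z := hcen c c.2 (fun e => hc1 (Subtype.ext (Subtype.ext e))) fun x hx =>
    (congrArg Subtype.val (mem_center_iff.1 hc ⟨x, hx⟩)).symm
  have hz : ∀ x ∈ T', Commute z x := fun x hx =>
    hcz ▸ (congrArg Subtype.val (mem_center_iff.1 hc ⟨x, hx⟩)).symm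
  intro n hn
  refine h.mem_normalizer (conj_eq_iff_commute.1 (hcen _ (conj_mem_of_mem_normalizer hn (hQT h.z_mem))
    (fun e => h.z_ne (conj_eq_one_iff.1 e)) fun x hx => ?_))
  rw [commute_conj_left_iff]
  exact hz _ (conj_inv_mem_of_mem_normalizer hn hx)

end Cfsg.Agent.S5433
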