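import Cfsg.Statements.S5434
import Cfsg.Agent.Fi.Large

set_option autoImplicit false
open Cfsg

namespace Cfsg.Agent.S5434

open CA.Fi CA.FG.Comp Subgroup

/-- Let Q be a large extraspecial 2-subgroup of the finite group G (extraspecial; centralizer equal to its centre; normal in the centralizer of its centre; normalizing no non-trivial subgroup of odd order), and A a non-trivial subgroup of odd order of the normalizer of Q. Then Q is the central product of the centralizer of A in Q and the commutator subgroup [Q, A] (they generate Q and commute elementwise), [Q, A] is extraspecial, and the centralizer of A in Q is either the centre of Q or extraspecial. -/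
theorem result {G : Type*} [Group G] [Finite G] (Q : Subgroup G) (hQ : Cfsg.IsLargeExtraspecial Q) (A : Subgroup G) (hA : A ≤ Subgroup.normalizer (Q : Set G)) (hAodd : Odd (Nat.card ↥A)) (hA1 : A ≠ ⊥) : (Q ⊓ Subgroup.centralizer (A : Set G)) ⊔ ⁅Q, A⁆ = Q ∧ (∀ x ∈ Q ⊓ Subgroup.centralizer (A : Set G), ∀ y ∈ ⁅Q, A⁆, x * y = y * x) ∧ Cfsg.IsExtraspecial 2 ↥⁅Q, A⁆ ∧ (Q ⊓ Subgroup.centralizer (A : Set G) = ((Subgroup.center ↥Q).map Q.subtype) ∨ Cfsg.IsExtraspecial 2 ↥(Q ⊓ Subgroup.centralizer (A : Set G))) := by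
  obtain ⟨z, h⟩ := exists_LE hQ.1 hQ.2.1 hQ.2.2.1
  have haz : ∀ a ∈ A, Commute a z := fun a ha => h.commute_of_mem_normalizer (hA ha)
  have hDQ : ⁅Q, A⁆ ≤ Q := commutator_le.2 fun q hq a ha => by
    have := Q.mul_mem hq (conj_mem_of_mem_normalizer (hA ha) (Q.inv_mem hq))
    simpa [commutatorElement_def, mul_assoc] using this
  have hCD : ∀ x ∈ Q ⊓ centralizer (A : Set G), ∀ y ∈ ⁅Q, A⁆, Commute x y := by
    intro x hx y hy
    have : ⁅Q, A⁆ ≤ centralizer ({x} : Set G) := commutator_le.2 fun q hq a ha => by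
      have hm := conj_mem_of_mem_normalizer (hA ha) (Q.inv_mem hq)
      have e : q * a * q⁻¹ * a⁻¹ = q * (a * q⁻¹ * a⁻¹) := by group
      have e2 : a⁻¹ * x * a = x := by rw [mul_assoc, ← hx.2 a ha, inv_mul_cancel_left]
      rw [mem_cent_iff, commutatorElement_def, e, h.mul_commute_iff hq hm hx.1, commute_conj_left_iff, e2,
        Commute.inv_left_iff]
    exact (mem_cent_iff.1 (this hy)).symm
  have hDC : ∀ x ∈ Q, (∀ y ∈ ⁅Q, A⁆, Commute x y) → x ∈ Q ⊓ centralizer (A : Set G) := by
    intro x hx hc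
    refine ⟨hx, mem_cent_subgroup_iff.2 fun a ha => Commute.symm ?_⟩
    refine h.commute_of_odd hAodd (congrArg Subtype.val (pow_card_eq_one' (x := (⟨a, ha⟩ : A)))) (haz a ha) ?_
    have hm := conj_mem_of_mem_normalizer (hA ha) hx
    have := h.cen (x⁻¹ * (a * x * a⁻¹)) (Q.mul_mem (Q.inv_mem hx) hm) fun q hq => by
      have h1 := hc _ (commutator_mem_commutator (Q.inv_mem hq) (A.inv_mem ha))
      have e : q⁻¹ * a⁻¹ * q⁻¹⁻¹ * a⁻¹⁻¹ = q⁻¹ * (a⁻¹ * q * a) := by group
      rw [commutatorElement_def, e, h.commute_mul_iff (Q.inv_mem hq)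
        (conj_inv_mem_of_mem_normalizer (hA ha) hq) hx, Commute.inv_right_iff] at h1
      rw [h.mul_commute_iff (Q.inv_mem hx) hm hq, Commute.inv_left_iff, commute_conj_left_iff, h1]
    rcases this with e | e
    · exact Or.inl (inv_mul_eq_one.1 e).symm
    · right; rw [← e]; group
  have hzC : z ∈ Q ⊓ centralizer (A : Set G) := ⟨h.z_mem, fun a ha => haz a ha⟩
  have hfix : ∀ x ∈ Q ⊓ centralizer (A : Set G), (∀ y ∈ Q ⊓ centralizer (A : Set G), Commute x y) →
      x = 1 ∨ x = z := fun x hx hc =>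
    h.cen_fixed hA hAodd hx.1 (fun a ha => hx.2 a ha) fun y hy hyA => hc y ⟨hy, hyA⟩
  have h1 : (Q ⊓ centralizer (A : Set G)) ⊔ ⁅Q, A⁆ = Q := by
    refine le_antisymm (sup_le inf_le_left hDQ) fun y hy => ?_
    by_contra hyn
    obtain ⟨x, hx, hx1, hx2⟩ := h.exists_commute_not_commute (sup_le inf_le_left hDQ) (mem_sup_left hzC) hy hyn
    rcases hfix x (hDC x hx fun w hw => hx1 w (mem_sup_right hw)) (fun w hw => hx1 w (mem_sup_left hw)) with e | e
    · exact hx2 (e ▸ Commute.one_left y)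
    · exact hx2 (e ▸ h.z_comm y hy)
  refine ⟨h1, fun x hx y hy => hCD x hx y hy, ES.isExtraspecial (z := z) (h.sub hDQ (fun x hx hc => ?_) ?_), ?_⟩
  · exact hfix x (hDC x (hDQ hx) hc) fun y hy => (hCD y hy x hx).symm
  · by_contra! hall
    apply hA1
    rw [eq_bot_iff]
    intro a ha
    refine eq_one_of_odd_of_two hAodd h.isPGroup ha (h.cent a fun q hq => Commute.symm ?_)
    have := hDC q hq fun y hy => by
      by_cases e : y = 1
      · rw [e]; exact Commute.one_right q
      · rw [hall y hy e]; exact (h.z_comm q hq).symm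
    exact mem_cent_subgroup_iff.1 this.2 a ha
  · by_cases hn : ∃ x ∈ Q ⊓ centralizer (A : Set G), x ≠ 1 ∧ x ≠ z
    · exact Or.inr (h.cent_odd hA hAodd hn).isExtraspecial
    · left
      push Not at hn
      rw [h.center_eq]
      refine le_antisymm (fun x hx => h.mem_zpowers.2 ?_) ((zpowers_le).2 hzC)
      by_cases e : x = 1
      · exact Or.inl e
      · exact Or.inr (hn x hx e)

end Cfsg.Agent.S5434
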