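import Cfsg.Statements.S5438
import Cfsg.Agent.Fi.Dihedral

set_option autoImplicit false
open Cfsg

namespace Cfsg.Agent.S5438

open CA.Fi CA.FG.Comp Subgroup

/-- Let z be a 2-central involution of the finite group G (an involution central in some Sylow 2-subgroup) and H a subgroup containing z such that the coset H is the only coset of H fixed by z (in the action of G on the cosets of H). Then H has odd index in G, and for every 2-element x of H the conjugates of x lying in H form a single H-class. -/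
theorem result {G : Type*} [Group G] [Finite G] (z : G) (hz : Cfsg.IsTwoCentralInvolution z) (H : Subgroup G) (hzH : z ∈ H) (hfix : ∀ g : G, g⁻¹ * z * g ∈ H → g ∈ H) : Odd H.index ∧ ∀ x ∈ H, (∃ k : ℕ, orderOf x = 2 ^ k) → ∀ g : G, g * x * g⁻¹ ∈ H → ∃ h ∈ H, h * x * h⁻¹ = g * x * g⁻¹ := by
  haveI : Fact (Nat.Prime 2) := ⟨Nat.prime_two⟩
  obtain ⟨hz2, P, hzP, hP⟩ := hz
  have hPH : (P : Subgroup G) ≤ H := fun x hx => hfix x (by
    rw [mul_assoc, ← hP x hx, inv_mul_cancel_left]; exact hzH)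
  have hodd : Odd H.index := by
    rw [← Nat.not_even_iff_odd, even_iff_two_dvd]
    exact fun h => P.not_dvd_index (h.trans (index_dvd_of_le hPH))
  refine ⟨hodd, fun x hx ⟨k, hk⟩ g hg => ?_⟩
  -- for every coset `a H` fixed by `x` there is a Sylow 2-subgroup of `C(x)` fixing it and only it
  have key : ∀ a : G, a⁻¹ * x * a ∈ H → ∃ T : Sylow 2 (centralizer ({x} : Set G)),
      (∀ t ∈ T, a⁻¹ * (t : G) * a ∈ H) ∧
        ∀ b : G, (∀ t ∈ T, b⁻¹ * (t : G) * b ∈ H) → a⁻¹ * b ∈ H := by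
    intro a ha
    have ho : orderOf (a⁻¹ * x * a) = 2 ^ k := by
      rw [← hk]; exact (orderOf_eq_of_isConj (isConj_iff.2 ⟨a⁻¹, by simp⟩ : IsConj x (a⁻¹ * x * a))).symm
    obtain ⟨h, hh, hhP⟩ := exists_conj_le_sylow_of_le P (isPGroup_zpowers_of_orderOf ho)
      ((zpowers_le).2 ha) hPH
    have hc := hP _ (hhP _ (mem_zpowers _))
    set w := a * h * z * (a * h)⁻¹ with hw
    have hwx : w ∈ centralizer ({x} : Set G) := by
      rw [mem_centralizer_singleton_iff, hw]
      calc a * h * z * (a * h)⁻¹ * x = a * h * (z * (h⁻¹ * (a⁻¹ * x * a) * h)) * (a * h)⁻¹ := by group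
        _ = x * (a * h * z * (a * h)⁻¹) := by rw [← hc]; group
    have hwo : orderOf (⟨w, hwx⟩ : centralizer ({x} : Set G)) = 2 ^ 1 := by
      rw [Subgroup.orderOf_mk, pow_one, ← hz2]
      exact orderOf_cj _ _
    obtain ⟨T, hT⟩ := (isPGroup_zpowers_of_orderOf hwo).exists_le_sylow
    have hwT : (⟨w, hwx⟩ : centralizer ({x} : Set G)) ∈ T := hT (mem_zpowers _)
    have huniq : ∀ b : G, b⁻¹ * w * b ∈ H → a⁻¹ * b ∈ H := by
      intro b hb
      have := hfix ((a * h)⁻¹ * b) (by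
        have e : ((a * h)⁻¹ * b)⁻¹ * z * ((a * h)⁻¹ * b) = b⁻¹ * w * b := by rw [hw]; group
        rwa [e])
      have := H.mul_mem hh this
      have e : h * ((a * h)⁻¹ * b) = a⁻¹ * b := by group
      rwa [e] at this
    refine ⟨T, fun t ht => ?_, fun b hb => huniq b (hb _ hwT)⟩
    obtain ⟨c, hc⟩ := exists_conj_le_sylow P (T.isPGroup'.map (centralizer ({x} : Set G)).subtype)
    have h1 := huniq c (hPH (hc _ ⟨_, hwT, rfl⟩))
    have h2 := hPH (hc _ ⟨_, ht, rfl⟩)
    have := H.mul_mem (H.mul_mem h1 h2) (H.inv_mem h1)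
    have e : a⁻¹ * c * (c⁻¹ * (centralizer ({x} : Set G)).subtype t * c) * (a⁻¹ * c)⁻¹
      = a⁻¹ * t * a := by simp only [coe_subtype]; group
    rwa [e] at this
  obtain ⟨T1, h1, h1'⟩ := key 1 (by simpa using hx)
  obtain ⟨T2, h2, h2'⟩ := key g⁻¹ (by simpa using hg)
  obtain ⟨c, hc⟩ := exists_conj_le_sylow T1 T2.isPGroup'
  have := h2' c (fun t ht => by simpa using h1 _ (hc t ht))
  refine ⟨g * c, by simpa using this, ?_⟩
  have hcx := mem_centralizer_singleton_iff.1 c.2
  calc g * c * x * (g * c)⁻¹ = g * (c * x) * (g * c)⁻¹ := by group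
    _ = g * x * g⁻¹ := by rw [hcx]; group

end Cfsg.Agent.S5438
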