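import Cfsg.Statements.S5435
import Cfsg.Agent.Fi.Thompson
import Cfsg.Agent.Fi.Pair
import Cfsg.Agent.S5438

set_option autoImplicit false
open Cfsg

namespace Cfsg.Agent.S5435

open CA.Fi CA.FG.Comp Subgroup

/-- Let L be a finite non-abelian simple group with an involution z whose centralizer R is a Sylow 2-subgroup of L whose Frattini subgroup is the subgroup generated by z. Then R is dihedral of order 8. -/
theorem result {L : Type*} [Group L] [Finite L] [IsSimpleGroup L] (hL : ¬ IsMulCommutative L) (z : L) (hz : orderOf z = 2) (R : Sylow 2 L) (hR : (R : Subgroup L) = Subgroup.centralizer ({z} : Set L)) (hΦ : (frattini ↥(R : Subgroup L)).map (R : Subgroup L).subtype = Subgroup.zpowers z) : Nonempty (↥(R : Subgroup L) ≃* DihedralGroup 4) := by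
  haveI : Fact (Nat.Prime 2) := ⟨Nat.prime_two⟩
  have hz2 := mul_self_of_orderOf_two hz
  have hz1 := ne_one_of_orderOf_two hz
  have mR : ∀ x, x ∈ (R : Subgroup L) ↔ Commute x z := fun x => by rw [hR, mem_cent_iff]
  have hsq0 : ∀ x, Commute x z → x * x = 1 ∨ x * x = z := fun x hx => by
    rw [← mem_zpowers_iff_of_sq hz2, ← hΦ]
    exact ⟨_, sq_mem_frattini R.isPGroup' ⟨x, (mR x).2 hx⟩, rfl⟩
  have hex0 : ∃ x, Commute x z ∧ x * x = z := by
    by_contra! hall
    have : frattini (R : Subgroup L) ≤ ⊥ := frattini_le_of_sq fun x =>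
      Subtype.ext ((hsq0 x ((mR x).1 x.2)).resolve_right (hall x ((mR x).1 x.2)))
    have h1 : z ∈ (frattini (R : Subgroup L)).map (R : Subgroup L).subtype := hΦ ▸ mem_zpowers z
    rw [le_bot_iff.1 this, Subgroup.map_bot, mem_bot] at h1
    exact hz1 h1
  -- the same for all conjugates of `z`
  have c2 : ∀ t, IsConj z t → t * t = 1 := fun t ht => mul_self_of_orderOf_two (orderOf_eq_of_isConj ht ▸ hz)
  have c1 : ∀ t, IsConj z t → t ≠ 1 := fun t ht => ne_one_of_orderOf_two (orderOf_eq_of_isConj ht ▸ hz)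
  have hsq : ∀ t, IsConj z t → ∀ x, Commute x t → x * x = 1 ∨ x * x = t := by
    intro t ht x hx
    obtain ⟨g, rfl⟩ := isConj_iff.1 ht
    have e : x * x = g * ((g⁻¹ * x * g) * (g⁻¹ * x * g)) * g⁻¹ := by group
    rcases hsq0 (g⁻¹ * x * g) (commute_conj_left_iff.1 hx.symm).symm with e1 | e1 <;> rw [e, e1] <;> simp
  have hex : ∀ t, IsConj z t → ∃ x, Commute x t ∧ x * x = t := by
    intro t ht
    obtain ⟨g, rfl⟩ := isConj_iff.1 ht
    obtain ⟨x, hx, e⟩ := hex0
    exact ⟨g * x * g⁻¹, commute_conj_iff.2 hx, by rw [← e]; group⟩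
  have hsyl : ∀ t, IsConj z t → ∃ P : Sylow 2 L, (P : Subgroup L) = centralizer ({t} : Set L) := by
    intro t ht
    obtain ⟨g, rfl⟩ := isConj_iff.1 ht
    exact ⟨g • R, by rw [← map_conj_cent, ← hR]; rfl⟩
  have huniq : ∀ t t', IsConj z t → IsConj z t' → (∀ x, Commute x t → Commute x t') → t = t' := by
    intro t t' ht ht' h
    obtain ⟨x, hx, e⟩ := hex t ht
    exact e ▸ (hsq t' ht' x (h x hx)).resolve_left (e ▸ c1 t ht)
  have hconj : ∀ t, IsConj z t → ∀ x y, Commute x t → Commute y t → ¬ Commute x y → x * y * x⁻¹ = y * t := by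
    intro t ht x y hx hy hxy
    have m : ∀ w, Commute w t → w * w ∈ zpowers t := fun w hw => (mem_zpowers_iff_of_sq (c2 t ht)).2 (hsq t ht w hw)
    have := mul_mem (mul_mem (inv_mem (m y hy)) (m (y * x) (hy.mul_left hx))) (inv_mem (m x hx))
    have e : (y * y)⁻¹ * (y * x * (y * x)) * (x * x)⁻¹ = y⁻¹ * (x * y * x⁻¹) := by group
    rw [e, mem_zpowers_iff_of_sq (c2 t ht)] at this
    rcases this with e | e
    · exact absurd (conj_eq_iff_commute.1 (inv_mul_eq_one.1 e).symm) hxy
    · rw [← e]; group
  have hmul : ∀ t, IsConj z t → ∀ x y w, Commute x t → Commute y t → Commute w t → ¬ Commute x w →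
      ¬ Commute y w → Commute (x * y) w := by
    intro t ht x y w hx hy hw h1 h2
    rw [← conj_eq_iff_commute]
    calc x * y * w * (x * y)⁻¹ = x * (y * w * y⁻¹) * x⁻¹ := by group
      _ = (x * w * x⁻¹) * (x * t * x⁻¹) := by rw [hconj t ht y w hy hw h2]; group
      _ = w := by rw [hconj t ht x w hx hw h1, conj_eq_iff_commute.2 hx, mul_assoc, c2 t ht, mul_one]
  have hmul' : ∀ t, IsConj z t → ∀ x y w, Commute x t → Commute y t → Commute w t → ¬ Commute w x →
      ¬ Commute w y → Commute w (x * y) := fun t ht x y w hx hy hw h1 h2 =>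
    (hmul t ht x y w hx hy hw (fun e => h1 e.symm) (fun e => h2 e.symm)).symm
  -- fusion in the centre of `C(t)`
  have hfus : ∀ t, IsConj z t → ∀ a h : L, (∀ w, Commute w t → Commute w a) →
      (∀ w, Commute w t → Commute w (h * a * h⁻¹)) → h * a * h⁻¹ = a := by
    intro t ht a h ha hb
    obtain ⟨P, hP⟩ := hsyl t ht
    have ht' : IsConj z (h * t * h⁻¹) := ht.trans (isConj_iff.2 ⟨h, rfl⟩)
    obtain ⟨P', hP'⟩ := hsyl _ ht'
    obtain ⟨k, hk, hk'⟩ := exists_conj_le_sylow_of_le P P'.isPGroup' (H := centralizer ({h * a * h⁻¹} : Set L))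
      (fun w hw => by
        rw [hP', mem_cent_iff, Commute.symm_iff, commute_conj_left_iff] at hw
        rw [mem_cent_iff, Commute.symm_iff, commute_conj_left_iff]
        exact (ha _ hw.symm).symm)
      (fun w hw => mem_cent_iff.2 (hb w (mem_cent_iff.1 (hP ▸ hw))))
    have e := huniq (k⁻¹ * (h * t * h⁻¹) * k⁻¹⁻¹) t (ht'.trans (isConj_iff.2 ⟨k⁻¹, rfl⟩)) ht fun w hw => by
      have := hk' (k * w * k⁻¹) (by
        rw [hP', mem_cent_iff, commute_conj_left_iff]
        rwa [inv_inv] at hw)
      rw [hP, mem_cent_iff] at this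
      simpa [mul_assoc] using this
    have e2 : Commute (k⁻¹ * h) a := ha _ (conj_eq_iff_commute.1 (by rw [← e]; nth_rewrite 1 [e]; group))
    have e3 := conj_eq_iff_commute.2 (mem_cent_iff.1 hk).inv_left
    rw [← e3, ← conj_eq_iff_commute.2 e2]
    nth_rewrite 1 [conj_eq_iff_commute.2 e2]
    group
  have hzz : IsConj z z := IsConj.refl z
  -- `z` is not weakly closed
  have hnw : ∃ t, IsConj z t ∧ Commute t z ∧ t ≠ z := by
    by_contra! hall
    have hfix : ∀ g : L, g⁻¹ * z * g ∈ (R : Subgroup L) → g ∈ (R : Subgroup L) := fun g hg => by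
      have := hall _ (isConj_iff.2 ⟨g⁻¹, by simp⟩) ((mR _).1 hg)
      rw [mR, ← Commute.inv_left_iff, ← conj_eq_iff_commute, inv_inv, this]
    have hf := (Cfsg.Agent.S5438.result z ⟨hz, R, (mR z).2 (Commute.refl z), fun x hx => (mR x).1 hx⟩ R
      ((mR z).2 (Commute.refl z)) hfix).2
    have hfoc : (R : Subgroup L).focalSubgroup ≤ zpowers z := by
      rw [focalSubgroup_def, closure_le]
      rintro _ ⟨h1, x, hx, u, rfl⟩
      obtain ⟨r, hr, e⟩ := hf x⁻¹ (inv_mem hx) ((IsPGroup.iff_orderOf.1 R.isPGroup' ⟨x⁻¹, inv_mem hx⟩).imp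
        fun k hk => by rw [← hk, Subgroup.orderOf_mk]) u (by
          have := (R : Subgroup L).mul_mem (inv_mem hx) h1
          simpa [commutatorElement_def, mul_assoc] using this)
      have e2 : x * u * x⁻¹ * u⁻¹ = x * (r * x⁻¹ * r⁻¹) := by rw [e]; group
      rw [SetLike.mem_coe, commutatorElement_def, e2, mem_zpowers_iff_of_sq hz2]
      by_cases hc : Commute r x⁻¹
      · left; rw [conj_eq_iff_commute.2 hc, mul_inv_cancel]
      · right; rw [hconj z hzz r x⁻¹ ((mR r).1 hr) ((mR x).1 hx).inv_left hc, mul_inv_cancel_left]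
    rw [← commutator_inf_eq_focalSubgroup, Group.isPerfect_def.1 (qs_of_simple inferInstance hL).1,
      top_inf_eq] at hfoc
    obtain ⟨x, hx, e⟩ := hex0
    rcases (mem_zpowers_iff_of_sq hz2).1 (hfoc ((mR x).2 hx)) with rfl | rfl
    · exact hz1 (by simpa using e.symm)
    · exact hz1 (e ▸ hz2)
  have hs : ∀ t t', IsConj z t → IsConj z t' → t ≠ t' → ∃ s, Commute s t ∧ ¬ Commute s t' := by
    intro t t' ht ht' hne
    by_contra! hall
    exact hne (huniq t t' ht ht' hall)
  have hE : ∀ t t', IsConj z t → IsConj z t' → t ≠ t' → ∀ x, Commute x t → Commute x t' → x * x = 1 := by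
    intro t t' ht ht' hne x h1 h2
    rcases hsq t ht x h1 with e | e
    · exact e
    · exact (hsq t' ht' x h2).resolve_right fun e' => hne (e.symm.trans e')
  -- the conjugates of `z` in `C(z) ∩ C(t)`
  have hthree : ∀ t, IsConj z t → Commute t z → t ≠ z → ∀ y, IsConj z y → Commute y z → Commute y t →
      y = z ∨ y = t ∨ y = t * z := by
    intro t ht htz hne y hy hyz hyt
    obtain ⟨s, hsz, hst⟩ := hs z t hzz ht hne.symm
    obtain ⟨c, hct, hcz⟩ := hs t z ht hzz hne
    have cE : ∀ a b, Commute a z → Commute a t → Commute b z → Commute b t → Commute a b :=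
      fun a b h1 h2 h3 h4 => commute_of_sq_eq_one (hE z t hzz ht hne.symm a h1 h2) (hE z t hzz ht hne.symm b h3 h4)
        (by rw [pow_two]; exact hE z t hzz ht hne.symm _ (h1.mul_left h3) (h2.mul_left h4))
    have key : ∀ y, IsConj z y → Commute y z → Commute y t → Commute s y → y = z := by
      intro y hy hyz hyt hsy
      refine (huniq z y hzz hy fun w hw => ?_).symm
      by_cases hwt : Commute w t
      · exact cE w y hw hwt hyz hyt
      · have := cE (s⁻¹ * w) y (hsz.inv_left.mul_left hw)
          (hmul z hzz _ _ _ hsz.inv_left hw htz (by simpa using hst) hwt) hyz hyt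
        simpa using hsy.mul_left this
    by_cases hsy : Commute s y
    · exact Or.inl (key y hy hyz hyt hsy)
    by_cases hcy : Commute c y
    · refine Or.inr (Or.inl (huniq t y ht hy fun w hw => ?_).symm)
      by_cases hwz : Commute w z
      · exact cE w y hwz hw hyz hyt
      · have := cE (c⁻¹ * w) y (hmul t ht _ _ _ hct.inv_left hw htz.symm (by simpa using hcz) hwz)
          (hct.inv_left.mul_left hw) hyz hyt
        simpa using hcy.mul_left this
    · right; right
      have e := hconj t ht c y hct hyt hcy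
      have := key (y * t) (hy.trans (isConj_iff.2 ⟨c, e⟩)) (hyz.mul_left htz) (hyt.mul_left (Commute.refl t))
        (hmul' z hzz _ _ _ hyz htz hsz hsy hst)
      rw [htz.eq, ← this, mul_assoc, c2 t ht, mul_one]
  obtain ⟨t, ht, htz, hne⟩ := hnw
  have cE : ∀ a b, Commute a z → Commute a t → Commute b z → Commute b t → Commute a b :=
    fun a b h1 h2 h3 h4 => commute_of_sq_eq_one (hE z t hzz ht hne.symm a h1 h2) (hE z t hzz ht hne.symm b h3 h4)
      (by rw [pow_two]; exact hE z t hzz ht hne.symm _ (h1.mul_left h3) (h2.mul_left h4))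
  obtain ⟨s, hsz, hst⟩ := hs z t hzz ht hne.symm
  -- the subgroup generated by the conjugates of `z` in `R` meets the centre of `R` in `⟨z⟩`
  have hN : ∃ N : Subgroup L, (∀ y, IsConj z y → Commute y z → y ∈ N) ∧
      ∀ e ∈ N, (∀ w, Commute w z → Commute w e) → e = 1 ∨ e = z := by
    have hV : ∀ e ∈ closure ({z, t} : Set L), (∀ w, Commute w z → Commute w e) → e = 1 ∨ e = z := by
      intro e he hc
      rcases (mem_closure_pair_iff hz2 (c2 t ht) htz.symm).1 he with e1 | e1 | e1 | e1
      · exact Or.inl e1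
      · exact Or.inr e1
      · exact absurd (e1 ▸ hc s hsz) hst
      · have := hc s hsz
        rw [e1] at this
        exact absurd (by simpa using this.mul_right hsz.inv_right) hst
    have hV' : ∀ y, IsConj z y → Commute y z → Commute y t → y ∈ closure ({z, t} : Set L) := fun y h1 h2 h3 =>
      (mem_closure_pair_iff hz2 (c2 t ht) htz.symm).2 (Or.inr (hthree t ht htz hne y h1 h2 h3))
    by_cases h0 : ∃ t', IsConj z t' ∧ Commute t' z ∧ ¬ Commute t' t
    · obtain ⟨t', ht', ht'z, ht't⟩ := h0
      have hne' : t' ≠ z := fun e => ht't (e ▸ htz.symm)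
      refine ⟨closure ({z, t} : Set L) ⊔ zpowers t', fun y hy hyz => ?_, fun e he hc => ?_⟩
      · by_cases hyt : Commute y t
        · exact mem_sup_left (hV' y hy hyz hyt)
        · have h1 := hE z t hzz ht hne.symm (t' * y) (ht'z.mul_left hyz) (hmul z hzz _ _ _ ht'z hyz htz ht't hyt)
          have h2 := commute_of_sq_eq_one (c2 t' ht') (c2 y hy) (by rw [pow_two]; exact h1)
          have hz' : z ∈ closure ({z, t} : Set L) ⊔ zpowers t' := mem_sup_left (subset_closure (by simp))
          rcases hthree t' ht' ht'z hne' y hy hyz h2.symm with e | e | e <;> rw [e]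
          exacts [hz', mem_sup_right (mem_zpowers _), mul_mem (mem_sup_right (mem_zpowers _)) hz']
      · obtain ⟨v, hv, w, hw, rfl⟩ := mem_sup_of_le_normalizer' (H := closure ({z, t} : Set L)) (K := zpowers t')
          ((zpowers_le).2 ((le_normalizer_closure_iff (H := zpowers t')).2 (fun q hq x hx => by
            rw [mem_closure_pair_iff hz2 (c2 t ht) htz.symm]
            rcases (mem_zpowers_iff_of_sq (c2 t' ht')).1 hq with rfl | rfl <;> rcases hx with rfl | rfl
            · simp
            · simp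
            · simp [conj_eq_iff_commute.2 ht'z]
            · simp [hconj z hzz _ _ ht'z htz ht't]) (mem_zpowers t'))) he
        rcases (mem_zpowers_iff_of_sq (c2 t' ht')).1 hw with rfl | rfl
        · rw [mul_one] at hc ⊢; exact hV v hv hc
        · exfalso
          have h1 := hc t htz
          have h2 : Commute t v := mem_cent_subgroup_iff.1 (mem_cent_pair_iff.2 ⟨htz, Commute.refl t⟩) v hv
          exact ht't (by simpa using (h2.inv_right.mul_right h1).symm)
    · push Not at h0
      exact ⟨_, fun y hy hyz => hV' y hy hyz (h0 y hy hyz), hV⟩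
  have hcen : ∀ e, (∀ w, Commute w z → Commute w e) → e = 1 ∨ e = z := by
    intro e he
    obtain ⟨N, hN1, hN2⟩ := hN
    by_contra hne'
    have heN : e ∉ N := fun h => hne' (hN2 e h he)
    have hez : Commute e z := (he z (Commute.refl z)).symm
    have hzN : z ∈ N := hN1 z hzz (Commute.refl z)
    obtain ⟨M, hNM, heM, hM⟩ := exists_index_two (N := N.subgroupOf R) (x := ⟨e, (mR e).2 hez⟩) (fun x => by
      rw [mem_subgroupOf]
      rcases hsq0 x ((mR x).1 x.2) with e1 | e1
      · exact (show ((x * x : (R : Subgroup L)) : L) = 1 from e1) ▸ N.one_mem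
      · exact (show ((x * x : (R : Subgroup L)) : L) = z from e1) ▸ hzN) heN
    have hodd : Odd (R : Subgroup L).index := by
      rw [← Nat.not_even_iff_odd, even_iff_two_dvd]; exact R.not_dvd_index
    obtain ⟨φ, hφ⟩ := thompson_transfer (H := M.map (R : Subgroup L).subtype) hodd
      (by rw [index_map_subtype, hM]) (hE z t hzz ht hne.symm e hez (he t htz).symm) (fun g hg => by
        obtain ⟨⟨x, hxR⟩, hxM, ex⟩ := hg
        change x = g⁻¹ * e * g at ex
        have hg' : IsConj z (g⁻¹ * z * g⁻¹⁻¹) := isConj_iff.2 ⟨g⁻¹, rfl⟩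
        obtain ⟨P, hP⟩ := hsyl _ hg'
        have hcx : ∀ h : L, x = h * e * h⁻¹ → ∀ w, Commute w (h * z * h⁻¹) → Commute w x := by
          intro h eh w hw
          rw [eh, Commute.symm_iff, commute_conj_left_iff]
          exact (he _ (commute_conj_left_iff.1 hw.symm).symm).symm
        obtain ⟨k, hk, hk'⟩ := exists_conj_le_sylow_of_le P (T := (R : Subgroup L) ⊓ centralizer ({x} : Set L))
          R.isPGroup'.to_inf_left (H := centralizer ({x} : Set L)) inf_le_right
          (fun w hw => mem_cent_iff.2 (hcx g⁻¹ (by rw [ex, inv_inv]) w (mem_cent_iff.1 (hP ▸ hw))))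
        set h := k * g⁻¹ with hh
        have eh : x = h * e * h⁻¹ := by
          rw [← conj_eq_iff_commute.2 (mem_cent_iff.1 hk), ex, hh]; group
        have ht1 : IsConj z (h * z * h⁻¹) := isConj_iff.2 ⟨h, rfl⟩
        set t1 := h * z * h⁻¹ with ht1d
        have hT : ∀ w, Commute w z → Commute w x → Commute w t1 := fun w h1 h2 => by
          have := hk' w ⟨(mR w).2 h1, mem_cent_iff.2 h2⟩
          rw [hP, mem_cent_iff, Commute.symm_iff, ← commute_conj_left_iff] at this
          have e1 : t1 = k * (g⁻¹ * z * g⁻¹⁻¹) * k⁻¹ := by rw [ht1d, hh]; group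
          rw [e1]; exact this.symm
        have hxe : x ≠ e := fun e1 => heM (by subst e1; exact hxM)
        have hne1 : t1 ≠ z := fun e1 => hxe (by
          rw [eh]; exact conj_eq_iff_commute.2 (he h (conj_eq_iff_commute.1 e1)))
        have ht1z : Commute t1 z := (hT z (Commute.refl z) ((mR x).1 hxR).symm).symm
        obtain ⟨c, hct, hcz⟩ := hs t1 z ht1 hzz hne1
        have gen : ∀ a, (∀ w, Commute w z → Commute w a) → Commute c a → ∀ w, Commute w t1 → Commute w a := by
          intro a ha hca w hw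
          by_cases hwz : Commute w z
          · exact ha w hwz
          · have := ha _ (hmul t1 ht1 _ _ _ hct.inv_left hw ht1z.symm (by simpa using hcz) hwz)
            simpa using hca.mul_left this
        by_cases hce : Commute c e
        · exact hxe (eh.trans (hfus t1 ht1 e h (gen e he hce) (eh ▸ hcx h eh)))
        · have e1 : h * (e * z) * h⁻¹ = x * t1 := by rw [eh, ht1d]; group
          have := hfus t1 ht1 (e * z) h (gen _ (fun w hw => (he w hw).mul_right hw)
            (hmul' t1 ht1 _ _ _ (he t1 ht1z).symm ht1z.symm hct hce hcz))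
            (fun w hw => e1 ▸ (hcx h eh w hw).mul_right hw)
          rw [e1] at this
          apply heM
          have m1 : (⟨t1, (mR _).2 ht1z⟩ : (R : Subgroup L)) ∈ M := hNM (hN1 t1 ht1 ht1z)
          have m2 : (⟨z, (mR _).2 (Commute.refl z)⟩ : (R : Subgroup L)) ∈ M := hNM hzN
          have m3 := M.mul_mem (M.mul_mem hxM m1) (M.inv_mem m2)
          convert m3 using 1
          apply Subtype.ext
          simp [this])
    rw [no_sign_of_simple hL φ e] at hφ
    exact absurd hφ (by decide)
  have hES : ES (R : Subgroup L) z :=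
    ⟨(mR z).2 (Commute.refl z), hz1, hz2, fun x hx => ((mR x).1 hx).symm,
      fun x hx hc => hcen x fun w hw => (hc w ((mR w).2 hw)).symm, fun x hx y hy => by
        by_cases hc : Commute x y
        · exact Or.inl hc
        · right
          rw [mul_assoc, ((mR x).1 hx).eq, ← mul_assoc, ← hconj z hzz x y ((mR x).1 hx) ((mR y).1 hy) hc]
          group, ⟨t, (mR t).2 htz, c1 t ht, hne⟩⟩
  exact hES.iso_D8 ((mR t).2 htz) (c1 t ht) hne (c2 t ht) fun x hx y hy h1 h2 =>
    cE x y ((mR x).1 hx) h1 ((mR y).1 hy) h2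

end Cfsg.Agent.S5435
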