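import Cfsg.Statements.S5436
import Cfsg.Agent.Fi.LargeStruct

set_option autoImplicit false
open Cfsg

namespace Cfsg.Agent.S5436

open CA.Fi CA.FG.Comp Subgroup

/-- Let z be an involution of the finite group G with centralizer H whose generalized Fitting subgroup Q is extraspecial of width at least 2 (order 2^(2w+1), w ≥ 2); suppose some conjugate of z other than z lies in Q, H/Q is a non-abelian simple group, H acts irreducibly by conjugation on Q modulo the subgroup generated by z (the only H-invariant subgroups of Q containing z are that subgroup and Q), and Q is not the subgroup generated by the conjugates of z lying in H. Then G is simple. -/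
theorem result {G : Type*} [Group G] [Finite G] (z : G) (hz : orderOf z = 2) (Q : Subgroup (Subgroup.centralizer ({z} : Set G))) [Q.Normal] (hF : Cfsg.generalizedFittingSubgroup ↥(Subgroup.centralizer ({z} : Set G)) = Q) (hQ : Cfsg.IsExtraspecial 2 ↥Q) (w : ℕ) (hw : 2 ≤ w) (hcard : Nat.card ↥Q = 2 ^ (2 * w + 1)) (hnwc : ∃ g : G, (∃ hq : g * z * g⁻¹ ∈ Subgroup.centralizer ({z} : Set G), (⟨g * z * g⁻¹, hq⟩ : Subgroup.centralizer ({z} : Set G)) ∈ Q) ∧ g * z * g⁻¹ ≠ z) (hsimp : IsSimpleGroup (↥(Subgroup.centralizer ({z} : Set G)) ⧸ Q)) (hna : ¬ IsMulCommutative (↥(Subgroup.centralizer ({z} : Set G)) ⧸ Q)) (hirr : ∀ W : Subgroup (Subgroup.centralizer ({z} : Set G)), W.Normal → W ≤ Q → (W = Q ∨ ∀ x ∈ W, (x : G) ∈ Subgroup.zpowers z)) (hwcl : Subgroup.closure {x : Subgroup.centralizer ({z} : Set G) | IsConj z (x : G)} ≠ Q) : IsSimpleGroup G := by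
  let C := centralizer ({z} : Set G)
  obtain ⟨z', hz'⟩ := exists_ES hQ
  have hQ' : IsExtraspecial 2 (Q.map C.subtype) := (hz'.map C.subtype fun x _ e => Subtype.ext e).isExtraspecial
  have hF' : (generalizedFittingSubgroup C).map C.subtype = Q.map C.subtype := by rw [hF]
  have h := LE_of_Fstar hz hF' hQ'
  have hc : 8 < Nat.card (Q.map C.subtype) := by
    rw [card_map_of_injective C.subtype_injective, hcard]
    exact Nat.pow_lt_pow_right (a := 2) (m := 3) (by norm_num) (by omega)
  obtain ⟨g, ⟨hq, hgQ⟩, hne⟩ := hnwc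
  refine h.simple_of (h.large_of_conj hc ⟨_, hgQ, rfl⟩ hne) (eq_Op_of_Fstar hF' h.isPGroup) ?_
  set W := closure {x : C | IsConj z (x : G)} with hW
  haveI hWn : W.Normal := by
    refine ⟨fun x hx c => ?_⟩
    have : W ≤ W.comap (MulAut.conj c).toMonoidHom := by
      rw [hW, closure_le]
      intro y hy
      exact subset_closure ((show IsConj z (y : G) from hy).trans (isConj_iff.2 ⟨c, rfl⟩))
    exact this hx
  have hQW : Q ≤ W := by
    rcases hirr (W ⊓ Q) inferInstance inf_le_right with e | e
    · exact e ▸ inf_le_left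
    · have := e ⟨_, hq⟩ ⟨subset_closure (isConj_iff.2 ⟨g, rfl⟩ : IsConj z _), hgQ⟩
      exact absurd ((h.mem_zpowers.1 this).resolve_left (h.conj g).z_ne) hne
  have hWt : W = ⊤ := by
    rcases (hWn.map (QuotientGroup.mk' Q) (QuotientGroup.mk'_surjective Q)).eq_bot_or_eq_top with e | e
    · rw [Subgroup.map_eq_bot_iff, QuotientGroup.ker_mk'] at e
      exact absurd (le_antisymm e hQW) hwcl
    · have := congrArg (comap (QuotientGroup.mk' Q)) e
      rwa [comap_map_eq, QuotientGroup.ker_mk', comap_top, sup_eq_left.2 hQW] at this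
  have : W ≤ (normalClosure ({z} : Set G)).comap C.subtype := by
    rw [hW, closure_le]
    intro y hy
    obtain ⟨k, hk⟩ := isConj_iff.1 (show IsConj z (y : G) from hy)
    change (y : G) ∈ normalClosure ({z} : Set G)
    rw [← hk]
    exact (normalClosure_normal).conj_mem z (subset_normalClosure (Set.mem_singleton z)) k
  exact fun x hx => this (hWt ▸ mem_top (⟨x, hx⟩ : C))

end Cfsg.Agent.S5436
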