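import Cfsg.Statements.S5437
import Cfsg.Agent.Fi.Dihedral

set_option autoImplicit false
open Cfsg

namespace Cfsg.Agent.S5437

open CA.Fi CA.FG.Comp Subgroup

/-- Let I be a set of involutions of the finite group G closed under conjugation, and H a subgroup of G. The following are equivalent: (1) for every member x of I lying in H, the conjugates of x lying in H form a single H-class and the centralizer of x lies in H; (2) for every g outside H, no member of I lies in both H and g H g⁻¹; (3) every member of I lying in H fixes exactly one coset in the action of G on the cosets of H. -/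
theorem result {G : Type*} [Group G] [Finite G] (I : Set G) (hI : ∀ x ∈ I, orderOf x = 2) (hIc : ∀ g : G, ∀ x ∈ I, g * x * g⁻¹ ∈ I) (H : Subgroup G) : ((∀ x ∈ I, x ∈ H → (∀ g : G, g * x * g⁻¹ ∈ H → ∃ h ∈ H, h * x * h⁻¹ = g * x * g⁻¹) ∧ Subgroup.centralizer ({x} : Set G) ≤ H) ↔ (∀ g : G, g ∉ H → ∀ x ∈ I, ¬ (x ∈ H ∧ x ∈ (H : Subgroup G).map (MulAut.conj g).toMonoidHom))) ∧ ((∀ g : G, g ∉ H → ∀ x ∈ I, ¬ (x ∈ H ∧ x ∈ (H : Subgroup G).map (MulAut.conj g).toMonoidHom)) ↔ ∀ x ∈ I, x ∈ H → ∃! c : G ⧸ H, x • c = c) := by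
  constructor
  · constructor
    · rintro h g hg x hx ⟨hxH, hxg⟩
      rw [mem_map_conj] at hxg
      obtain ⟨h1, h2⟩ := h x hx hxH
      obtain ⟨k, hk, e⟩ := h1 g⁻¹ (by simpa using hxg)
      have : g * k ∈ centralizer ({x} : Set G) := by
        rw [mem_centralizer_singleton_iff]
        calc g * k * x = g * (k * x * k⁻¹) * k := by group
          _ = x * (g * k) := by rw [e]; group
      have := H.mul_mem (h2 this) (H.inv_mem hk)
      exact hg (by simpa using this)
    · intro h x hx hxH
      refine ⟨fun g hg => ⟨g, ?_, rfl⟩, fun c hc => ?_⟩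
      · by_contra hgH
        refine h g⁻¹ (by simpa using hgH) x hx ⟨hxH, ?_⟩
        rw [mem_map_conj]; simpa using hg
      · by_contra hcH
        refine h c hcH x hx ⟨hxH, ?_⟩
        rw [mem_map_conj]
        rw [mem_centralizer_singleton_iff] at hc
        rwa [mul_assoc, ← hc, inv_mul_cancel_left]
  · constructor
    · intro h x hx hxH
      rw [existsUnique_coset_iff hxH]
      intro g hg
      by_contra hgH
      exact h g hgH x hx ⟨hxH, mem_map_conj.2 hg⟩
    · rintro h g hg x hx ⟨hxH, hxg⟩
      exact hg ((existsUnique_coset_iff hxH).1 (h x hx hxH) g (mem_map_conj.1 hxg))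

end Cfsg.Agent.S5437
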