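import Cfsg.Statements.S5439
import Cfsg.Agent.Fi.Dihedral

set_option autoImplicit false
open Cfsg

namespace Cfsg.Agent.S5439

open CA.Fi CA.FG.Comp Subgroup

/-- Let I and J be two different conjugacy classes of involutions of the finite group G and H a subgroup such that every member of I ∪ J fixes exactly one coset in the action on the cosets of H, and such that for every a in I ∩ H and every b in (I ∪ J) ∩ H different from a and commuting with it, the centralizer of a b lies in H. Then H = G. -/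
theorem result {G : Type*} [Group G] [Finite G] (I J : Set G) (a₀ b₀ : G) (ha₀ : orderOf a₀ = 2) (hb₀ : orderOf b₀ = 2) (hI : I = {x | IsConj a₀ x}) (hJ : J = {x | IsConj b₀ x}) (hIJ : I ≠ J) (H : Subgroup G) (hfix : ∀ x ∈ I ∪ J, ∃! c : G ⧸ H, x • c = c) (hcent : ∀ a ∈ I, a ∈ H → ∀ b ∈ I ∪ J, b ∈ H → a ≠ b → a * b = b * a → Subgroup.centralizer ({a * b} : Set G) ≤ H) : H = ⊤ := by
  subst hI hJ
  by_contra hH
  obtain ⟨c, hc, -⟩ := hfix a₀ (Or.inl (IsConj.refl _))
  obtain ⟨g, rfl⟩ := QuotientGroup.mk_surjective c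
  rw [smul_coset_eq_iff] at hc
  set a := g⁻¹ * a₀ * g with ha
  have haI : IsConj a₀ a := isConj_iff.2 ⟨g⁻¹, by simp [ha]⟩
  have hb : ∃ b, IsConj b₀ b ∧ b ∉ H := by
    by_contra! hall
    have hb0 := hall b₀ (IsConj.refl _)
    have := (existsUnique_coset_iff hb0).1 (hfix b₀ (Or.inr (IsConj.refl _)))
    exact hH (eq_top_iff.2 fun x _ => this x (hall _ (isConj_iff.2 ⟨x⁻¹, by simp⟩)))
  obtain ⟨b, hbJ, hbH⟩ := hb
  have ha2 : a * a = 1 := mul_self_of_orderOf_two (orderOf_eq_of_isConj haI ▸ ha₀)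
  have hb2 : b * b = 1 := mul_self_of_orderOf_two (orderOf_eq_of_isConj hbJ ▸ hb₀)
  have hnc : ¬ IsConj a b := by
    intro h
    apply hIJ
    have h0 : IsConj a₀ b₀ := (haI.trans h).trans hbJ.symm
    ext x
    exact ⟨fun hx => h0.symm.trans hx, fun hx => h0.trans hx⟩
  obtain ⟨k, hk, hk1⟩ := dih_exists_of_even (dih_even_of_not_isConj ha2 hb2 hnc)
  obtain ⟨c1, c2⟩ := dih_commute ha2 hb2 hk
  set u := (a * b) ^ k with hu
  have huH : u ∈ H := (existsUnique_coset_iff hc).1 (hfix a (Or.inl haI)) u (by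
    rw [mul_assoc, c1.eq, inv_mul_cancel_left]; exact hc)
  have hau : a * u ∈ {x | IsConj a₀ x} ∪ {x | IsConj b₀ x} := by
    rcases dih_isConj_or ha2 hb2 k with h | h
    · exact Or.inl (haI.trans h)
    · exact Or.inr (hbJ.trans h)
  have := hcent a haI hc (a * u) hau (H.mul_mem hc huH) (fun h => hk1 (by simpa using h))
    (by rw [mul_assoc a u a, ← c1.eq])
  rw [← mul_assoc, ha2, one_mul] at this
  exact hbH (this (mem_centralizer_singleton_iff.2 c2.eq))

end Cfsg.Agent.S5439
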