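import Cfsg.Statements.S5440
import Cfsg.Agent.U6.Orb

set_option autoImplicit false
open Cfsg

namespace Cfsg.Agent.S5440

open CA.U6 CA.Fi in

/-- Let G be a finite group of large Fischer type at the involution z: the generalized Fitting subgroup Q of H = C_G(z) is extraspecial of order 2^13, H has normal subgroups Q ≤ H₁ ≤ H₂ with H₁/Q of order 3, H₂/H₁ the projective special unitary group of dimension 4 over the field with nine elements and H₂ of index 2 in H, and some conjugate of z other than z lies in Q. Then H has exactly two orbits, under conjugation, on the involutions of Q other than z. -/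
theorem result {G : Type*} [Group G] [Finite G] (z : G) (Q : Subgroup (Subgroup.centralizer ({z} : Set G))) [Q.Normal] (hF : Cfsg.IsOfLargeFischerTypeAt z Q) : ∃ s t : Subgroup.centralizer ({z} : Set G), s ∈ Q ∧ t ∈ Q ∧ orderOf s = 2 ∧ orderOf t = 2 ∧ (s : G) ≠ z ∧ (t : G) ≠ z ∧ (¬ ∃ h : Subgroup.centralizer ({z} : Set G), h * s * h⁻¹ = t) ∧ ∀ x : Subgroup.centralizer ({z} : Set G), x ∈ Q → orderOf x = 2 → (x : G) ≠ z → (∃ h : Subgroup.centralizer ({z} : Set G), h * s * h⁻¹ = x) ∨ ∃ h : Subgroup.centralizer ({z} : Set G), h * t * h⁻¹ = x := by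
  obtain ⟨π, ρ, h⟩ := exists_GS hF
  have key : ∀ {x}, x ∈ Q → (π x ∈ cs 31 ↔ orderOf x = 2 ∧ (x : G) ≠ z) := fun hx => by
    rw [h.mem_cs31 hx, orderOf_eq_prime_iff, sq, and_assoc, Ne, Ne, Subtype.ext_iff (a2 := ⟨z, _⟩)]
  obtain ⟨s, hs, es⟩ := h.surj (vec 63)
  obtain ⟨t, ht, et⟩ := h.surj (vec 126)
  have h1 : π s ∈ cs 5 := es ▸ vec63_mem
  have h2 : π t ∈ cs 26 := et ▸ vec126_mem
  have h3 := (key hs).1 (cs_subset (by norm_num) h1)
  have h4 := (key ht).1 (cs_subset (by norm_num) h2)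
  refine ⟨s, t, hs, ht, h3.1, h4.1, h3.2, h4.2, fun ⟨g, e⟩ => (mem_cs26.1 h2).2 ?_, fun x hx o ne => ?_⟩
  · rw [← e, h.act g hs]
    exact h.map_cs5 g h1
  · by_cases h5 : π x ∈ cs 5
    · exact .inl (h.exists_conj5 hs hx h1 h5)
    · exact .inr (h.exists_conj26 ht hx h2 (mem_cs26.2 ⟨(key hx).2 ⟨o, ne⟩, h5⟩))

end Cfsg.Agent.S5440
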