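import Cfsg.Statements.S5442
import Cfsg.Agent.U6.Orb

set_option autoImplicit false
open Cfsg

namespace Cfsg.Agent.S5442

open CA.U6 CA.Fi CA.FG Subgroup in

/-- Let G be a finite group of large Fischer type at the involution z: the generalized Fitting subgroup Q of H = C_G(z) is extraspecial of order 2^13, H has normal subgroups Q ≤ H₁ ≤ H₂ with H₁/Q of order 3, H₂/H₁ the projective special unitary group of dimension 4 over the field with nine elements and H₂ of index 2 in H, and some conjugate of z other than z lies in Q. Let s = g z g⁻¹ be a conjugate of z lying in Q and different from z. Then the intersection of Q and g Q g⁻¹ (as subgroups of G) is elementary abelian of order 2^7; and in H/Q, writing X for the image of the centralizer of s in H and E for the image of the intersection of g Q g⁻¹ with H, E is a normal subgroup of X, elementary abelian of order 32, with X/E isomorphic to the alternating group of degree 6. -/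
theorem result {G : Type*} [Group G] [Finite G] (z : G) (Q : Subgroup (Subgroup.centralizer ({z} : Set G))) [Q.Normal] (hF : Cfsg.IsOfLargeFischerTypeAt z Q) (s : G) (hsQ : ∃ hsc : s ∈ Subgroup.centralizer ({z} : Set G), (⟨s, hsc⟩ : Subgroup.centralizer ({z} : Set G)) ∈ Q) (hs : IsConj z s) (hs1 : s ≠ z) (g : G) (hg : g * z * g⁻¹ = s) (X E : Subgroup ((Subgroup.centralizer ({z} : Set G)) ⧸ Q)) (hX : X = ((Subgroup.centralizer ({z} : Set G) ⊓ Subgroup.centralizer ({s} : Set G)).subgroupOf (Subgroup.centralizer ({z} : Set G))).map (QuotientGroup.mk' Q)) (hE : E = ((((Q.map (Subgroup.centralizer ({z} : Set G)).subtype)).map (MulAut.conj g).toMonoidHom ⊓ Subgroup.centralizer ({z} : Set G)).subgroupOf (Subgroup.centralizer ({z} : Set G))).map (QuotientGroup.mk' Q)) : Cfsg.IsElementaryAbelian 2 ((Q.map (Subgroup.centralizer ({z} : Set G)).subtype) ⊓ ((Q.map (Subgroup.centralizer ({z} : Set G)).subtype)).map (MulAut.conj g).toMonoidHom) ∧ Nat.card ↥((Q.map (Subgroup.centralizer ({z} : Set G)).subtype)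 ⊓ ((Q.map (Subgroup.centralizer ({z} : Set G)).subtype)).map (MulAut.conj g).toMonoidHom) = 2 ^ 7 ∧ E ≤ X ∧ (∀ x ∈ X, ∀ y ∈ E, x * y * x⁻¹ ∈ E) ∧ Cfsg.IsElementaryAbelian 2 E ∧ Nat.card E = 32 ∧ ∃ _ : (E.subgroupOf X).Normal, Nonempty (↥X ⧸ E.subgroupOf X ≃* alternatingGroup (Fin 6)) := by
  obtain ⟨π, ρ, h⟩ := exists_GS hF
  obtain ⟨hsc, hsQ⟩ := hsQ
  have p := h.ps hsQ (fun e => hs1 (congrArg Subtype.val e)) hg
  set P := (Q.map (centralizer ({z} : Set G)).subtype :^ g).comap (centralizer ({z} : Set G)).subtype with hP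
  have eE : E = P.map (QuotientGroup.mk' Q) := by rw [hE, inf_subgroupOf_right]; rfl
  have eX : X = (centralizer {⟨s, hsc⟩}).map (QuotientGroup.mk' Q) := by
    rw [hX, inf_subgroupOf_left]
    exact congrArg _ (Subgroup.ext fun x => mem_cent_iff.trans ((h.comm_iff (b := ⟨s, hsc⟩)).trans mem_cent_iff.symm))
  have eI : Q.map (centralizer ({z} : Set G)).subtype ⊓ Q.map (centralizer ({z} : Set G)).subtype :^ g =
      (Q ⊓ P).map (centralizer ({z} : Set G)).subtype := by
    rw [map_inf _ _ _ h.inj, hP, map_comap_eq, ← inf_assoc, inf_eq_left.2 (map_le_range _ _)]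
  have ab : ∀ {Y : Type _} [Group Y] (A : Subgroup Y), (∀ a ∈ A, a * a = 1) → IsElementaryAbelian 2 A :=
    fun A H => ⟨⟨⟨fun a b => Subtype.ext (commute_of_sq (H _ a.2) (H _ b.2) (H _ (a * b).2))⟩⟩,
      fun a ha => (pow_two a).trans (H a ha)⟩
  obtain ⟨k, e⟩ := h.exists_eq hsQ (.inr ⟨h.mem26 p, vec126_mem⟩)
  have cE : Nat.card (P.map (QuotientGroup.mk' Q)) = 32 := by
    have h1 := card_map_mul_card_inf_ker P (QuotientGroup.mk' Q)
    rw [QuotientGroup.ker_mk', h.card_inf p, p.card] at h1
    omega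
  subst eE eX
  have := FS.E_normal p (QuotientGroup.mk' Q)
  refine ⟨?_, ?_, FS.E_le p _, FS.E_conj p _, ab _ ?_, cE, this,
    (h.toFS.conj k).quot_A6 p e _ (QuotientGroup.ker_mk' Q)⟩
  · refine eI ▸ ab _ ?_
    rintro _ ⟨x, hx, rfl⟩
    rw [← map_mul, h.inf_sq p hx, map_one]
  · rw [← conjg_def, eI, card_map_of_injective h.inj, h.card_inf p]
  · rintro _ ⟨x, hx, rfl⟩
    rcases p.sq x hx with e | e <;> rw [← map_mul, e]
    exacts [map_one _, (QuotientGroup.eq_one_iff _).2 hsQ]

end Cfsg.Agent.S5442
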