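import Cfsg.Statements.S5443
import Cfsg.Agent.U6.E6

set_option autoImplicit false
open Cfsg

namespace Cfsg.Agent.S5443

open CA.U6 CA.Fi Cfsg.Agent.Orth in

/-- Let G be a finite group of large Fischer type at the involution z: the generalized Fitting subgroup Q of H = C_G(z) is extraspecial of order 2^13, H has normal subgroups Q ≤ H₁ ≤ H₂ with H₁/Q of order 3, H₂/H₁ the projective special unitary group of dimension 4 over the field with nine elements and H₂ of index 2 in H, and some conjugate of z other than z lies in Q. Let t be an involution of Q not conjugate to z in G, and S the set of elements of H conjugating t to t or to t z (the stabilizer of the image of t in Q modulo its centre). Then the image of S in H/Q is isomorphic to the full isometry group of the elliptic quadratic form in dimension 6 over the field with two elements. -/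
theorem result {G : Type*} [Group G] [Finite G] (z : G) (Q : Subgroup (Subgroup.centralizer ({z} : Set G))) [Q.Normal] (hF : Cfsg.IsOfLargeFischerTypeAt z Q) (t : Subgroup.centralizer ({z} : Set G)) (htQ : t ∈ Q) (ht2 : orderOf t = 2) (ht : ¬ IsConj z (t : G)) (S : Subgroup (Subgroup.centralizer ({z} : Set G))) (hS : ∀ h : Subgroup.centralizer ({z} : Set G), h ∈ S ↔ (h * t * h⁻¹ = t ∨ ((h * t * h⁻¹ : Subgroup.centralizer ({z} : Set G)) : G) = t * z)) : Nonempty (↥(S.map (QuotientGroup.mk' Q)) ≃* Cfsg.isometryGroup (ZMod 2) (Cfsg.quadFormMinus 2 (ZMod 2) 1 1)) := by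
  obtain ⟨π, ρ, h⟩ := exists_GS hF
  have h1 := orderOf_eq_prime_iff.1 ht2
  have hne : t ≠ ⟨z, mem_cent_iff.2 (Commute.refl z)⟩ := fun e => ht (e ▸ IsConj.refl z)
  have h5 : π t ∈ cs 5 := by
    by_contra H
    exact ht ((h.conj_iff htQ hne).2 (mem_cs26.2 ⟨(h.mem_cs31 htQ).2 ⟨(pow_two t).symm.trans h1.1, h1.2, hne⟩, H⟩))
  obtain ⟨k, e⟩ := h.exists_eq htQ (.inl ⟨h5, vec63_mem⟩)
  have h' := h.conj k
  obtain ⟨f⟩ := h'.stab_equiv h'.yy_mem (S := S) (fun g => by
    rw [hS, ← e, ← h'.act g htQ, h'.eq_iff htQ (h.conj_mem g htQ), Subtype.ext_iff (a2 := t * _)]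
    rfl) _ (QuotientGroup.ker_mk' Q)
  exact ⟨f.trans (isometryEquiv _ (hsum_minusEquiv 1 1 2)).symm⟩

end Cfsg.Agent.S5443
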