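import Cfsg.Statements.S5444
import Cfsg.Agent.U6.Sec

set_option autoImplicit false
open Cfsg

namespace Cfsg.Agent.S5444

open CA.U6 CA.Fi CA.FG in

/-- Let G be a finite group of large Fischer type at the involution z: the generalized Fitting subgroup Q of H = C_G(z) is extraspecial of order 2^13, H has normal subgroups Q ≤ H₁ ≤ H₂ with H₁/Q of order 3, H₂/H₁ the projective special unitary group of dimension 4 over the field with nine elements and H₂ of index 2 in H, and some conjugate of z other than z lies in Q. Let T be a Sylow 2-subgroup of H. Then T has exactly one elementary abelian subgroup A of largest order; A has order 2^11, it meets Q in a subgroup of order 2^7, and its image in H/Q has order 16. -/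
theorem result {G : Type*} [Group G] [Finite G] (z : G) (Q : Subgroup (Subgroup.centralizer ({z} : Set G))) [Q.Normal] (hF : Cfsg.IsOfLargeFischerTypeAt z Q) (T : Sylow 2 ↥(Subgroup.centralizer ({z} : Set G))) : ∃ A : Subgroup ↥(T : Subgroup (Subgroup.centralizer ({z} : Set G))), Cfsg.maxElementaryAbelianSubgroups 2 ↥(T : Subgroup (Subgroup.centralizer ({z} : Set G))) = {A} ∧ Nat.card A = 2 ^ 11 ∧ Nat.card ↥(A.map (T : Subgroup (Subgroup.centralizer ({z} : Set G))).subtype ⊓ Q) = 2 ^ 7 ∧ Nat.card ↥((A.map (T : Subgroup (Subgroup.centralizer ({z} : Set G))).subtype).map (QuotientGroup.mk' Q)) = 16 := by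
  obtain ⟨π₀, ρ₀, h₀⟩ := exists_GS hF
  obtain ⟨π, ρ, x, s, τ, h, e⟩ := h₀.exists_XS_syl h₀.yy_mem T
  have h1 : h.AA ≤ T := e ▸ h.AA_le
  have h2 := Subgroup.subgroupOf_map_subtype h.AA T
  rw [inf_eq_left.2 h1] at h2
  refine ⟨_, max_eq h1 (fun _ => h.AA_sq) fun B hB => h.eq_AA (e ▸ hB), ?_, ?_, ?_⟩
  · rw [Nat.card_congr (Subgroup.subgroupOfEquivOfLe h1).toEquiv, h.card_AA]
  · rw [h2, inf_comm, h.card_inf_AA]
  · have := card_map_mul_card_inf_ker h.AA (QuotientGroup.mk' Q)
    rw [QuotientGroup.ker_mk', h.card_inf_AA, h.card_AA] at this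
    rw [h2]
    omega

end Cfsg.Agent.S5444
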