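import Cfsg.Statements.S5447
import Cfsg.Agent.U6.Fus

set_option autoImplicit false
open Cfsg

namespace Cfsg.Agent.S5447

open CA.U6 CA.Fi CA.FG in

/-- Let G be a finite group of large Fischer type at the involution z: the generalized Fitting subgroup Q of H = C_G(z) is extraspecial of order 2^13, H has normal subgroups Q ≤ H₁ ≤ H₂ with H₁/Q of order 3, H₂/H₁ the projective special unitary group of dimension 4 over the field with nine elements and H₂ of index 2 in H, and some conjugate of z other than z lies in Q. Let T be a Sylow 2-subgroup of G, A its Thompson subgroup and M = N_G(A) its normalizer. Then M controls fusion in A (elements of A conjugate in G are conjugate in M), and M has exactly two orbits on the non-identity elements of A: those conjugate to z in G and those not. -/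
theorem result {G : Type*} [Group G] [Finite G] (z : G) (Q : Subgroup (Subgroup.centralizer ({z} : Set G))) [Q.Normal] (hF : Cfsg.IsOfLargeFischerTypeAt z Q) (T : Sylow 2 G) (A M : Subgroup G) (hA : A = Cfsg.thompsonSubgroupOf 2 (T : Subgroup G)) (hM : M = Subgroup.normalizer (A : Set G)) : (∀ a ∈ A, ∀ g : G, g * a * g⁻¹ ∈ A → ∃ m ∈ M, m * a * m⁻¹ = g * a * g⁻¹) ∧ (∃ a ∈ A, a ≠ 1 ∧ IsConj z a) ∧ (∃ a ∈ A, a ≠ 1 ∧ ¬ IsConj z a) ∧ ∀ a ∈ A, ∀ b ∈ A, a ≠ 1 → b ≠ 1 → (IsConj z a ↔ IsConj z b) → ∃ m ∈ M, m * a * m⁻¹ = b := by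
  obtain ⟨i, z', π, ρ, x, s, τ, h, e, e'⟩ := exists_GX hF T
  subst hM
  rw [hA, e']
  simp only [e]
  refine ⟨fun a ha g hg => h.fusion ha hg (isConj_iff.2 ⟨g, rfl⟩), ⟨_, h.z_mem_A,
    mt (map_eq_one_iff i h.gs.inj).1 h.es.z_ne, IsConj.refl _⟩, ⟨_, Subgroup.mem_map_of_mem i (h.τ_mem (a := 1)
      (by norm_num)), fun H => h.τ_not_mem ((map_eq_one_iff i h.gs.inj).1 H ▸ one_mem _), h.classes.1⟩,
    fun a ha b hb a1 b1 H => h.fusion ha hb ?_⟩
  by_cases hc : IsConj (i z') a
  · exact hc.symm.trans (H.1 hc)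
  · exact (h.y_conj ha a1 hc).trans (h.y_conj hb b1 (mt H.2 hc)).symm

end Cfsg.Agent.S5447
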