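import Cfsg.Statements.S5448
import Cfsg.Agent.U6.Mat

set_option autoImplicit false
open scoped Pointwise
open Cfsg

namespace Cfsg.Agent.S5448

open CA.U6 CA.Fi CA.FG CA.M24 Pointwise in

/-- Let G be a finite group of large Fischer type at the involution z: the generalized Fitting subgroup Q of H = C_G(z) is extraspecial of order 2^13, H has normal subgroups Q ≤ H₁ ≤ H₂ with H₁/Q of order 3, H₂/H₁ the projective special unitary group of dimension 4 over the field with nine elements and H₂ of index 2 in H, and some conjugate of z other than z lies in Q. Let T be a Sylow 2-subgroup of G, A its Thompson subgroup, M = N_G(A) its normalizer, and t an involution of A not conjugate to z in G. Then the centralizer of t in M, modulo A, is isomorphic to the setwise stabilizer of a two-element subset of the 24 points in the Mathieu group of degree 24 (the automorphism group of the smaller Mathieu group on 22 points). -/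
theorem result {G : Type*} [Group G] [Finite G] (z : G) (Q : Subgroup (Subgroup.centralizer ({z} : Set G))) [Q.Normal] (hF : Cfsg.IsOfLargeFischerTypeAt z Q) (T : Sylow 2 G) (A M : Subgroup G) (hA : A = Cfsg.thompsonSubgroupOf 2 (T : Subgroup G)) (hM : M = Subgroup.normalizer (A : Set G)) (t : G) (htA : t ∈ A) (ht2 : orderOf t = 2) (ht : ¬ IsConj z t) : ∃ _ : (A.subgroupOf (M ⊓ Subgroup.centralizer ({t} : Set G))).Normal, Nonempty (↥(M ⊓ Subgroup.centralizer ({t} : Set G)) ⧸ A.subgroupOf (M ⊓ Subgroup.centralizer ({t} : Set G)) ≃* ↥(Cfsg.M24 ⊓ MulAction.stabilizer (Equiv.Perm Cfsg.GolayPt) ({none, some 0} : Set Cfsg.GolayPt))) := by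
  obtain ⟨i, z', π, ρ, x, s, τ, h, e', e⟩ := exists_GX hF T
  obtain rfl := hA.trans e
  subst hM
  obtain ⟨θ, h1, h2, h3⟩ := h.exists_θ
  obtain ⟨D, hD, rfl⟩ := h.duad_iff.1 ⟨htA, fun H => by simp [H] at ht2, mt (e' t).2 ht⟩
  obtain ⟨p, q, hpq, rfl⟩ := Finset.card_eq_two.1 hD
  obtain ⟨w, hw, -, w1, w2⟩ := w2_spec hpq
  have key : ∀ m : Subgroup.normalizer (h.A : Set G), (m : G) ∈ Subgroup.centralizer {h.ψ {p, q}} ↔
      w * θ m * w⁻¹ ∈ MulAction.stabilizer (Equiv.Perm GolayPt) ({none, some 0} : Set GolayPt) := fun m => by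
    have : (({none, some 0} : Set GolayPt)) = ↑(w • ({p, q} : Finset Pt)) := by
      simp [Finset.smul_finset_insert, w1, w2]; rfl
    rw [mem_cent_iff, ← conj_eq_iff_commute, h3 m _ (by rw [hD]; decide), MulAction.mem_stabilizer_iff, this,
      ← Finset.coe_smul_finset, Finset.coe_inj, mul_smul, mul_smul, inv_smul_smul, smul_left_cancel_iff]
    exact ⟨h.todd.inj (by simp only [Finset.card_smul_finset, hD]; decide) (by simp [hD]), congrArg _⟩
  let f := ((MulAut.conj w).toMonoidHom.comp (M24.subtype.comp (θ.comp (Subgroup.inclusion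
    (inf_le_left (b := Subgroup.centralizer {h.ψ {p, q}})))))).codRestrict
      (M24 ⊓ MulAction.stabilizer (Equiv.Perm GolayPt) ({none, some 0} : Set GolayPt)) fun m =>
        Subgroup.mem_inf.2 ⟨mul_mem (mul_mem hw (θ _).2) (inv_mem hw), (key ⟨m, m.2.1⟩).1 m.2.2⟩
  have hf : Function.Surjective f := fun y => by
    obtain ⟨m, hm⟩ := h1 ⟨w⁻¹ * y * w, mul_mem (mul_mem (inv_mem hw) y.2.1) hw⟩
    have : w * θ m * w⁻¹ = y := by rw [hm]; group
    exact ⟨⟨m, m.2, (key m).2 (this ▸ y.2.2)⟩, Subtype.ext this⟩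
  have hk : f.ker = h.A.subgroupOf _ := Subgroup.ext fun m => Subtype.ext_iff.trans (conj_eq_one_iff.trans
    ((Subtype.ext_iff (a2 := (1 : M24))).symm.trans (SetLike.ext_iff.1 h2 _)))
  haveI := f.normal_ker
  haveI : (h.A.subgroupOf (Subgroup.normalizer (h.A : Set G) ⊓ Subgroup.centralizer {h.ψ {p, q}})).Normal := hk ▸ this
  exact ⟨this, ⟨(QuotientGroup.quotientMulEquivOfEq hk.symm).trans
    (QuotientGroup.quotientKerEquivOfSurjective f hf)⟩⟩

end Cfsg.Agent.S5448
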