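import Cfsg.Statements.S5449
import Cfsg.Agent.U6.Glb

set_option autoImplicit false
open Cfsg

namespace Cfsg.Agent.S5449

open CA.U6 CA.Fi CA.FG in

/-- Let G be a finite group of large Fischer type at the involution z: the generalized Fitting subgroup Q of H = C_G(z) is extraspecial of order 2^13, H has normal subgroups Q ≤ H₁ ≤ H₂ with H₁/Q of order 3, H₂/H₁ the projective special unitary group of dimension 4 over the field with nine elements and H₂ of index 2 in H, and some conjugate of z other than z lies in Q. Then Q contains a four-group E, not containing z and containing an involution not conjugate to z in G, whose centralizer in G is quasisimple with quotient by E isomorphic to the projective special unitary group of dimension 6 over the field with four elements. -/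
theorem result {G : Type*} [Group G] [Finite G] (z : G) (Q : Subgroup (Subgroup.centralizer ({z} : Set G))) [Q.Normal] (hF : Cfsg.IsOfLargeFischerTypeAt z Q) : ∃ E : Subgroup G, E ≤ (Q.map (Subgroup.centralizer ({z} : Set G)).subtype) ∧ Cfsg.IsElementaryAbelian 2 E ∧ Nat.card E = 4 ∧ z ∉ E ∧ (∃ t ∈ E, orderOf t = 2 ∧ ¬ IsConj z t) ∧ Cfsg.IsQuasisimple ↥(Subgroup.centralizer (E : Set G)) ∧ ∃ (_ : (E.subgroupOf (Subgroup.centralizer (E : Set G))).Normal) (K : Type) (_ : Field K) (_ : Fintype K), Fintype.card K = 4 ∧ Nonempty (↥(Subgroup.centralizer (E : Set G)) ⧸ E.subgroupOf (Subgroup.centralizer (E : Set G)) ≃* Cfsg.PSU 6 K 2) := by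
  obtain ⟨π, ρ, x, s, τ, h⟩ := exists_GX' hF
  obtain ⟨-, e, p, ⟨f⟩⟩ := h.KG_spec
  have sq : ∀ a ∈ h.EG, a * a = 1 := by
    rintro _ ⟨_, ⟨_, ⟨c, rfl⟩, rfl⟩, rfl⟩
    exact h.A_sq _ (Subgroup.mem_map_of_mem _ (h.s_AA c))
  have ne : ∀ c : F4, s (c • vec 63) ≠ ⟨z, mem_cent_iff.2 (Commute.refl z)⟩ := fun c a => by
    have := h.πs (c • vec 63)
    rw [a, h.z0] at this
    exact h.es.z_ne (by rw [← a, ← this, h.zero])
  haveI := CA.TC.simple_PSU62 card_F4
  haveI : (h.EG.subgroupOf h.KG).Normal := e ▸ inferInstance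
  refine ⟨h.EG, Subgroup.map_mono (by rintro _ ⟨u, -, rfl⟩; exact h.sQ u), ⟨⟨⟨fun a b => Subtype.ext
    (commute_of_sq (sq _ a.2) (sq _ b.2) (sq _ (mul_mem a.2 b.2)))⟩⟩, fun a ha => (pow_two a).trans (sq a ha)⟩,
    h.card_EG, ?_, ⟨_, Subgroup.mem_map_of_mem _ (h.s_EH 1), orderOf_two_of (sq _ (Subgroup.mem_map_of_mem _ (h.s_EH 1)))
      fun a => ?_, fun a => ?_⟩, ⟨p, f.isSimpleGroup⟩, this, F4, inferInstance, inferInstance, card_F4,
    ⟨(QuotientGroup.quotientMulEquivOfEq e.symm).trans f⟩⟩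
  · rintro ⟨_, ⟨_, ⟨c, rfl⟩, rfl⟩, a⟩
    exact ne c (h.gs.inj a)
  · have := h.πs ((1 : F4) • vec 63)
    rw [h.gs.inj (a.trans (map_one _).symm), h.one] at this
    exact absurd this (by decide)
  · exact (mem_cs26.1 ((h.gs.conj_iff (h.sQ _) (ne 1)).1 a)).2 (by rw [h.πs, one_smul]; exact vec63_mem)

end Cfsg.Agent.S5449
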