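import Cfsg.Statements.S5450
import Cfsg.Agent.U6.C2

set_option autoImplicit false
open Cfsg

namespace Cfsg.Agent.S5450

open CA.U6 CA.Fi CA.FG in

/-- Let G be a finite group of large Fischer type at the involution z: the generalized Fitting subgroup Q of H = C_G(z) is extraspecial of order 2^13, H has normal subgroups Q ≤ H₁ ≤ H₂ with H₁/Q of order 3, H₂/H₁ the projective special unitary group of dimension 4 over the field with nine elements and H₂ of index 2 in H, and some conjugate of z other than z lies in Q. Let t be an involution of Q not conjugate to z in G, and K the generalized Fitting subgroup of the centralizer of t. Then K is quasisimple of index 2 in the centralizer of t, contains t, and the centralizer of t modulo the subgroup generated by t is isomorphic to the full automorphism group of the Fischer group Fi₂₂ (as presented). -/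
theorem result {G : Type*} [Group G] [Finite G] (z : G) (Q : Subgroup (Subgroup.centralizer ({z} : Set G))) [Q.Normal] (hF : Cfsg.IsOfLargeFischerTypeAt z Q) (t : G) (htQ : ∃ htc : t ∈ Subgroup.centralizer ({z} : Set G), (⟨t, htc⟩ : Subgroup.centralizer ({z} : Set G)) ∈ Q) (ht2 : orderOf t = 2) (ht : ¬ IsConj z t) (K : Subgroup ↥(Subgroup.centralizer ({t} : Set G))) (hK : K = Cfsg.generalizedFittingSubgroup ↥(Subgroup.centralizer ({t} : Set G))) [hn : ((Subgroup.zpowers t).subgroupOf (Subgroup.centralizer ({t} : Set G))).Normal] : Cfsg.IsQuasisimple ↥K ∧ K.index = 2 ∧ (∃ htc : t ∈ Subgroup.centralizer ({t} : Set G), (⟨t, htc⟩ : ↥(Subgroup.centralizer ({t} : Set G))) ∈ K) ∧ Nonempty (↥(Subgroup.centralizer ({t} : Set G)) ⧸ (Subgroup.zpowers t).subgroupOf (Subgroup.centralizer ({t} : Set G)) ≃* MulAut Cfsg.Spor.Fi22) := by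
  obtain ⟨π, ρ, x, s, τ, h⟩ := exists_GX' hF
  obtain ⟨htc, hq⟩ := htQ
  obtain ⟨c, e⟩ := h.conj_t hq (Subtype.ext ((pow_two t).symm.trans (ht2 ▸ pow_orderOf_eq_one t)))
    (fun a => by simp [show t = 1 from congrArg Subtype.val a] at ht2) ht
  obtain rfl : (h.conjG c).t1 = t := by rw [GX.t1_eq]; rw [GX.t1_eq] at e; exact e
  obtain ⟨K', k⟩ := (h.conjG c).exists_KS
  obtain ⟨e1, e2⟩ := k.main
  rw [hK, e1]
  exact ⟨Comp.qs_of_equiv k.spec.1 (Subgroup.subgroupOfEquivOfLe k.le).symm, k.idx, ⟨k.le k.t1_mem, k.t1_mem⟩, e2⟩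

end Cfsg.Agent.S5450
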