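import Cfsg.Statements.S5451
import Cfsg.Agent.U6.Cen

set_option autoImplicit false
open Cfsg

namespace Cfsg.Agent.S5451

open CA.U6 CA.Fi CA.FG in

/-- Let G be a finite group of large Fischer type at the involution z: the generalized Fitting subgroup Q of H = C_G(z) is extraspecial of order 2^13, H has normal subgroups Q ≤ H₁ ≤ H₂ with H₁/Q of order 3, H₂/H₁ the projective special unitary group of dimension 4 over the field with nine elements and H₂ of index 2 in H, and some conjugate of z other than z lies in Q. Let X be a subgroup of H of order 3 whose product with Q is normal in H (X maps onto the normal subgroup of order 3 of H/Q). Then the centralizer of X in H is quasisimple with cyclic centre of order 6 and central quotient isomorphic to the projective special unitary group of dimension 4 over the field with nine elements. -/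
theorem result {G : Type*} [Group G] [Finite G] (z : G) (Q : Subgroup (Subgroup.centralizer ({z} : Set G))) [Q.Normal] (hF : Cfsg.IsOfLargeFischerTypeAt z Q) (X : Subgroup (Subgroup.centralizer ({z} : Set G))) (hX : Nat.card X = 3) (hXQ : (X ⊔ Q).Normal) : Cfsg.IsQuasisimple ↥(Subgroup.centralizer ((X : Subgroup (Subgroup.centralizer ({z} : Set G))) : Set (Subgroup.centralizer ({z} : Set G)))) ∧ IsCyclic ↥(Subgroup.center ↥(Subgroup.centralizer ((X : Subgroup (Subgroup.centralizer ({z} : Set G))) : Set (Subgroup.centralizer ({z} : Set G))))) ∧ Nat.card ↥(Subgroup.center ↥(Subgroup.centralizer ((X : Subgroup (Subgroup.centralizer ({z} : Set G))) : Set (Subgroup.centralizer ({z} : Set G))))) = 6 ∧ ∃ (K : Type) (_ : Field K) (_ : Fintype K), Fintype.card K = 9 ∧ Nonempty (↥(Subgroup.centralizer ((X : Subgroup (Subgroup.centralizer ({z} : Set G))) : Set (Subgroup.centralizer ({z} : Set G)))) ⧸ Subgroup.center ↥(Subgroup.centralizer ((X : Subgroup (Subgroup.centralizer ({z} : Set G))) : Set (Subgroup.centralizer ({z} : Set G)))) ≃*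 Cfsg.PSU 4 K 3) := by
  obtain ⟨π, ρ, h⟩ := exists_GS hF
  obtain ⟨x, rfl, h1, h2⟩ := h.exists_gen hX hXQ
  obtain ⟨s, τ, h3⟩ := h.exists_GX h1 h2
  obtain ⟨a, b, c, ⟨e⟩⟩ := h3.cent_three (C := Subgroup.centralizer (Subgroup.zpowers x : Set _)) fun c =>
    mem_cent_subgroup_iff.trans ⟨fun H => H x (Subgroup.mem_zpowers x), fun H _ ⟨n, e⟩ => e ▸ H.zpow_right n⟩
  obtain ⟨-, _, _, _, _, -, -, -, ⟨K, _, _, hK, -⟩, -⟩ := hF
  obtain ⟨e'⟩ := nonempty_K0_equiv hK
  exact ⟨a, b, c, K, _, _, hK, ⟨e.trans e'⟩⟩

end Cfsg.Agent.S5451
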