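import Cfsg.Statements.S5459
import Cfsg.Agent.Fi.Dihedral
import Cfsg.Agent.Fi.Struct

set_option autoImplicit false
open Cfsg

namespace Cfsg.Agent.S5459

open CA.Fi CA.FG.Comp Subgroup

/-- Let G be a finite group with a quasisimple normal subgroup L and an involution d such that G is generated by L and d, the centre of L has odd order, and d inverts every element of the centre of L. If the commuting graph on the conjugacy class of the image of d in G modulo the centre of L is connected, then the commuting graph on the conjugacy class of d is connected. -/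
theorem result {G : Type*} [Group G] [Finite G] (L : Subgroup G) [L.Normal] (hL : Cfsg.IsQuasisimple ↥L) (d : G) (hd : orderOf d = 2) (hgen : L ⊔ Subgroup.zpowers d = ⊤) (hodd : Odd (Nat.card ↥(Subgroup.center ↥L))) (hinv : ∀ c ∈ (Subgroup.center ↥L).map L.subtype, d * c * d⁻¹ = c⁻¹) [hn : ((Subgroup.center ↥L).map L.subtype).Normal] (hconn : (Cfsg.commutingGraph (conjugatesOf (QuotientGroup.mk d : G ⧸ (Subgroup.center ↥L).map L.subtype))).Connected) : (Cfsg.commutingGraph (conjugatesOf d)).Connected := by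
  set Z := (Subgroup.center ↥L).map L.subtype with hZ
  have hZodd : Odd (Nat.card Z) := by rwa [hZ, card_map_of_injective L.subtype_injective]
  have sq : ∀ a, IsConj d a → a * a = 1 := fun a ha =>
    mul_self_of_orderOf_two (orderOf_eq_of_isConj ha ▸ hd)
  set Γ := Cfsg.commutingGraph (conjugatesOf d) with hΓ
  let d0 : conjugatesOf d := ⟨d, IsConj.refl d⟩
  -- reachability is invariant under conjugation
  have hcj : ∀ (g : G) (a : conjugatesOf d), g * (a : G) * g⁻¹ ∈ conjugatesOf d := fun g a =>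
    (show IsConj d a from a.2).trans (isConj_iff.2 ⟨g, rfl⟩)
  have hreach : ∀ (g : G) (a b : conjugatesOf d), Γ.Reachable a b →
      Γ.Reachable ⟨_, hcj g a⟩ ⟨_, hcj g b⟩ := by
    intro g a b h
    let f : Γ →g Γ := ⟨fun a => ⟨_, hcj g a⟩, fun {a b} hab => by
      simp only [hΓ, Cfsg.commutingGraph, SimpleGraph.fromRel_adj] at hab ⊢
      refine ⟨fun h => hab.1 (Subtype.ext ?_), ?_⟩
      · have := congrArg Subtype.val h
        simpa using this
      · rcases hab.2 with h | h
        · exact Or.inl (by simpa using h.map (MulAut.conj g))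
        · exact Or.inr (by simpa using h.map (MulAut.conj g))⟩
    exact h.map f
  -- lifting of edges
  have lift1 : ∀ (a b : conjugatesOf d), Commute (QuotientGroup.mk (a : G) : G ⧸ Z) (QuotientGroup.mk (b : G)) →
      ∃ b' : conjugatesOf d, Γ.Reachable a b' ∧ (QuotientGroup.mk (b' : G) : G ⧸ Z) = QuotientGroup.mk (b : G) := by
    intro a b hab
    have ha2 := sq a a.2
    have hb2 := sq b b.2
    have hq : (QuotientGroup.mk (((a : G) * b) ^ 2) : G ⧸ Z) = 1 := by
      rw [QuotientGroup.mk_pow, QuotientGroup.mk_mul, hab.mul_pow, pow_two, pow_two, ← QuotientGroup.mk_mul,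
        ← QuotientGroup.mk_mul, ha2, hb2]; simp
    have hmem : ((a : G) * b) ^ 2 ∈ Z := (QuotientGroup.eq_one_iff _).1 hq
    obtain ⟨j, hj⟩ := hZodd
    have hpow : ((a : G) * b) ^ (2 * j + 1) * ((a : G) * b) ^ (2 * j + 1) = 1 := by
      rw [← pow_add, ← two_mul, pow_mul, ← hj]
      exact congrArg Subtype.val (pow_card_eq_one' (x := (⟨_, hmem⟩ : Z)))
    obtain ⟨c1, -⟩ := dih_commute ha2 hb2 hpow
    refine ⟨⟨a * ((a : G) * b) ^ (2 * j + 1),
      (show IsConj d b from b.2).trans (isConj_iff.2 ⟨_, dih_odd ha2 hb2 j⟩)⟩, ?_, ?_⟩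
    · by_cases he : a = ⟨a * ((a : G) * b) ^ (2 * j + 1),
        (show IsConj d b from b.2).trans (isConj_iff.2 ⟨_, dih_odd ha2 hb2 j⟩)⟩
      · rw [← he]
      · refine SimpleGraph.Adj.reachable ?_
        simp only [hΓ, Cfsg.commutingGraph, SimpleGraph.fromRel_adj]
        exact ⟨he, Or.inl ((Commute.refl _).mul_right c1)⟩
    · change (QuotientGroup.mk ((a : G) * ((a : G) * b) ^ (2 * j + 1)) : G ⧸ Z) = _
      rw [QuotientGroup.mk_mul, pow_succ, pow_mul, QuotientGroup.mk_mul, QuotientGroup.mk_pow, hq, one_pow,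
        one_mul, ← QuotientGroup.mk_mul, ← mul_assoc, ha2, one_mul]
  have hmk : ∀ a : conjugatesOf d, (QuotientGroup.mk (a : G) : G ⧸ Z) ∈
      conjugatesOf (QuotientGroup.mk d : G ⧸ Z) := fun a =>
    (QuotientGroup.mk' Z).map_isConj (show IsConj d a from a.2)
  have lift : ∀ y : conjugatesOf (QuotientGroup.mk d : G ⧸ Z),
      ∃ b' : conjugatesOf d, Γ.Reachable d0 b' ∧ (QuotientGroup.mk (b' : G) : G ⧸ Z) = y := by
    intro y
    have h := hconn.preconnected ⟨_, hmk d0⟩ y
    rw [SimpleGraph.reachable_iff_reflTransGen] at h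
    induction h with
    | refl => exact ⟨d0, SimpleGraph.Reachable.refl _, rfl⟩
    | @tail y y' _ hyy ih =>
      obtain ⟨b, hb, hby⟩ := ih
      obtain ⟨g, hg⟩ := isConj_iff.1 (show IsConj _ _ from y'.2)
      obtain ⟨g, rfl⟩ := QuotientGroup.mk_surjective g
      have e : (QuotientGroup.mk ((⟨_, hcj g d0⟩ : conjugatesOf d) : G) : G ⧸ Z) = y' := by
        rw [← hg]; rfl
      obtain ⟨b', h1, h2⟩ := lift1 b ⟨_, hcj g d0⟩ (by
        rw [hby, e]
        simp only [Cfsg.commutingGraph, SimpleGraph.fromRel_adj] at hyy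
        rcases hyy.2 with h | h
        · exact h
        · exact h.symm)
      exact ⟨b', hb.trans h1, h2.trans e⟩
  -- the stabilizer of the component
  let N : Subgroup G :=
    { carrier := {g | Γ.Reachable d0 ⟨_, hcj g d0⟩}
      one_mem' := by
        have : (⟨_, hcj 1 d0⟩ : conjugatesOf d) = d0 := Subtype.ext (by simp)
        change Γ.Reachable d0 _
        rw [this]
      mul_mem' := by
        intro g h hg hh
        have := hreach g _ _ hh
        have e : (⟨_, hcj (g * h) d0⟩ : conjugatesOf d) = ⟨_, hcj g ⟨_, hcj h d0⟩⟩ :=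
          Subtype.ext (by simp only; group)
        change Γ.Reachable d0 _
        rw [e]
        exact SimpleGraph.Reachable.trans hg this
      inv_mem' := by
        intro g hg
        have := hreach g⁻¹ _ _ hg
        have e : (⟨_, hcj g⁻¹ ⟨_, hcj g d0⟩⟩ : conjugatesOf d) = d0 := Subtype.ext (by simp only; group)
        rw [e] at this
        exact this.symm }
  have hNZ : ∀ g : G, ∃ c ∈ Z, c * g ∈ N := by
    intro g
    obtain ⟨b, hb, e⟩ := lift ⟨_, hmk ⟨_, hcj g d0⟩⟩
    have hz : (b : G)⁻¹ * (g * d * g⁻¹) ∈ Z := QuotientGroup.eq.1 e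
    have hb2 := sq b b.2
    have ha2 := sq _ (hcj g d0)
    rw [inv_eq_self_of_sq hb2] at hz
    obtain ⟨k, hk⟩ := dih_conj_of_odd hb2 ha2 hZodd
      (congrArg Subtype.val (pow_card_eq_one' (x := (⟨_, hz⟩ : Z))))
    refine ⟨((b * (g * d * g⁻¹)) ^ k)⁻¹, Z.inv_mem (Z.pow_mem hz k), ?_⟩
    change Γ.Reachable d0 _
    have : (⟨_, hcj (((b * (g * d * g⁻¹)) ^ k)⁻¹ * g) d0⟩ : conjugatesOf d) = b := by
      apply Subtype.ext
      refine Eq.trans ?_ hk
      simp only [d0]; group
    rwa [this]
  have hLN : L ≤ N := by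
    have h0 : N.subgroupOf L ⊔ center L = ⊤ := by
      rw [eq_top_iff]
      intro x _
      obtain ⟨c, ⟨c', hc', rfl⟩, hc⟩ := hNZ x
      have e : x = c'⁻¹ * (c' * x) := by group
      rw [e]
      exact mul_mem (mem_sup_right (inv_mem hc')) (mem_sup_left hc)
    haveI : (N.subgroupOf L).Normal := by
      rw [← normalizer_eq_top_iff, eq_top_iff, ← h0]
      exact sup_le le_normalizer (center_le_normalizer _)
    haveI := hL.1
    exact subgroupOf_eq_top.1 (eq_top_of_sup_center_eq_top h0)
  have hdN : d ∈ N := by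
    have : (⟨_, hcj d d0⟩ : conjugatesOf d) = d0 := Subtype.ext (by simp [d0])
    change Γ.Reachable d0 _
    rw [this]
  have hN : N = ⊤ := by
    rw [eq_top_iff, ← hgen]
    exact sup_le hLN ((zpowers_le).2 hdN)
  have hall : ∀ a : conjugatesOf d, Γ.Reachable d0 a := by
    intro a
    obtain ⟨g, hg⟩ := isConj_iff.1 (show IsConj d a from a.2)
    have : g ∈ N := hN ▸ mem_top g
    have e : (⟨_, hcj g d0⟩ : conjugatesOf d) = a := Subtype.ext hg
    rw [← e]; exact this
  haveI : Nonempty (conjugatesOf d) := ⟨d0⟩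
  exact ⟨fun a b => (hall a).symm.trans (hall b)⟩

end Cfsg.Agent.S5459
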