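import Cfsg.Statements.S5460
import Cfsg.Agent.U6.Y23

set_option autoImplicit false
open Cfsg

namespace Cfsg.Agent.S5460

open CA.U6 CA.Fi CA.FG in

/-- Let X be a finite group with a subgroup G₀ of index 2 that is of large Fischer type at an involution z central in some Sylow 2-subgroup of G₀ (the generalized Fitting subgroup Q of the centralizer C of z in G₀ is extraspecial of order 2^13, C has normal subgroups Q ≤ H₁ ≤ H₂ with H₁/Q of order 3, H₂/H₁ isomorphic to the projective special unitary group of dimension 4 over the field with nine elements and H₂ of index 2 in C, and some G₀-conjugate of z other than z lies in Q), and suppose the generalized Fitting subgroup of the centralizer of z in X is Q as well. Then there is an involution d of X outside G₀ commuting with z, and an involution t of the centralizer Y of d in G₀, such that: the centralizer of t in Y is quasisimple; its quotient by the subgroup generated by t is of type M(22) for some generating conjugacy class of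 3-transpositions and has an involution whose own centralizer is quasisimple, with quotient by it the projective special unitary group of dimension 6 over the field with four elements, and which is not weakly closed in that centralizer; t is not weakly closed in its centralizer in Y; and the conjugacy class of t in Y is a class of 3-transpositions generating Y with respect to which Y is of type M(23). -/
theorem result {X : Type*} [Group X] [Finite X] (G₀ : Subgroup X) (hidx : G₀.index = 2) (z : ↥G₀) (Q : Subgroup (Subgroup.centralizer ({z} : Set ↥G₀))) [Q.Normal] (hF : Cfsg.IsOfLargeFischerTypeAt z Q) (hcentral : ∃ P : Sylow 2 ↥G₀, z ∈ (P : Subgroup ↥G₀) ∧ ∀ x ∈ (P : Subgroup ↥G₀), Commute x z) (hFX : (Cfsg.generalizedFittingSubgroup ↥(Subgroup.centralizer ({(z : X)} : Set X))).map (Subgroup.subtype _) = ((Q.map (Subgroup.subtype _)).map G₀.subtype)) : ∃ d : X, orderOf d = 2 ∧ d ∉ G₀ ∧ Commute d (z : X) ∧ ∃ t : ↥(G₀ ⊓ Subgroup.centralizer ({d} : Set X)), orderOf t = 2 ∧ Cfsg.IsQuasisimple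 ↥(Subgroup.centralizer ({t} : Set ↥(G₀ ⊓ Subgroup.centralizer ({d} : Set X)))) ∧ (∃ (_ : ((Subgroup.zpowers t).subgroupOf (Subgroup.centralizer ({t} : Set ↥(G₀ ⊓ Subgroup.centralizer ({d} : Set X))))).Normal), (∃ E : Set (↥(Subgroup.centralizer ({t} : Set ↥(G₀ ⊓ Subgroup.centralizer ({d} : Set X)))) ⧸ (Subgroup.zpowers t).subgroupOf (Subgroup.centralizer ({t} : Set ↥(G₀ ⊓ Subgroup.centralizer ({d} : Set X))))), Cfsg.IsThreeTranspositionClass E ∧ Cfsg.IsOfTypeM22 _ E) ∧ ∃ d' : ↥(Subgroup.centralizer ({t} : Set ↥(G₀ ⊓ Subgroup.centralizer ({d} : Set X)))) ⧸ (Subgroup.zpowers t).subgroupOf (Subgroup.centralizer ({t} : Set ↥(G₀ ⊓ Subgroup.centralizer ({d} : Set X)))), orderOf d' = 2 ∧ Cfsg.IsQuasisimple ↥(Subgroup.centralizer ({d'} : Set _)) ∧ (∃ (K : Type) (_ : Field K) (_ : Fintype K), Fintype.card K = 4 ∧ ∃ _ : ((Subgroup.zpowers d').subgroupOf (Subgroup.centralizer ({d'} : Set _))).Normal, Nonempty (↥(Subgroup.centralizer ({d'} : Set _)) ⧸ (Subgroup.zpowers d').subgroupOf (Subgroup.centralizer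 ({d'} : Set _)) ≃* Cfsg.PSU 6 K 2)) ∧ ∃ g, g * d' * g⁻¹ ∈ Subgroup.centralizer ({d'} : Set _) ∧ g * d' * g⁻¹ ≠ d') ∧ (∃ g : ↥(G₀ ⊓ Subgroup.centralizer ({d} : Set X)), g * t * g⁻¹ ∈ Subgroup.centralizer ({t} : Set ↥(G₀ ⊓ Subgroup.centralizer ({d} : Set X))) ∧ g * t * g⁻¹ ≠ t) ∧ Cfsg.IsThreeTranspositionClass (conjugatesOf t) ∧ Cfsg.IsOfTypeM23 ↥(G₀ ⊓ Subgroup.centralizer ({d} : Set X)) (conjugatesOf t) := by
  obtain ⟨π, ρ, x, s, τ, h⟩ := exists_GX' hF
  have w := XX.of_sub hidx hF.1.2.1 h.es.z_mem hFX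
  obtain ⟨K, k⟩ := h.exists_KS
  obtain ⟨f, F⟩ := w.exists_FX k
  have c := F.cA (h.dd_mem (CA.M24.pt 0) (CA.M24.pt 1))
  obtain ⟨h1, h2, h3, h4, h5, e, h6⟩ := F.y23 w k (r := Subgroup.inclusion (inf_le_left (b := Subgroup.centralizer {f})))
    (Subgroup.inclusion_injective _) (fun g => ⟨by
      rintro ⟨y, rfl⟩
      exact Commute.symm (mem_cent_iff.1 y.2.2), fun a => ⟨⟨g, g.2, mem_cent_iff.2 a.symm⟩, rfl⟩⟩)
    (t := ⟨h.t1, h.t1.2, mem_cent_iff.2 c.symm⟩) rfl
  exact ⟨f, orderOf_two_of F.sq fun a => F.out (a ▸ one_mem _), fun a => F.out ⟨⟨f, a⟩, rfl⟩, F.cA h.z_mem_A, _, h1, h2, h3,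
    h4, h5, CA.TC.type23_of_real h6.toReal h6.gen h6.ctr⟩

end Cfsg.Agent.S5460
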