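import Cfsg.Statements.S5461
import Cfsg.Agent.U6.MonF

set_option autoImplicit false
open Cfsg

namespace Cfsg.Agent.S5461

open CA.U6 CA.M24 CA.Fi Subgroup in
set_option maxRecDepth 100000 in

/-- Let G be a finite group of Monster type at the involution z with Q the extraspecial normal subgroup of order 2^25 of C_G(z) (C_G(z)/Q identified with the first Conway group with Q modulo its centre the Leech lattice modulo 2, z not weakly closed in Q). Let s be a conjugate of z (in G) lying in Q and other than z, and Y a subgroup of order 3 of the joint centralizer of z and s lying in the centre of some Sylow 3-subgroup of it. Then the centralizer of Y is quasisimple, its quotient by Y is isomorphic to the commutator subgroup of the presented Fischer group Fi₂₄, and the normalizer of Y modulo Y is generated by a conjugacy class of 3-transpositions with respect to which it is of type M(24). -/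
theorem result {G : Type*} [Group G] [Finite G] (z : G) (Q : Subgroup (Subgroup.centralizer ({z} : Set G))) [Q.Normal] (hM : Cfsg.IsOfMonsterType z Q) (s : G) (hsQ : ∃ hsc : s ∈ Subgroup.centralizer ({z} : Set G), (⟨s, hsc⟩ : Subgroup.centralizer ({z} : Set G)) ∈ Q) (hs : IsConj z s) (hs1 : s ≠ z) (Y : Subgroup G) (hY : Y ≤ Subgroup.centralizer ({z, s} : Set G)) (hY3 : Nat.card Y = 3) (hc : ∃ P : Sylow 3 ↥(Subgroup.centralizer ({z, s} : Set G)), Y.subgroupOf (Subgroup.centralizer ({z, s} : Set G)) ≤ (Subgroup.center ↥(P : Subgroup ↥(Subgroup.centralizer ({z, s} : Set G)))).map (P : Subgroup ↥(Subgroup.centralizer ({z, s} : Set G))).subtype) [hn : (Y.subgroupOf (Subgroup.centralizer (Y : Set G))).Normal] [hn' : (Y.subgroupOf (Subgroup.normalizer (Y : Set G))).Normal] : Cfsg.IsQuasisimple ↥(Subgroup.centralizer (Y : Set G)) ∧ Cfsg.Spor.IsoFi24' (↥(Subgroup.centralizer (Y : Set G)) ⧸ Y.subgroupOf (Subgroup.centralizer (Y : Set G))) ∧ ∃ E : Set (↥(Subgroup.normalizer (Y : Set G)) ⧸ Y.subgroupOf (Subgroup.normalizer (Y : Set G))), Cfsg.IsThreeTranspositionClass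 E ∧ Cfsg.IsOfTypeM24 _ E := by
    obtain ⟨φ, L, M, h8⟩ := exists_MS_e8 hM (mem_amb.2 hsQ) hs hs1
    obtain ⟨b, hb, rfl, hz, hbs⟩ := exists_gen hY Nat.prime_three hY3
    obtain ⟨φ, L, M, h8, hA | hA⟩ := M.normal_three h8 hz hbs hb
    · exact ms_main M (M.sec h8 hA.comm hbs (hb ▸ by decide)) hA hb
    · have := (M.central_iff h8 hY hb r3B_in.perm_mem hA).1 hc
      rw [Thom.card_CM] at this
      exact absurd this (by norm_num)

end Cfsg.Agent.S5461
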