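import Cfsg.Statements.S5466
import Cfsg.Agent.EqAll
import Cfsg.Agent.Fi3.C24
import Cfsg.Agent.Fi.IModel24

set_option autoImplicit false
open Cfsg

namespace Cfsg.Agent.S5466

/-- Let G be a finite group with trivial centre generated by a conjugation-invariant set D of 3-transpositions on which it acts primitively, such that for some d in D the subgroup generated by the members of D other than d commuting with d has central largest normal 2- and 3-subgroups, and suppose G with D is of type M(24), and let L be the commutator subgroup of G. Let d₁, d₂, d₃ be distinct pairwise commuting members of D, j their product, E the subgroup generated by d₁ d₂ and d₁ d₃ (a four-group lying in L), CL the centralizer of j in L and K its generalized Fitting subgroup. Then K is quasisimple with centre E, K is the centralizer of E in L, K modulo E is isomorphic to the projective special unitary group of dimension 6 over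 the field with four elements, CL/K is isomorphic to the symmetric group of degree 3, and CL modulo E is isomorphic to the full automorphism group of that unitary group. -/
theorem result {G : Type*} [Group G] [Finite G] {D : Set G} (hD : Cfsg.IsThreeTranspositionGroup D) (hprim : Cfsg.IsPrimitiveUnderConj D) (d₀ : G) (hd₀ : d₀ ∈ D) (h3 : Cfsg.pCore 3 ↥(Subgroup.closure {y : G | y ∈ D ∧ y ≠ d₀ ∧ Commute d₀ y}) ≤ Subgroup.center ↥(Subgroup.closure {y : G | y ∈ D ∧ y ≠ d₀ ∧ Commute d₀ y})) (h2 : Cfsg.pCore 2 ↥(Subgroup.closure {y : G | y ∈ D ∧ y ≠ d₀ ∧ Commute d₀ y}) ≤ Subgroup.center ↥(Subgroup.closure {y : G | y ∈ D ∧ y ≠ d₀ ∧ Commute d₀ y})) (h24 : Cfsg.IsOfTypeM24 G D) (L : Subgroup G) (hL : L = commutator G) (d₁ d₂ d₃ : G) (h₁ : d₁ ∈ D) (h₂ : d₂ ∈ D) (h₃ : d₃ ∈ D) (h12 : d₁ ≠ d₂) (h13 : d₁ ≠ d₃) (h23 : d₂ ≠ d₃) (c12 : Commute d₁ d₂) (c13 : Commute d₁ d₃) (c23 : Commute d₂ d₃) (E CL K : Subgroup G) (hE :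 E = Subgroup.closure ({d₁ * d₂, d₁ * d₃} : Set G)) (hCL : CL = L ⊓ Subgroup.centralizer ({d₁ * d₂ * d₃} : Set G)) (hK : K = (Cfsg.generalizedFittingSubgroup ↥CL).map CL.subtype) : Cfsg.IsQuasisimple ↥K ∧ (Subgroup.center ↥K).map K.subtype = E ∧ K = L ⊓ Subgroup.centralizer (E : Set G) ∧ (∃ (_ : (E.subgroupOf K).Normal) (F : Type) (_ : Field F) (_ : Fintype F), Fintype.card F = 4 ∧ Nonempty (↥K ⧸ E.subgroupOf K ≃* Cfsg.PSU 6 F 2)) ∧ ∃ _ : (K.subgroupOf CL).Normal, Nonempty (↥CL ⧸ K.subgroupOf CL ≃* Equiv.Perm (Fin 3)) ∧ E ≤ CL ∧ ∃ (_ : (E.subgroupOf CL).Normal) (F : Type) (_ : Field F) (_ : Fintype F), Fintype.card F = 4 ∧ Nonempty (↥CL ⧸ E.subgroupOf CL ≃* MulAut (Cfsg.PSU 6 F 2)) := by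
  obtain ⟨e, r⟩ := CA.TC.real24 hD h24
  have h : CA.Loc.RG CA.TC.X24 D e := ⟨r, hD.2.2, h24.1⟩
  open CA.Fi3 CA.TC CA.Loc CA.Cov CA.Fi Subgroup in
  obtain ⟨e, h, a⟩ := rg_std h (tr24 r) (s := [2, 1, 0]) (by decide +kernel)
    (cl_three.2 ⟨h₁, h₂, h₃, h12, h13, h23, c12, c13, c23⟩) rfl (by simp)
  obtain ⟨rfl, rfl, rfl⟩ : d₁ = e 2 ∧ d₂ = e 1 ∧ d₃ = e 0 := by simpa using a
  subst hL
  open CA.Fi3 CA.TC CA.Loc CA.Cov CA.Fi Subgroup in
  have c : CA.Fi3.CL D (List.ofFn ![e 2, e 1, e 0]) := cl_three.2 ⟨h₁, h₂, h₃, h12, h13, h23, c12, c13, c23⟩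
  have e3 : CL = commutator G ⊓ Subgroup.centralizer {[e 2, e 1, e 0].prod} := by simp [hCL, mul_assoc]
  have t := CA.Fi3.tw24_3 h
  have q := CA.Fi3.qs24_3 h
  have cl := CA.Fi3.class24 h
  obtain ⟨φ, a, b⟩ := CA.Fi3.facHom24 h _ c (by simp) le_rfl e3
  change φ.ker = (commutator G ⊓ CA.Fi3.Cl [e 2, e 1, e 0]).subgroupOf CL at b
  have n : ((commutator G ⊓ CA.Fi3.Cl [e 2, e 1, e 0]).subgroupOf CL).Normal := b ▸ φ.normal_ker
  have le : commutator G ⊓ CA.Fi3.Cl [e 2, e 1, e 0] ≤ CL := e3 ▸ inf_le_inf_left _ (CA.Fi3.Cl_le_cent _)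
  have hE' : ∀ y ∈ CA.TC.nb (CA.TC.nb (CA.TC.nb D (e 0)) (e 1)) (e 2), y * e 2 ∈ commutator G :=
    fun _ hy => CA.Fi.mul_mem_commutator cl hy.1.1.1 h₁
  open CA.Fi3 CA.TC CA.Loc CA.Cov CA.Fi Subgroup in
  have nm : CL ≤ normalizer (nb (nb (nb D (e 0)) (e 1)) (e 2)) := e3 ▸ nb_three c ▸
    inf_le_right.trans (cent_le_norm hD.1 hD.2.1 (nr24 r) c (by simp) (by simp))
  rw [← t.Fstar t.real.sepU (by simp) hE' nm (e3 ▸ inf_le_left) le q] at hK
  open CA.Fi3 CA.TC CA.Loc CA.Cov CA.Fi Subgroup in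
  have e4 : E = commutator G ⊓ closure {a | a ∈ [e 2, e 1, e 0]} := by
    rw [inf_closure_twist (E := {a | a ∈ [e 2, e 1, e 0]}) (z := e 2) (by simpa using ⟨c12, c13⟩) (tt_sq hD.1 h₁) (subset_closure (by simp))
      (not_mem_comm h h₁) (fun y hy => mul_mem_commutator cl (c.2.1 y hy) h₁), hE,
      show {a | a ∈ [e 2, e 1, e 0]} = {e 2, e 1, e 0} by ext; simp]
    simp [Set.image_insert_eq, tt_sq hD.1 h₁, c12.eq, c13.eq]
  have z : (Subgroup.center K).map K.subtype = E := by rw [hK, e4]; exact t.center_half (by simp) hE'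
  have z' := CA.Fi3.center_eq_of_map z
  open CA.Fi3 CA.TC CA.Loc CA.Cov CA.Fi Subgroup in
  obtain ⟨ρ, ρ1, ρ2⟩ := t.aut ⟨CA.U6.real_F4, closure_F4, center_F4⟩ (fun _ _ h => h.sepU) (z := e 2) (by simp)
    (tt_sq hD.1 h₁) (not_mem_comm h h₁) hE' nm (e3 ▸ inf_le_left) le e4 (by
      rw [index_fac φ a b, CA.U6.real_F4.cardU closure_F4 center_F4]
      exact card_autU ⟨CA.U6.real_F4, closure_F4, center_F4⟩)
  have n1 : (E.subgroupOf K).Normal := z' ▸ inferInstance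
  have n2 : (E.subgroupOf CL).Normal := ρ2 ▸ ρ.normal_ker
  subst hK
  open CA.Fi3 CA.TC CA.Loc CA.Cov CA.Fi Subgroup in
  have rt := real_twist t.real (t.comm (z := e 2) (by simp)) (tt_sq hD.1 h₁)
  open CA.Fi3 CA.TC CA.Loc CA.Cov CA.Fi Subgroup in
  have rq := rg_quot rt rt.sepU (t.half (by simp) (tt_sq hD.1 h₁) (not_mem_comm h h₁) hE')
  obtain ⟨f⟩ := rq.toReal.isoU rq.gen rq.ctr
  refine ⟨q, z, le_antisymm (fun x hx => ⟨hx.1, Subgroup.mem_centralizer_iff.2 fun y hy =>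
      ((CA.FG.Comp.mem_map_center.1 (z ▸ hy)).2 x hx).symm⟩) fun x hx => ⟨hx.1, ?_⟩,
    ⟨n1, _, _, _, CA.U6.card_F4, ⟨(QuotientGroup.quotientMulEquivOfEq z').trans f⟩⟩, n,
    ⟨(QuotientGroup.quotientMulEquivOfEq b.symm).trans
      (QuotientGroup.quotientKerEquivOfSurjective φ a)⟩, (z ▸ Subgroup.map_subtype_le _).trans le, n2, _, _, _,
    CA.U6.card_F4, ⟨(QuotientGroup.quotientMulEquivOfEq ρ2.symm).trans
      (QuotientGroup.quotientKerEquivOfSurjective ρ ρ1)⟩⟩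
  open CA.Fi3 CA.TC CA.Loc CA.Cov CA.Fi Subgroup in
  have k : ∀ y ∈ D, e 2 ≠ y → Commute (e 2) y → Commute (e 2 * y) x → cj x (e 2) = e 2 ∨ cj x (e 2) = y :=
    fun y y1 y2 y3 y4 => by
      have c' := cl_two.2 ⟨h₁, y1, y2, y3⟩
      obtain ⟨u, v⟩ := c'.cj_prod hD.2.1 (g := x) (by simpa using y4)
      simpa using ((nr24 r).uniq hD.1 u c' (by simp) (by simp) v (cj x (e 2))).1 (by simp)
  have k1 : Commute (e 2 * e 1) x := Subgroup.mem_centralizer_iff.1 hx.2 _ (hE ▸ Subgroup.subset_closure (by simp))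
  have k2 : Commute (e 2 * e 0) x := Subgroup.mem_centralizer_iff.1 hx.2 _ (hE ▸ Subgroup.subset_closure (by simp))
  have k3 : Commute (e 2) x := (CA.Fi.cj_eq_iff.1 ((k _ h₂ h12 c12 k1).elim id fun u =>
    (k _ h₃ h13 c13 k2).resolve_right fun v => h23 (u.symm.trans v))).symm
  refine CA.Fi3.mem_Cl.2 ?_
  simpa using ⟨k3, by simpa using k3.inv_left.mul_left k1, by simpa using k3.inv_left.mul_left k2⟩

end Cfsg.Agent.S5466
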