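import Cfsg.Statements.S5468
import Cfsg.Agent.EqAll
import Cfsg.Agent.Fi3.C23
import Cfsg.Agent.Fi.IModel23

set_option autoImplicit false
open Cfsg

namespace Cfsg.Agent.S5468

/-- Let G be a finite group with trivial centre generated by a conjugation-invariant set D of 3-transpositions on which it acts primitively, such that for some d in D the subgroup generated by the members of D other than d commuting with d has central largest normal 2- and 3-subgroups, and suppose G with D is of type M(23). Let d₁, d₂ be distinct commuting members of D, j = d₁ d₂, K the joint centralizer of d₁ and d₂ and C the centralizer of j. Then K has index 2 in C, the centre of K is the subgroup generated by d₁ and d₂, K is quasisimple with K modulo its centre isomorphic to the projective special unitary group of dimension 6 over the field with four elements, and C modulo the subgroup generated by d₁ and d₂ has trivial centre (so it is that unitary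 group extended by an outer involution). -/
theorem result {G : Type*} [Group G] [Finite G] {D : Set G} (hD : Cfsg.IsThreeTranspositionGroup D) (hprim : Cfsg.IsPrimitiveUnderConj D) (d₀ : G) (hd₀ : d₀ ∈ D) (h3 : Cfsg.pCore 3 ↥(Subgroup.closure {y : G | y ∈ D ∧ y ≠ d₀ ∧ Commute d₀ y}) ≤ Subgroup.center ↥(Subgroup.closure {y : G | y ∈ D ∧ y ≠ d₀ ∧ Commute d₀ y})) (h2 : Cfsg.pCore 2 ↥(Subgroup.closure {y : G | y ∈ D ∧ y ≠ d₀ ∧ Commute d₀ y}) ≤ Subgroup.center ↥(Subgroup.closure {y : G | y ∈ D ∧ y ≠ d₀ ∧ Commute d₀ y})) (h23 : Cfsg.IsOfTypeM23 G D) (d₁ d₂ : G) (h₁ : d₁ ∈ D) (h₂ : d₂ ∈ D) (hne : d₁ ≠ d₂) (hc : Commute d₁ d₂) (K C V : Subgroup G) (hK : K = Subgroup.centralizer ({d₁, d₂} : Set G)) (hC : C = Subgroup.centralizer ({d₁ * d₂} : Set G)) (hV : V = Subgroup.closure ({d₁, d₂} : Set G)) [hn : (V.subgroupOf C).Normal] : K ≤ C ∧ (K.subgroupOf C).index = 2 ∧ (Subgroup.center ↥K).map K.subtype = V ∧ Cfsg.IsQuasisimple ↥K ∧ (∃ (F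 : Type) (_ : Field F) (_ : Fintype F), Fintype.card F = 4 ∧ Nonempty (↥K ⧸ Subgroup.center ↥K ≃* Cfsg.PSU 6 F 2)) ∧ Subgroup.center (↥C ⧸ V.subgroupOf C) = ⊥ := by
  obtain ⟨e, r⟩ := CA.TC.real23 hD h23
  have h : CA.Loc.RG CA.TC.X23 D e := ⟨r, hD.2.2, h23.1⟩
  open CA.Fi3 CA.TC CA.Loc CA.Cov CA.Fi Subgroup in
  obtain ⟨e, h, a⟩ := rg_std h (tr23 r) (s := [0, 1]) (by decide +kernel) (cl_two.2 ⟨h₁, h₂, hne, hc⟩) rfl (by simp)
  obtain ⟨rfl, rfl⟩ : d₁ = e 0 ∧ d₂ = e 1 := by simpa using a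
  have e1 : K = CA.Fi3.Cl [e 1, e 0] := by
    rw [hK, CA.Fi3.Cl]; congr 1; ext; simp [or_comm]
  have e2 : V = Subgroup.closure {a | a ∈ [e 1, e 0]} := by
    rw [hV]; congr 1; ext; simp [or_comm]
  have e3 : C = Subgroup.centralizer {[e 1, e 0].prod} := by simp [hC, hc.eq]
  have c : CA.Fi3.CL D (List.ofFn ![e 1, e 0]) := CA.Fi3.cl_two.2 ⟨h₂, h₁, hne.symm, hc.symm⟩
  have t := CA.Fi3.tw23_2 h
  have le : K ≤ C := fun g hg => e3 ▸ CA.Cov.mem_cent.2
    (CA.Fi3.commute_prod fun x hx => (CA.Fi3.mem_Cl.1 (e1 ▸ hg) x hx).symm).symm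
  open CA.Fi3 CA.TC CA.Loc CA.Cov CA.Fi Subgroup in
  obtain ⟨φ, a, b, -⟩ := exists_facHom hD.2.1 (tr23 r) (by norm_num) _ c
    (fun l hl h3 hp x => ((nr23 hD.1 r).uniq hD.1 hl c (by omega) (by simp [h3]) hp x).1) C e3.le
    fun g hg => ⟨g, e3 ▸ mem_cent.2 hg, fun _ => rfl⟩
  subst e1
  open CA.Fi3 CA.TC CA.Loc CA.Cov CA.Fi Subgroup in
  exact ⟨le, index_fac φ a b, e2 ▸ t.center, qs23_2 h, ⟨_, _, _, CA.U6.card_F4, t.isoU⟩,
    t.center_quot t.real.sepU (e3 ▸ nb_two c ▸ cent_le_norm hD.1 hD.2.1 (nr23 hD.1 r) c (by simp) (by simp)) le e2⟩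

end Cfsg.Agent.S5468
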