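import Cfsg.Statements.S5469
import Cfsg.Agent.Cov.C22

set_option autoImplicit false
open Cfsg

namespace Cfsg.Agent.S5469

/-- Let G be a finite group with trivial centre generated by a conjugation-invariant set D of 3-transpositions on which it acts primitively, such that for some d in D the subgroup generated by the members of D other than d commuting with d has central largest normal 2- and 3-subgroups, and suppose G with D is of type M(22). Let d₁, d₂ be distinct commuting members of D, j = d₁ d₂, K the joint centralizer of d₁ and d₂, C the centralizer of j and V the subgroup generated by d₁ and d₂. Then K has index 2 in C, V is the centre of K, and C has a normal subgroup E containing V with E/V elementary abelian of order 2^8 and C/E isomorphic to the full automorphism group of the projective special unitary group of dimension 4 over the field with four elements. -/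
theorem result {G : Type*} [Group G] [Finite G] {D : Set G} (hD : Cfsg.IsThreeTranspositionGroup D) (hprim : Cfsg.IsPrimitiveUnderConj D) (d₀ : G) (hd₀ : d₀ ∈ D) (h3 : Cfsg.pCore 3 ↥(Subgroup.closure {y : G | y ∈ D ∧ y ≠ d₀ ∧ Commute d₀ y}) ≤ Subgroup.center ↥(Subgroup.closure {y : G | y ∈ D ∧ y ≠ d₀ ∧ Commute d₀ y})) (h2 : Cfsg.pCore 2 ↥(Subgroup.closure {y : G | y ∈ D ∧ y ≠ d₀ ∧ Commute d₀ y}) ≤ Subgroup.center ↥(Subgroup.closure {y : G | y ∈ D ∧ y ≠ d₀ ∧ Commute d₀ y})) (h22 : Cfsg.IsOfTypeM22 G D) (d₁ d₂ : G) (h₁ : d₁ ∈ D) (h₂ : d₂ ∈ D) (hne : d₁ ≠ d₂) (hc : Commute d₁ d₂) (K C V : Subgroup G) (hK : K = Subgroup.centralizer ({d₁, d₂} : Set G)) (hC : C = Subgroup.centralizer ({d₁ * d₂} : Set G)) (hV : V = Subgroup.closure ({d₁, d₂} : Set G)) : K ≤ C ∧ (K.subgroupOf C).index = 2 ∧ (Subgroup.center ↥K).map K.subtype = V ∧ ∃ E : Subgroup G, V ≤ E ∧ E ≤ C ∧ (∀ c ∈ C, ∀ x ∈ E, c * x * c⁻¹ ∈ E) ∧ Nat.card E = 2 ^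 10 ∧ (∀ x ∈ E, ∀ y ∈ E, x * y * x⁻¹ * y⁻¹ ∈ V ∧ x ^ 2 ∈ V) ∧ ∃ (_ : (E.subgroupOf C).Normal) (F : Type) (_ : Field F) (_ : Fintype F), Fintype.card F = 4 ∧ Nonempty (↥C ⧸ E.subgroupOf C ≃* MulAut (Cfsg.PSU 4 F 2)) := by
  obtain ⟨e, h⟩ := CA.TC.real22 hD h22
  obtain ⟨e, h, he⟩ := CA.Fi3.rg_std ⟨h, hD.2.2, h22.1⟩ (CA.Fi3.tr22 h) (s := [0, 1]) (by decide +kernel)
    (CA.Fi3.cl_two.2 ⟨h₁, h₂, hne, hc⟩) rfl (by simp)
  obtain ⟨rfl, rfl⟩ : d₁ = e 0 ∧ d₂ = e 1 := by simpa using he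
  obtain ⟨Q, _, -, ⟨φ⟩, a1, a2, a3, a4, a5, -⟩ := CA.Cov.cent22_two h hC
  have v0 : e 0 ∈ V := hV ▸ Subgroup.subset_closure (by simp)
  have v1 : e 1 ∈ V := hV ▸ Subgroup.subset_closure (by simp)
  have q : (Q.map C.subtype).subgroupOf C = Q := Subgroup.comap_map_eq_self_of_injective C.subtype_injective Q
  have n : ((Q.map C.subtype).subgroupOf C).Normal := by rw [q]; infer_instance
  subst hK
  refine ⟨fun x hx => hC ▸ CA.Fi.mem_cent_iff.2
    ((CA.Cov.mem_cent_pair.1 hx).1.mul_right (CA.Cov.mem_cent_pair.1 hx).2), hC ▸ (CA.Cov.ra_of_rg h).idx22,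
    le_antisymm (fun x hx => hV ▸ a5 x (CA.FG.Comp.mem_map_center.1 hx).1 fun y hy =>
      ((CA.FG.Comp.mem_map_center.1 hx).2 y hy).symm) (hV ▸ (Subgroup.closure_le _).2 ?_), Q.map C.subtype,
    hV ▸ (Subgroup.closure_le _).2 (by rintro x (rfl | rfl); exacts [a2, a3]), Subgroup.map_subtype_le Q, ?_, a1,
    fun x hx y hy => (a4 x hx y hy).imp (fun a => ?_) fun a => ?_, n, CA.U6.F4, inferInstance,
    inferInstance, CA.U6.card_F4, ⟨(QuotientGroup.quotientMulEquivOfEq q).trans φ⟩⟩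
  · rintro x (rfl | rfl)
    exacts [CA.FG.Comp.mem_map_center.2 ⟨CA.Cov.mem_cent_pair.2 ⟨rfl, hc⟩, fun y hy => (CA.Cov.mem_cent_pair.1 hy).1⟩,
      CA.FG.Comp.mem_map_center.2 ⟨CA.Cov.mem_cent_pair.2 ⟨hc.symm, rfl⟩, fun y hy => (CA.Cov.mem_cent_pair.1 hy).2⟩]
  · rintro c hc _ ⟨x, hx, rfl⟩
    exact ⟨_, Subgroup.Normal.conj_mem inferInstance x hx ⟨c, hc⟩, rfl⟩
  · rcases a with a | a <;> rw [a]
    exacts [one_mem _, mul_mem v0 v1]
  · rcases a with a | a <;> rw [a]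
    exacts [one_mem _, mul_mem v0 v1]

end Cfsg.Agent.S5469
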