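import Cfsg.Statements.S5471
import Cfsg.Agent.EqAll
import Cfsg.Agent.Fi3.Fac
import Cfsg.Agent.Fi.IModel23

set_option autoImplicit false
open Cfsg

namespace Cfsg.Agent.S5471

/-- Let G be a finite group with trivial centre generated by a conjugation-invariant set D of 3-transpositions on which it acts primitively, such that for some d in D the subgroup generated by the members of D other than d commuting with d has central largest normal 2- and 3-subgroups, and suppose G with D is of type M(23). Let d₁, d₂, d₃ be distinct pairwise commuting members of D and j their product. Then the joint centralizer of d₁, d₂, d₃ is normal in the centralizer of j with quotient isomorphic to the symmetric group of degree 3. -/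
theorem result {G : Type*} [Group G] [Finite G] {D : Set G} (hD : Cfsg.IsThreeTranspositionGroup D) (hprim : Cfsg.IsPrimitiveUnderConj D) (d₀ : G) (hd₀ : d₀ ∈ D) (h3 : Cfsg.pCore 3 ↥(Subgroup.closure {y : G | y ∈ D ∧ y ≠ d₀ ∧ Commute d₀ y}) ≤ Subgroup.center ↥(Subgroup.closure {y : G | y ∈ D ∧ y ≠ d₀ ∧ Commute d₀ y})) (h2 : Cfsg.pCore 2 ↥(Subgroup.closure {y : G | y ∈ D ∧ y ≠ d₀ ∧ Commute d₀ y}) ≤ Subgroup.center ↥(Subgroup.closure {y : G | y ∈ D ∧ y ≠ d₀ ∧ Commute d₀ y})) (h23 : Cfsg.IsOfTypeM23 G D) (d₁ d₂ d₃ : G) (h₁ : d₁ ∈ D) (h₂ : d₂ ∈ D) (h₃ : d₃ ∈ D) (h12 : d₁ ≠ d₂) (h13 : d₁ ≠ d₃) (h23 : d₂ ≠ d₃) (c12 : Commute d₁ d₂) (c13 : Commute d₁ d₃) (c23 : Commute d₂ d₃) (K C : Subgroup G) (hK : K = Subgroup.centralizer ({d₁, d₂, d₃} : Set G)) (hC : C = Subgroup.centralizer ({d₁ * d₂ * d₃} : Set G)) : K ≤ C ∧ ∃ _ : (K.subgroupOf C).Normal, Nonempty (↥C ⧸ K.subgroupOf C ≃* Equiv.Perm (Fin 3)) := by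
  obtain ⟨e, r⟩ := CA.TC.real23 hD ‹_›
  open CA.Fi3 CA.TC CA.Loc CA.Cov CA.Fi Subgroup in
  have c : CL D (List.ofFn ![d₁, d₂, d₃]) := cl_three.2 ⟨h₁, h₂, h₃, h12, h13, h23, c12, c13, c23⟩
  have e1 : (List.ofFn ![d₁, d₂, d₃]).prod = d₁ * d₂ * d₃ := by simp [mul_assoc]
  have e2 : K = CA.Fi3.Cl (List.ofFn ![d₁, d₂, d₃]) := by
    rw [hK, CA.Fi3.Cl]; congr 1; ext; simp
  open CA.Fi3 CA.TC CA.Loc CA.Cov CA.Fi Subgroup in
  obtain ⟨φ, a, b, -⟩ := exists_facHom hD.2.1 (tr23 r) (by norm_num) _ c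
    (fun l hl h3 hp x => ((nr23 hD.1 r).uniq hD.1 hl c h3.le (by simp [h3]) hp x).1) C (by rw [hC, e1])
    fun g hg => ⟨g, by rw [hC, ← e1]; exact mem_cent.2 hg, fun _ => rfl⟩
  rw [← e2] at b
  haveI : (K.subgroupOf C).Normal := b ▸ φ.normal_ker
  refine ⟨fun g hg => ?_, this, ⟨(QuotientGroup.quotientMulEquivOfEq b.symm).trans
    (QuotientGroup.quotientKerEquivOfSurjective φ a)⟩⟩
  rw [hC, ← e1, CA.Cov.mem_cent]
  exact (CA.Fi3.commute_prod fun x hx => (CA.Fi3.mem_Cl.1 (e2 ▸ hg) x hx).symm).symm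

end Cfsg.Agent.S5471
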