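import Cfsg.Statements.S5517
import Cfsg.Agent.F3.Refl23
import Cfsg.Agent.Loc.R22
import Cfsg.Agent.S0292

set_option autoImplicit false
open Cfsg

namespace Cfsg.Agent.S5517

theorem fact9 {m n : ℕ} (h : n = 3 ^ 9 * m) (hm : ¬ 3 ∣ m) : n.factorization 3 = 9 := by
  have h0 : m ≠ 0 := fun e => hm (e ▸ dvd_zero 3)
  rw [h, Nat.factorization_mul (by norm_num) h0, Finsupp.add_apply,
    Nat.factorization_eq_zero_of_not_dvd hm, Nat.prime_three.factorization_pow, Finsupp.single_eq_same, add_zero]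


/-- Let G be a finite group with trivial centre generated by a conjugation-invariant set D of 3-transpositions on which it acts primitively, such that for some d in D the subgroup generated by the members of D other than d commuting with d has central largest normal 2- and 3-subgroups, and suppose G with D is of type M(22). Then G has a subgroup L generated by the members of D it contains and isomorphic to Ω(7, 3) (the commutator subgroup of the isometry group of a non-degenerate 7-dimensional quadratic form over the field with three elements, modulo its centre), and every Sylow 3-subgroup of L is a Sylow 3-subgroup of G. -/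
theorem result {G : Type*} [Group G] [Finite G] {D : Set G} (hD : Cfsg.IsThreeTranspositionGroup D) (hprim : Cfsg.IsPrimitiveUnderConj D) (d₀ : G) (hd₀ : d₀ ∈ D) (h3 : Cfsg.pCore 3 ↥(Subgroup.closure {y : G | y ∈ D ∧ y ≠ d₀ ∧ Commute d₀ y}) ≤ Subgroup.center ↥(Subgroup.closure {y : G | y ∈ D ∧ y ≠ d₀ ∧ Commute d₀ y})) (h2 : Cfsg.pCore 2 ↥(Subgroup.closure {y : G | y ∈ D ∧ y ≠ d₀ ∧ Commute d₀ y}) ≤ Subgroup.center ↥(Subgroup.closure {y : G | y ∈ D ∧ y ≠ d₀ ∧ Commute d₀ y})) (h22 : Cfsg.IsOfTypeM22 G D) : ∃ L : Subgroup G, Cfsg.IsDSubgroup D L ∧ Nonempty (↥L ≃* Cfsg.POmega (ZMod 3) (Cfsg.quadFormOdd 3 (ZMod 3))) ∧ ∀ P : Sylow 3 ↥L, ∃ P' : Sylow 3 G, (P : Subgroup ↥L).map L.subtype = (P' : Subgroup G) := by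
  obtain ⟨e, h⟩ := CA.Loc.rg22 hD h22
  have h1 := CA.F3.real_sub h.toReal CA.F3.T351_ok CA.F3.kT351E CA.F3.kT351O
  have hZ := CA.F3.center_sub h (E := {d | ∃ p < CA.F3.T351.n, e (CA.F3.e351 p) = d}) fun y hy z =>
    CA.F3.cen351 h.toReal (h.gen ▸ Subgroup.mem_top y) (fun p hp => hy _ ⟨p, hp, rfl⟩) (h.gen ▸ Subgroup.mem_top z)
  obtain ⟨⟨φ⟩, -⟩ := CA.F3.iso351 h1 hZ
  have hE : {d | ∃ p < CA.F3.T351.n, e (CA.F3.e351 p) = d} ⊆ D := by
    rintro _ ⟨p, hp, rfl⟩
    exact h.mem _ ((CA.F3.subE_spec CA.F3.kT351E).1 p hp)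
  generalize {d | ∃ p < CA.F3.T351.n, e (CA.F3.e351 p) = d} = E at φ hE
  refine ⟨Subgroup.closure E, le_antisymm ((Subgroup.closure_le _).2 fun x hx => hx.2)
    (Subgroup.closure_mono fun x hx => ⟨hE hx, Subgroup.subset_closure hx⟩), ⟨φ⟩, fun P => ?_⟩
  have c1 := Cfsg.Agent.S0292.result (F := ZMod 3) (q := 3) (by simp) (by decide) 3 le_rfl
  rw [← Nat.card_congr φ.toEquiv] at c1
  have c2 : Nat.card (Subgroup.closure E) = 3 ^ 9 * 232960 := by
    norm_num [Finset.prod_range_succ] at c1 ⊢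
    omega
  refine ⟨Sylow.ofCard ((P : Subgroup (Subgroup.closure E)).map (Subgroup.closure E).subtype) ?_, rfl⟩
  rw [Subgroup.card_subtype, P.card_eq_multiplicity, fact9 c2 (by norm_num),
    fact9 (m := 3280076800) (h.cd22.trans (by norm_num)) (by norm_num)]

end Cfsg.Agent.S5517
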