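import Cfsg.Statements.S5520
import Cfsg.Agent.U6.Class

set_option autoImplicit false
open Cfsg

namespace Cfsg.Agent.S5520

open CA.U6 Cfsg.Agent.Unit CA.FG in

/-- In the special unitary group of dimension 6 over the field with four elements (determinant-one matrices preserving the standard Hermitian form), the subgroups K whose centre has order 3 with K modulo its centre isomorphic to the projective special unitary group of dimension 4 over the field with nine elements fall into exactly three conjugacy classes. -/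
theorem result (F : Type) [Field F] [Fintype F] (hF : Fintype.card F = 4) (F9 : Type) [Field F9] [Fintype F9] (hF9 : Fintype.card F9 = 9) : ∃ K₁ K₂ K₃ : Subgroup ↥(Cfsg.SU 6 F 2), (∀ K ∈ [K₁, K₂, K₃], Nat.card ↥(Subgroup.center ↥K) = 3 ∧ Nonempty (↥K ⧸ Subgroup.center ↥K ≃* Cfsg.PSU 4 F9 3)) ∧ (¬ ∃ g : ↥(Cfsg.SU 6 F 2), K₁.map (MulAut.conj g).toMonoidHom = K₂) ∧ (¬ ∃ g : ↥(Cfsg.SU 6 F 2), K₁.map (MulAut.conj g).toMonoidHom = K₃) ∧ (¬ ∃ g : ↥(Cfsg.SU 6 F 2), K₂.map (MulAut.conj g).toMonoidHom = K₃) ∧ ∀ K : Subgroup ↥(Cfsg.SU 6 F 2), Nat.card ↥(Subgroup.center ↥K) = 3 → Nonempty (↥K ⧸ Subgroup.center ↥K ≃* Cfsg.PSU 4 F9 3) → ∃ g : ↥(Cfsg.SU 6 F 2), K.map (MulAut.conj g).toMonoidHom = K₁ ∨ K.map (MulAut.conj g).toMonoidHom = K₂ ∨ K.map (MulAut.conj g).toMonoidHom = K₃ := by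
    obtain ⟨e⟩ := nonempty_K0_equiv hF9
    obtain ⟨K, h1, h2, h3⟩ := three_classes
      ((suCongr (FiniteField.ringEquivOfCardEq (hF.trans card_F4.symm)) 6 2).trans (fq4.su 6)) e
    refine ⟨K 1, K omU, K omU⁻¹, fun L hL => ?_, fun ⟨g, h⟩ => absurd (h2 _ _ g h) (by decide),
      fun ⟨g, h⟩ => absurd (h2 _ _ g h) (by decide), fun ⟨g, h⟩ => absurd (h2 _ _ g h) (by decide),
      fun L hZ hL => ?_⟩
    · simp only [List.mem_cons, List.not_mem_nil, or_false] at hL
      rcases hL with rfl | rfl | rfl <;> exact h1 _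
    · obtain ⟨g, c, h⟩ := h3 L hZ hL
      refine ⟨g, ?_⟩
      rcases units_cases c with rfl | rfl | rfl
      exacts [.inl h, .inr (.inl h), .inr (.inr h)]

end Cfsg.Agent.S5520
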