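import Cfsg.Statements.S5541
import Cfsg.Agent.EqAll

set_option autoImplicit false
open Cfsg

namespace Cfsg.Agent.S5541

/-- Let ρ be a representation of a group H on a finite-dimensional real vector space U whose only ρ-invariant subspaces are the zero subspace and U, and suppose U carries a non-zero ρ-invariant symmetric bilinear form. Then the following are equivalent: (1) there is a non-zero ρ-equivariant commutative bilinear product on U of which every ρ-equivariant bilinear product is a scalar multiple; (2) there is a non-zero ρ-invariant trilinear form on U that is symmetric under all permutations of its arguments and of which every ρ-invariant trilinear form is a scalar multiple. -/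
theorem result {H : Type*} [Group H] {U : Type*} [AddCommGroup U] [Module ℝ U] [FiniteDimensional ℝ U] (ρ : Representation ℝ H U) (hirr : ∀ W : Submodule ℝ U, (∀ g : H, W.map (ρ g) ≤ W) → W = ⊥ ∨ W = ⊤) (B : LinearMap.BilinForm ℝ U) (hB0 : B ≠ 0) (hBs : ∀ u v, B u v = B v u) (hBi : ∀ (g : H) (u v : U), B (ρ g u) (ρ g v) = B u v) : (∃ m : U →ₗ[ℝ] U →ₗ[ℝ] U, m ≠ 0 ∧ (∀ u v, m u v = m v u) ∧ (∀ (g : H) (u v : U), m (ρ g u) (ρ g v) = ρ g (m u v)) ∧ ∀ m' : U →ₗ[ℝ] U →ₗ[ℝ] U, (∀ (g : H) (u v : U), m' (ρ g u) (ρ g v) = ρ g (m' u v)) → ∃ c : ℝ, m' = c • m) ↔ (∃ t : U →ₗ[ℝ] U →ₗ[ℝ] U →ₗ[ℝ] ℝ, t ≠ 0 ∧ (∀ u v w, t u v w = t v u w ∧ t u v w = t u w v) ∧ (∀ (g : H) (u v w : U), t (ρ g u) (ρ g v) (ρ g w) = t u v w) ∧ ∀ t' : U →ₗ[ℝ] U →ₗ[ℝ] U →ₗ[ℝ] ℝ, (∀ (g : H) (u v w : U), t' (ρ g u) (ρ g v) (ρ g w) = t' u v w) → ∃ c : ℝ, t' = c • t) := by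
  -- `B` is non-degenerate
  have hnd : ∀ u, (∀ v, B u v = 0) → u = 0 := by
    rcases hirr (LinearMap.ker B) (by
      rintro g _ ⟨u, hu, rfl⟩
      rw [SetLike.mem_coe, LinearMap.mem_ker] at hu
      rw [LinearMap.mem_ker]
      ext v
      have := hBi g u (ρ g⁻¹ v)
      rw [Representation.self_inv_apply] at this
      rw [this, hu]; rfl) with h | h
    · intro u hu
      have : u ∈ LinearMap.ker B := by rw [LinearMap.mem_ker]; ext v; exact hu v
      rwa [h, Submodule.mem_bot] at this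
    · exact absurd (LinearMap.ker_eq_top.1 h) hB0
  have hN : B.Nondegenerate := ⟨hnd, fun v hv => hnd v fun u => by rw [hBs]; exact hv u⟩
  let e : U ≃ₗ[ℝ] Module.Dual ℝ U := B.toDual hN
  have he : ∀ u v, e u v = B u v := fun u v => rfl
  let toT : (U →ₗ[ℝ] U →ₗ[ℝ] U) → (U →ₗ[ℝ] U →ₗ[ℝ] U →ₗ[ℝ] ℝ) := fun m => m.compr₂ e.toLinearMap
  let toM : (U →ₗ[ℝ] U →ₗ[ℝ] U →ₗ[ℝ] ℝ) → (U →ₗ[ℝ] U →ₗ[ℝ] U) := fun t => t.compr₂ e.symm.toLinearMap
  have hT : ∀ m u v w, toT m u v w = B (m u v) w := fun _ _ _ _ => rfl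
  have hM : ∀ t u v w, B (toM t u v) w = t u v w := fun t u v w => by
    rw [← he]; simp [toM]
  have ext : ∀ x y : U, (∀ w, B x w = B y w) → x = y := fun x y h =>
    sub_eq_zero.1 (hnd _ fun v => by rw [map_sub, LinearMap.sub_apply, h, sub_self])
  have hTinv : ∀ m : U →ₗ[ℝ] U →ₗ[ℝ] U, (∀ (g : H) (u v : U), m (ρ g u) (ρ g v) = ρ g (m u v)) →
      ∀ (g : H) (u v w : U), toT m (ρ g u) (ρ g v) (ρ g w) = toT m u v w := by
    intro m hm g u v w
    rw [hT, hT, hm, hBi]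
  have hMinv : ∀ t : U →ₗ[ℝ] U →ₗ[ℝ] U →ₗ[ℝ] ℝ, (∀ (g : H) (u v w : U), t (ρ g u) (ρ g v) (ρ g w) = t u v w) →
      ∀ (g : H) (u v : U), toM t (ρ g u) (ρ g v) = ρ g (toM t u v) := by
    intro t ht g u v
    apply ext
    intro w
    have h1 := ht g u v (ρ g⁻¹ w)
    have h2 := hBi g (toM t u v) (ρ g⁻¹ w)
    rw [Representation.self_inv_apply] at h1 h2
    rw [hM, h1, h2, hM]
  constructor
  · rintro ⟨m, hm0, hms, hmi, hmu⟩
    have huniq : ∀ t' : U →ₗ[ℝ] U →ₗ[ℝ] U →ₗ[ℝ] ℝ,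
        (∀ (g : H) (u v w : U), t' (ρ g u) (ρ g v) (ρ g w) = t' u v w) → ∃ c : ℝ, t' = c • toT m := by
      intro t' ht'
      obtain ⟨c, hc⟩ := hmu _ (hMinv t' ht')
      refine ⟨c, ?_⟩
      ext u v w
      rw [← hM, hc]; simp [hT]
    have ht0 : toT m ≠ 0 := by
      intro h
      apply hm0
      ext u v
      exact hnd _ fun w => by rw [← hT, h]; rfl
    refine ⟨toT m, ht0, ?_, hTinv m hmi, huniq⟩
    have hs1 : ∀ u v w, toT m u v w = toT m v u w := fun u v w => by rw [hT, hT, hms]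
    let t' : U →ₗ[ℝ] U →ₗ[ℝ] U →ₗ[ℝ] ℝ := (LinearMap.lflip.toLinearMap).comp (toT m)
    have ht' : ∀ u v w, t' u v w = toT m u w v := fun _ _ _ => rfl
    obtain ⟨c, hc⟩ := huniq t' (fun g u v w => by rw [ht', ht', hTinv m hmi])
    have hc' : ∀ u v w, toT m u w v = c * toT m u v w := fun u v w => by rw [← ht', hc]; simp
    have hex : ∃ u v w, toT m u v w ≠ 0 := by
      by_contra! h
      exact ht0 (by ext u v w; exact h u v w)
    obtain ⟨u, v, w, h0⟩ := hex
    have e2 : c * c = 1 := by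
      have := hc' u w v
      rw [hc' u v w, ← mul_assoc] at this
      exact (mul_left_eq_self₀.1 this.symm).resolve_right h0
    have e3 : c * c = c := by
      have h1 := hc' u v w
      have h2 : toT m u w v = c * c * toT m u v w := by
        rw [hs1 u w v, hc' w v u, hs1 w v u, hc' v u w, hs1 v u w, mul_assoc]
      exact mul_right_cancel₀ h0 (h2.symm.trans h1)
    intro u v w
    refine ⟨hs1 u v w, ?_⟩
    rw [hc' u v w, ← e3, e2, one_mul]
  · rintro ⟨t, ht0, hts, hti, htu⟩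
    refine ⟨toM t, fun h => ht0 ?_, fun u v => ext _ _ fun w => by rw [hM, hM, (hts u v w).1],
      hMinv t hti, fun m' hm' => ?_⟩
    · ext u v w
      rw [← hM, h]; simp
    · obtain ⟨c, hc⟩ := htu _ (hTinv m' hm')
      refine ⟨c, ?_⟩
      ext u v
      apply ext
      intro w
      rw [← hT, hc]; simp [hM]

end Cfsg.Agent.S5541
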