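import Cfsg.Statements.S5543
import Cfsg.Agent.EqAll

set_option autoImplicit false
open Cfsg

namespace Cfsg.Agent.S5543

/-- Let V be a finite-dimensional real vector space with a commutative bilinear product and a positive-definite symmetric bilinear form that associates with the product and satisfies the Norton inequality (the Majorana setting of the definitions). Let X be a group of linear automorphisms of V in which every element squares to the identity, and suppose every non-identity element x of X is a Majorana involution with an axial vector a(x) of squared length 1, such that for any two distinct non-identity x, y the product a(x) ∘ a(y) equals (1/8)(a(x) + a(y) − a(xy)) (the dihedral subalgebra of type 2A whose third axis belongs to the involution xy). Then X has order at most 4. -/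
theorem result {V : Type*} [AddCommGroup V] [Module ℝ V] [FiniteDimensional ℝ V] (mul : V →ₗ[ℝ] V →ₗ[ℝ] V) (B : LinearMap.BilinForm ℝ V) (hV : Cfsg.Axial.IsMajoranaAmbient mul B) (X : Subgroup (V ≃ₗ[ℝ] V)) (hX : ∀ x ∈ X, x * x = 1) (ax : (V ≃ₗ[ℝ] V) → V) (hax : ∀ x ∈ X, x ≠ 1 → Cfsg.Axial.IsMajoranaPair mul B x (ax x)) (h1 : ∀ x ∈ X, x ≠ 1 → B (ax x) (ax x) = 1) (h2A : ∀ x ∈ X, ∀ y ∈ X, x ≠ 1 → y ≠ 1 → x ≠ y → mul (ax x) (ax y) = (1 / 8 : ℝ) • (ax x + ax y - ax (x * y))) : Nat.card ↥X ≤ 4 := by
  by_contra hcard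
  push Not at hcard
  haveI : Finite X := Nat.finite_of_card_ne_zero (by omega)
  haveI := Fintype.ofFinite X
  classical
  have hex : ∀ s : Finset X, s.card ≤ 4 → ∃ x : X, x ∉ s := by
    intro s hs
    by_contra! h
    have : s = Finset.univ := Finset.eq_univ_iff_forall.2 h
    rw [this, Finset.card_univ, ← Nat.card_eq_fintype_card] at hs
    omega
  have sq : ∀ x : X, x * x = 1 := fun x => Subtype.ext (hX x x.2)
  have comm : ∀ x y : X, x * y = y * x := fun x y => by
    have h1 := sq (x * y)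
    calc x * y = (x * y)⁻¹ := (inv_eq_of_mul_eq_one_right h1).symm
      _ = y * x := by rw [mul_inv_rev, inv_eq_of_mul_eq_one_right (sq x), inv_eq_of_mul_eq_one_right (sq y)]
  obtain ⟨x, hx⟩ := hex {1} (by simp)
  obtain ⟨y, hy⟩ := hex {1, x} (Finset.card_le_two.trans (by norm_num))
  obtain ⟨z, hz⟩ := hex {1, x, y, x * y} Finset.card_le_four
  simp only [Finset.mem_insert, Finset.mem_singleton, not_or] at hx hy hz
  let A : X → V := fun x => ax x
  have hA : ∀ u v : X, u ≠ 1 → v ≠ 1 → u ≠ v → mul (A u) (A v) = (1 / 8 : ℝ) • (A u + A v - A (u * v)) :=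
    fun u v hu hv huv => h2A u u.2 v v.2 (fun h => hu (Subtype.ext h)) (fun h => hv (Subtype.ext h))
      (fun h => huv (Subtype.ext h))
  have hmul : ∀ u v : X, u ≠ v → u * v ≠ 1 := fun u v h h' => h (by
    calc u = u * (v * v) := by rw [sq, mul_one]
      _ = v := by rw [← mul_assoc, h', one_mul])
  have hq : ∀ u : X, u ≠ 1 → u ≠ x → A u - A (x * u) ∈ Cfsg.Axial.eigen mul (A x) (1 / 4) := by
    intro u hu hux
    rw [Cfsg.Axial.eigen, Module.End.mem_eigenspace_iff, map_sub, hA x u hx hu hux.symm,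
      hA x (x * u) hx (hmul x u hux.symm) (fun h => hu (by simpa using h.symm)), ← mul_assoc, sq, one_mul]
    module
  have hyz : y * z ≠ 1 := hmul y z (fun h => hz.2.2.1 h.symm)
  have hyzx : y * z ≠ x := fun h => hz.2.2.2 (by rw [← h, comm y z, mul_assoc, sq, mul_one])
  have hxy : x * y ≠ 1 := hmul x y (fun h => hy.2 h.symm)
  have hxz : x * z ≠ 1 := hmul x z (fun h => hz.2.1 h.symm)
  have hP := (hax x x.2 (fun h => hx (Subtype.ext h))).2.2.1.1
  have hfus := hP.2.2.2 (1 / 4) (by simp [Cfsg.Axial.majoranaSpectrum]) (1 / 4)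
    (by simp [Cfsg.Axial.majoranaSpectrum]) _ (hq y hy.1 hy.2) _ (hq z hz.1 hz.2.1)
  have hlaw : Cfsg.Axial.monsterLaw (1 / 4 : ℝ) (1 / 32) (1 / 4) (1 / 4) = {1, 0} := by
    rw [Cfsg.Axial.monsterLaw, if_neg (by norm_num), if_neg (by norm_num), if_pos ⟨rfl, rfl⟩]
  rw [hlaw] at hfus
  have hidem : ∀ w ∈ Cfsg.Axial.eigenSum mul (A x) {1, 0}, mul (A x) (mul (A x) w) = mul (A x) w := by
    intro w hw
    have : Cfsg.Axial.eigenSum mul (A x) {1, 0} ≤ LinearMap.eqLocus ((mul (A x)).comp (mul (A x))) (mul (A x)) := by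
      refine iSup₂_le fun c hc w hw => ?_
      rw [Cfsg.Axial.eigen, Module.End.mem_eigenspace_iff] at hw
      rw [LinearMap.mem_eqLocus, LinearMap.comp_apply, hw, map_smul, hw]
      rcases hc with rfl | rfl <;> simp
    exact this hw
  have e1 : y * (x * z) = x * (y * z) := by rw [← mul_assoc, comm y x, mul_assoc]
  have e2 : x * y * (x * z) = y * z := by rw [comm x y, mul_assoc, ← mul_assoc x, sq, one_mul]
  have hprod : mul (A y - A (x * y)) (A z - A (x * z)) = (-1 / 4 : ℝ) • (A (y * z) - A (x * (y * z))) := by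
    simp only [map_sub, LinearMap.sub_apply]
    rw [hA y z hy.1 hz.1 (fun h => hz.2.2.1 h.symm), hA y (x * z) hy.1 hxz (fun h => hz.2.2.2 (by
        rw [h, ← mul_assoc, sq, one_mul])), hA (x * y) z hxy hz.1 (fun h => hz.2.2.2 h.symm),
      hA (x * y) (x * z) hxy hxz (fun h => hz.2.2.1 (mul_left_cancel h).symm), e1, e2, mul_assoc]
    module
  have h3 := hidem _ hfus
  have h4 := hq (y * z) hyz hyzx
  rw [Cfsg.Axial.eigen, Module.End.mem_eigenspace_iff] at h4
  change mul (A x) (mul (A x) (mul (A y - A (x * y)) (A z - A (x * z)))) =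
    mul (A x) (mul (A y - A (x * y)) (A z - A (x * z))) at h3
  rw [hprod, map_smul, h4, map_smul, map_smul, h4] at h3
  have h5 : A (y * z) - A (x * (y * z)) = 0 := by
    have : (3 / 64 : ℝ) • (A (y * z) - A (x * (y * z))) = 0 := by
      rw [← sub_eq_zero] at h3
      rw [← h3]; module
    exact (smul_eq_zero.1 this).resolve_left (by norm_num)
  rw [sub_eq_zero] at h5
  have hxyz : x * (y * z) ≠ 1 := hmul _ _ hyzx.symm
  have h6 := hA (y * z) (x * (y * z)) hyz hxyz (fun h => hx (by simpa using h.symm))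
  have hid := (hax _ (y * z).2 (fun h => hyz (Subtype.ext h))).2.2.1.1.2.1
  change mul (A (y * z)) (A (y * z)) = A (y * z) at hid
  rw [← h5, hid, comm x (y * z), ← mul_assoc, sq, one_mul] at h6
  have h7 : A x = (-6 : ℝ) • A (y * z) := by
    have : A x = (-6 : ℝ) • A (y * z) + (8 : ℝ) • (A (y * z) - (1 / 8 : ℝ) • (A (y * z) + A (y * z) - A x)) := by
      module
    rw [this, ← h6]; simp
  have n1 : B (A x) (A x) = 1 := h1 x x.2 (fun h => hx (Subtype.ext h))
  have n2 : B (A (y * z)) (A (y * z)) = 1 := h1 _ (y * z).2 (fun h => hyz (Subtype.ext h))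
  rw [h7] at n1
  simp only [map_smul, LinearMap.smul_apply, smul_eq_mul, n2] at n1
  norm_num at n1

end Cfsg.Agent.S5543
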