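import Cfsg.Statements.S5544
import Cfsg.Agent.Fi.Sakuma

set_option autoImplicit false
open Cfsg

namespace Cfsg.Agent.S5544

open CA.Fi.Maj Cfsg.Axial

/-- Let V be a finite-dimensional real vector space with a commutative bilinear product and a positive-definite symmetric bilinear form that associates with the product and satisfies the Norton inequality (the Majorana setting of the definitions). Let μ₀ and μ₁ be Majorana involutions with axial vectors a₀ and a₁ of squared length 1, each involution having no other axial vector. Then the product μ₀μ₁ has order at most 6: some power (μ₀μ₁)^n with 1 ≤ n ≤ 6 is the identity (so the two involutions generate a dihedral group of order at most 12). This is the 6-transposition property of Majorana involutions. -/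
theorem result {V : Type*} [AddCommGroup V] [Module ℝ V] [FiniteDimensional ℝ V] (mul : V →ₗ[ℝ] V →ₗ[ℝ] V) (B : LinearMap.BilinForm ℝ V) (hV : Cfsg.Axial.IsMajoranaAmbient mul B) (μ₀ μ₁ : V ≃ₗ[ℝ] V) (a₀ a₁ : V) (h₀ : Cfsg.Axial.IsMajoranaPair mul B μ₀ a₀) (h₁ : Cfsg.Axial.IsMajoranaPair mul B μ₁ a₁) (hu₀ : ∀ a : V, Cfsg.Axial.IsMajoranaPair mul B μ₀ a → a = a₀) (hu₁ : ∀ a : V, Cfsg.Axial.IsMajoranaPair mul B μ₁ a → a = a₁) (hn₀ : B a₀ a₀ = 1) (hn₁ : B a₁ a₁ = 1) : ∃ n : ℕ, 1 ≤ n ∧ n ≤ 6 ∧ (μ₀ * μ₁) ^ n = 1 := by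
  have s0 := miyamoto_sq h₀
  have s1 := miyamoto_sq h₁
  have i0 : μ₀⁻¹ = μ₀ := inv_eq_of_mul_eq_one_right s0
  have i1 : μ₁⁻¹ = μ₁ := inv_eq_of_mul_eq_one_right s1
  have s0' : ∀ x, μ₀ * (μ₀ * x) = x := fun x => by rw [← mul_assoc, s0, one_mul]
  have s1' : ∀ x, μ₁ * (μ₁ * x) = x := fun x => by rw [← mul_assoc, s1, one_mul]
  have p2 := pair_conj h₀ h₁.1 h₁.2.1
  have q2 := pair_conj p2 h₀.1 h₀.2.1
  have p3 := pair_conj (pair_conj h₁ h₀.1 h₀.2.1) h₁.1 h₁.2.1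
  have q3 := pair_conj p3 h₀.1 h₀.2.1
  simp only [i0, i1, mul_assoc] at p2 q2 p3 q3
  rcases sakuma hV (ax_of hV h₀ hn₀) (ax_of hV h₁ hn₁) h₀.1 h₁.1 h₀.2.1 h₁.2.1
    (fun u => LinearEquiv.congr_fun s0 u) (fun u => LinearEquiv.congr_fun s1 u) with h | h | h | h | h
  · have := miyamoto_unique p2 (h.symm ▸ h₀)
    refine ⟨2, by norm_num, by norm_num, ?_⟩
    simp only [pow_succ, pow_zero, one_mul, mul_assoc, this, s0]
  · have := miyamoto_unique p3 (h.symm ▸ h₀)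
    refine ⟨3, by norm_num, by norm_num, ?_⟩
    simp only [pow_succ, pow_zero, one_mul, mul_assoc, this, s0]
  · have := miyamoto_unique q2 (h ▸ p2)
    refine ⟨4, by norm_num, by norm_num, ?_⟩
    have e : (μ₀ * μ₁) ^ 4 = (μ₀ * (μ₁ * (μ₀ * (μ₁ * μ₀)))) * (μ₁ * (μ₀ * μ₁)) := by
      simp only [pow_succ, pow_zero, one_mul, mul_assoc]
    rw [e, this]
    simp only [mul_assoc, s0', s1', s1]
  · have := miyamoto_unique q2 (h ▸ p3)
    refine ⟨5, by norm_num, by norm_num, ?_⟩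
    have e : (μ₀ * μ₁) ^ 5 = (μ₀ * (μ₁ * (μ₀ * (μ₁ * μ₀)))) * (μ₁ * (μ₀ * (μ₁ * (μ₀ * μ₁)))) := by
      simp only [pow_succ, pow_zero, one_mul, mul_assoc]
    rw [e, this]
    simp only [mul_assoc, s0', s1', s1]
  · have := miyamoto_unique q3 (h ▸ p3)
    refine ⟨6, by norm_num, by norm_num, ?_⟩
    have e : (μ₀ * μ₁) ^ 6 = (μ₀ * (μ₁ * (μ₀ * (μ₁ * (μ₀ * (μ₁ * μ₀)))))) * (μ₁ * (μ₀ * (μ₁ * (μ₀ * μ₁)))) := by
      simp only [pow_succ, pow_zero, one_mul, mul_assoc]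
    rw [e, this]
    simp only [mul_assoc, s0', s1', s1]

end Cfsg.Agent.S5544
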