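import Cfsg.Statements.S5545
import Cfsg.Agent.Fi.Maj

set_option autoImplicit false
open Cfsg

namespace Cfsg.Agent.S5545

open CA.Fi.Maj Cfsg.Axial

theorem key {V : Type*} [AddCommGroup V] [Module ℝ V] {mul : V →ₗ[ℝ] V →ₗ[ℝ] V} {B : LinearMap.BilinForm ℝ V}
    (hV : IsMajoranaAmbient mul B) {τ τ' : V ≃ₗ[ℝ] V} {x y : V} (hx : Ax mul B τ x) (hy : Ax mul B τ' y)
    (h1 : τ y = y) (h2 : τ' x = x) :
    mul x (mul x y) = (1 / 4 : ℝ) • mul x y + (3 / 4 * B x y) • x ∧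
    (1 - 8 * B x y) • (mul x y - B x y • x) = 0 ∧
    mul (mul x y) (mul x y) = (1 / 16 : ℝ) • ((12 * B x y - 2) • mul x y + (3 * B x y) • (x + y)) := by
  obtain ⟨hc, hs, -, has, -⟩ := hV
  have q1 := hx.quarter y
  have z1 := hx.zero y
  have q2 := hy.quarter x
  have f1 := hx.f00 _ _ z1 z1
  have f2 := hx.f04 _ _ z1 q1
  have f3 := hx.f44 _ _ q1 q1
  have b1 : B (mul x y) x = B x y := by rw [hs, has, hx.idem]
  have b2 : B x (mul x y) = B x y := by rw [has, hx.idem]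
  rw [h1] at q1 f1 f2 f3
  rw [h2, hc y x, hs y x] at q2
  have b3 : B (mul x y) (mul x y) = B (mul x (mul x y)) y := by rw [has, hc _ x]
  obtain ⟨p, hp⟩ : ∃ p, mul x y = p := ⟨_, rfl⟩
  have hp' : mul y x = p := (hc y x).trans hp
  have b4 : B p y = B x y := by rw [← hp, ← has, hy.idem]
  simp only [map_add, map_sub, map_smul, hp, hp', sub_self, smul_zero, sub_zero, hx.idem, hy.idem]
    at q1 q2 f1 f2 f3 b1 b2 b3 ⊢
  have e1 : mul x p = (1 / 4 : ℝ) • p + (3 / 4 * B x y) • x := by linear_combination (norm := module) (1 / 4 : ℝ) • q1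
  have e2 : mul y p = (1 / 4 : ℝ) • p + (3 / 4 * B x y) • y := by linear_combination (norm := module) (1 / 4 : ℝ) • q2
  rw [e1] at b3
  simp only [map_add, map_sub, map_smul, LinearMap.add_apply, LinearMap.sub_apply, LinearMap.smul_apply,
    hp, hp', hx.idem, hy.idem, hc p x, hc p y, e1, e2, b1, b2, b3, b4, hx.norm, smul_eq_mul] at f1 f2 f3
  exact ⟨e1, by linear_combination (norm := module) (2 : ℝ) • (f1 - f3),
    by linear_combination (norm := module) (1 / 4 : ℝ) • (f1 + f2)⟩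

/-- Let V be a finite-dimensional real vector space with a commutative bilinear product and a positive-definite symmetric bilinear form that associates with the product and satisfies the Norton inequality (the Majorana setting of the definitions). Let μ₀, μ₁ be commuting Majorana involutions with distinct axial vectors a₀ ≠ a₁ of squared length 1, each involution having no other axial vector. Then either a₀ and a₁ are orthogonal with a₀ ∘ a₁ = 0 (type 2B), or their inner product is 1/8 and, with a₂ = a₀ + a₁ − 8 a₀ ∘ a₁, the vector a₂ is an idempotent and a₀ ∘ a₂ = (1/8)(a₀ + a₂ − a₁), a₁ ∘ a₂ = (1/8)(a₁ + a₂ − a₀) (type 2A: the three idempotents span a subalgebra with aᵢ ∘ aⱼ = (1/8)(aᵢ + aⱼ − aₖ)). -/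
theorem result {V : Type*} [AddCommGroup V] [Module ℝ V] [FiniteDimensional ℝ V] (mul : V →ₗ[ℝ] V →ₗ[ℝ] V) (B : LinearMap.BilinForm ℝ V) (hV : Cfsg.Axial.IsMajoranaAmbient mul B) (μ₀ μ₁ : V ≃ₗ[ℝ] V) (a₀ a₁ : V) (h₀ : Cfsg.Axial.IsMajoranaPair mul B μ₀ a₀) (h₁ : Cfsg.Axial.IsMajoranaPair mul B μ₁ a₁) (hu₀ : ∀ a : V, Cfsg.Axial.IsMajoranaPair mul B μ₀ a → a = a₀) (hu₁ : ∀ a : V, Cfsg.Axial.IsMajoranaPair mul B μ₁ a → a = a₁) (hn₀ : B a₀ a₀ = 1) (hn₁ : B a₁ a₁ = 1) (hc : μ₀ * μ₁ = μ₁ * μ₀) (hne : a₀ ≠ a₁) : (B a₀ a₁ = 0 ∧ mul a₀ a₁ = 0) ∨ (B a₀ a₁ = 1 / 8 ∧ mul (a₀ + a₁ - (8 : ℝ) • mul a₀ a₁) (a₀ + a₁ - (8 : ℝ) • mul a₀ a₁) = a₀ + a₁ - (8 : ℝ) • mul a₀ a₁ ∧ mul a₀ (a₀ + a₁ - (8 : ℝ) • mul a₀ a₁) = (1 / 8 : ℝ) • (a₀ + (a₀ + a₁ - (8 : ℝ) • mul a₀ a₁) - a₁) ∧ mul a₁ (a₀ + a₁ - (8 : ℝ) • mul a₀ a₁) = (1 / 8 : ℝ) • (a₁ + (a₀ + a₁ - (8 : ℝ) • mul a₀ a₁) - a₀)) := by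
  have e0 : μ₁ a₀ = a₀ := hu₀ _ (by
    have := pair_conj h₀ h₁.1 h₁.2.1
    rwa [← hc, mul_inv_cancel_right] at this)
  have e1 : μ₀ a₁ = a₁ := hu₁ _ (by
    have := pair_conj h₁ h₀.1 h₀.2.1
    rwa [hc, mul_inv_cancel_right] at this)
  have x0 := ax_of hV h₀ hn₀
  have x1 := ax_of hV h₁ hn₁
  obtain ⟨k1, k2, k3⟩ := key hV x0 x1 e1 e0
  obtain ⟨k4, k5, -⟩ := key hV x1 x0 e0 e1
  rw [hV.1 a₁ a₀, hV.2.1 a₁ a₀] at k4 k5
  by_cases h : B a₀ a₁ = 1 / 8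
  · refine Or.inr ⟨h, ?_⟩
    rw [h] at k1 k3 k4
    simp only [map_add, map_sub, map_smul, LinearMap.add_apply, LinearMap.sub_apply, LinearMap.smul_apply,
      x0.idem, x1.idem, hV.1 a₁ a₀, hV.1 (mul a₀ a₁) a₀, hV.1 (mul a₀ a₁) a₁, k1, k3, k4]
    exact ⟨by module, by module, by module⟩
  · have h' : 1 - 8 * B a₀ a₁ ≠ 0 := fun e => h (by linarith)
    have k6 := (smul_eq_zero.1 k2).resolve_left h'
    have k7 := (smul_eq_zero.1 k5).resolve_left h'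
    have : B a₀ a₁ • (a₀ - a₁) = 0 := by linear_combination (norm := module) k7 - k6
    have h0 := (smul_eq_zero.1 this).resolve_right (sub_ne_zero.2 hne)
    exact Or.inl ⟨h0, by simpa [h0] using k6⟩

end Cfsg.Agent.S5545
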