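import Cfsg.Statements.S5546
import Cfsg.Agent.M24.Leech5

set_option autoImplicit false
open Cfsg

namespace Cfsg.Agent.S5546

open CA.M24
open scoped Pointwise
set_option maxRecDepth 100000
set_option maxHeartbeats 400000

open Cfsg

/-- a spanning family of the orthogonal complement -/
noncomputable def bb (k : ZMod 23) : Vec := if k = 0 then e8 (some 0) - e8 none else e8 (some k)

theorem bb_mem (k : ZMod 23) : bb k ∈ leechLattice := by
  unfold bb
  split_ifs
  exacts [sub_mem (e8_mem _) (e8_mem _), e8_mem _]

theorem bb_perp : ∀ k, bb k none + bb k (some 0) = 0 := by decide +kernel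
theorem bb_some : ∀ k i, bb k (some i) = if i = k then 8 else 0 := by decide +kernel
theorem bb_none : ∀ k, bb k none = if k = 0 then -8 else 0 := by decide +kernel
theorem bb_norm : ∀ k, sqNorm (bb k) ≤ 128 := by decide +kernel

theorem expand {y : Vec} (h : y none + y (some 0) = 0) : (8 : ℤ) • y = ∑ k, y (some k) • bb k := by
  funext i
  rw [Finset.sum_apply]
  cases i with
  | none =>
    simp only [Pi.smul_apply, smul_eq_mul, bb_none, mul_ite, mul_zero, Finset.sum_ite_eq',
      Finset.mem_univ, if_true]
    omega
  | some i =>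
    simp only [Pi.smul_apply, smul_eq_mul, bb_some, mul_ite, mul_zero, Finset.sum_ite_eq,
      Finset.mem_univ, if_true]
    omega

/-- the lattice automorphism underlying a member of the stabiliser -/
def toCo : Spor.Co2 →* Co0 := Subgroup.inclusion inf_le_left

theorem act_U (g : Spor.Co2) : act (toCo g) Spor.vecU = Spor.vecU :=
  (act_coe (toCo g) Spor.leechU).trans (congrArg Subtype.val g.2.2)

theorem act_perp (g : Spor.Co2) {y : Vec} (hy : y ∈ leechLattice) (h : y none + y (some 0) = 0) :
    act (toCo g) y none + act (toCo g) y (some 0) = 0 := by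
  have := dot_act (toCo g) hy vecU_mem
  rw [act_U, dot_U, dot_U] at this
  change 4 * (act (toCo g) y none + act (toCo g) y (some 0)) = 4 * (y none + y (some 0)) at this
  omega

noncomputable def rep : Spor.Co2 →* Matrix (ZMod 23) (ZMod 23) (ZMod 13) where
  toFun g := Matrix.of fun i k : ZMod 23 => 5 * ((act (toCo g) (bb k) (some i) : ℤ) : ZMod 13)
  map_one' := by
    ext i k
    rw [Matrix.of_apply, map_one, act_one, bb_some, Matrix.one_apply]
    split_ifs <;> rfl
  map_mul' g h := by
    ext i k
    rw [Matrix.of_apply, map_mul, act_mul, Matrix.mul_apply]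
    simp only [Matrix.of_apply]
    have h1 := congrArg (act (toCo g)) (expand (act_perp h (bb_mem k) (bb_perp k)))
    rw [act_zsmul _ (act_mem _ (bb_mem k)), act_sum _ _ _ fun j _ => zsmul_mem (bb_mem j) _] at h1
    simp only [act_zsmul _ (bb_mem _)] at h1
    have h2 := congrArg (Int.cast : ℤ → ZMod 13) (congrFun h1 (some i))
    rw [Finset.sum_apply] at h2
    simp only [Pi.smul_apply, smul_eq_mul] at h2
    push_cast at h2
    have h3 : (5 : ZMod 13) = 5 * 5 * 8 := by decide
    rw [h3, mul_assoc, h2, ← h3, Finset.mul_sum]
    exact Finset.sum_congr rfl fun j _ => by ring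

theorem eq_zero_of_dvd {x : Vec} (hx : x ∈ leechLattice) (h : ∀ i, 13 ∣ x i) (hn : sqNorm x ≤ 512) :
    x = 0 := by
  choose w hw using h
  have h1 : w ∈ leechLattice := by
    have : w = (5 : ℤ) • x - (8 : ℤ) • fun i => 8 * w i := by
      funext i
      simp only [Pi.sub_apply, Pi.smul_apply, smul_eq_mul, hw]; ring
    rw [this]
    exact sub_mem (zsmul_mem hx _) (zsmul_mem (eight_mul_mem w) _)
  have h2 : sqNorm x = 169 * sqNorm w := by
    simp only [sqNorm, Finset.mul_sum, hw]
    exact Finset.sum_congr rfl fun i _ => by ring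
  by_cases h0 : w = 0
  · funext i; rw [hw, h0]; rfl
  · have := min_norm h1 h0
    omega

theorem rep_inj (g : Spor.Co2) (h : rep g = 1) : g = 1 := by
  have h1 : ∀ k, act (toCo g) (bb k) = bb k := by
    intro k
    have h2 : ∀ i, (13 : ℤ) ∣ act (toCo g) (bb k) (some i) - bb k (some i) := by
      intro i
      have h3 : rep g i k = rep 1 i k := by rw [h, map_one]
      change 5 * ((act (toCo g) (bb k) (some i) : ℤ) : ZMod 13) =
        5 * ((act (toCo 1) (bb k) (some i) : ℤ) : ZMod 13) at h3
      rw [map_one, act_one] at h3
      have h4 : ∀ a b : ZMod 13, 5 * a = 5 * b → b = a := by decide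
      exact (ZMod.intCast_eq_intCast_iff_dvd_sub _ _ 13).1 (h4 _ _ h3)
    rw [← sub_eq_zero]
    refine eq_zero_of_dvd (sub_mem (act_mem _ (bb_mem k)) (bb_mem k)) (fun i => ?_) ?_
    · cases i with
      | none =>
        have := act_perp g (bb_mem k) (bb_perp k)
        have := bb_perp k
        have := h2 0
        rw [Pi.sub_apply]
        omega
      | some i => exact h2 i
    · have h3 := sqNorm_sub (act (toCo g) (bb k)) (bb k)
      have h4 := sqNorm_add (act (toCo g) (bb k)) (bb k)
      have h5 := sqNorm_nonneg (act (toCo g) (bb k) + bb k)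
      have h6 := bb_norm k
      rw [sqNorm_act] at h3 h4
      omega
  have h2 : toCo g = 1 := by
    have e0 : 2 • e8 (some 0) = 2 • Spor.vecU + bb 0 := by decide +kernel
    have e1 : 2 • e8 none = 2 • Spor.vecU - bb 0 := by decide +kernel
    refine eq_one_of_e8 fun p => ?_
    cases p with
    | none =>
      apply two_nsmul_inj
      rw [← act_nsmul _ (e8_mem _), e1, act_sub _ (nsmul_mem vecU_mem 2) (bb_mem 0),
        act_nsmul _ vecU_mem, act_U, h1]
    | some i =>
      by_cases e : i = 0
      · apply two_nsmul_inj
        rw [e, ← act_nsmul _ (e8_mem _), e0, act_add _ (nsmul_mem vecU_mem 2) (bb_mem 0),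
          act_nsmul _ vecU_mem, act_U, h1]
      · have := h1 i
        rwa [bb, if_neg e] at this
  exact Subgroup.inclusion_injective _ (h2.trans (map_one _).symm)


/-- The second Conway group (the stabilizer in the Leech lattice automorphism group of the short vector fixed in the definitions) is isomorphic to a subgroup of the general linear group of degree 23 over the field with 13 elements: there is an injective homomorphism into it. -/
theorem result : ∃ f : ↥Cfsg.Spor.Co2 →* GL (Fin 23) (ZMod 13), Function.Injective f := by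
  let e := (Matrix.reindexAlgEquiv (ZMod 13) (ZMod 13) (ZMod.finEquiv 23).toEquiv.symm).toMulEquiv
  refine ⟨(e.toMonoidHom.comp rep).toHomUnits, (injective_iff_map_eq_one _).2 fun g hg => rep_inj g ?_⟩
  have h : e (rep g) = 1 := congrArg Units.val hg
  exact e.injective (h.trans (map_one e).symm)

end Cfsg.Agent.S5546
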