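import Cfsg.Statements.S5547
import Cfsg.Agent.Loc.R78
import Cfsg.Agent.Loc.PresFi22

set_option autoImplicit false
set_option maxRecDepth 100000
open Cfsg

namespace Cfsg.Agent.S5547

/-- The Fischer group Fi₂₂ (the finitely presented 3-transposition group of the definitions) is isomorphic to a subgroup of the general linear group of degree 78 over the field with 13 elements: there is an injective homomorphism into it. -/
theorem result : ∃ f : Cfsg.Spor.Fi22 →* GL (Fin 78) (ZMod 13), Function.Injective f := by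
  open CA.Loc CA.TC Subgroup in
  · skip
    have hI : ∀ i < 78, CA.Mat.R78.I.sel i = i := fun i hi => beq_iff.1 (allLt_spec CA.Mat.R78.h0 i hi)
    have hM : ∀ g, 9 ≤ g → CA.Mat.R78.Ms g = CA.Mat.R78.Ms 9 := fun g hg =>
      List.getD_eq_default _ _ hg
    have hok : ∀ g, CA.Mat.okS 78 8 (CA.Mat.R78.Ms g) = true := fun g => by
      by_cases hg : g < 10
      · exact allLt_spec CA.Mat.R78.h1 g hg
      · rw [hM g (by omega)]; exact allLt_spec CA.Mat.R78.h1 9 (by omega)
    have hsq : ∀ g, CA.Mat.mat 78 13 (CA.Mat.R78.Ms g) * CA.Mat.mat 78 13 (CA.Mat.R78.Ms g) = 1 := fun g => by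
      by_cases hg : g < 10
      · simpa using CA.Mat.chkW_spec hI hok (CA.Mat.R78.hq g hg)
      · rw [hM g (by omega)]; simpa using CA.Mat.chkW_spec hI hok (CA.Mat.R78.hq 9 (by omega))
    have hR : ∀ r ∈ CA.DC.F22.R0, (r.map fun g => CA.Mat.mat 78 13 (CA.Mat.R78.Ms g)).prod = 1 :=
      fun r hr => by
        obtain ⟨k, hk, rfl⟩ := List.getElem_of_mem hr
        have := CA.Mat.R78.hr k hk
        rw [List.getD_eq_getElem _ _ hk] at this
        exact CA.Mat.chkW_spec hI hok this
    have h0 : CA.DC.F22.R0 = CA.DC.coxL CA.DC.gl22.length (CA.DC.lab Cfsg.Spor.Fi22.edges CA.DC.gl22) ++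
        [CA.DC.rp 10 [3, 2, 1, 3, 4, 5, 3, 7, 8], CA.DC.rp 9 [0, 1, 2, 3, 4, 5, 7],
          CA.DC.rp 9 [1, 2, 3, 4, 5, 6, 7]] := by decide +kernel
    rw [h0] at hR
    obtain ⟨φ, hφ⟩ := CA.Mat.exists_rep (extra := Cfsg.Spor.Fi22.extra)
      (A := fun g => CA.Mat.mat 78 13 (CA.Mat.R78.Ms g)) hsq (fun x => by cases x <;> decide)
      (by decide +kernel) hR (by
        intro H _ s hR
        have e1 := hR _ List.mem_cons_self
        have e2 := hR _ (List.mem_cons_of_mem _ List.mem_cons_self)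
        have e3 := hR _ (List.mem_cons_of_mem _ (List.mem_cons_of_mem _ List.mem_cons_self))
        simp only [CA.DC.wd_rp, wd_cons, wd_nil, mul_one] at e1 e2 e3
        intro r hr
        simp only [Cfsg.Spor.Fi22.extra, List.mem_cons, List.not_mem_nil, or_false] at hr
        rcases hr with rfl | rfl | rfl <;>
          simp only [map_mul, map_pow, FreeGroup.lift_apply_of, mul_assoc]
        exacts [e1, e2, e3])
    haveI := CA.DC.fi22_simple
    refine ⟨φ, (MonoidHom.ker_eq_bot_iff φ).1 ((inferInstance : φ.ker.Normal).eq_bot_or_eq_top.resolve_right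
      fun h => ?_)⟩
    have h1 : φ (PresentedGroup.of .a) = 1 := (h ▸ mem_top _ : _ ∈ φ.ker)
    have h2 : CA.Mat.mat 78 13 (CA.Mat.R78.Ms 0) 22 22 = 1 := hφ _ 22 h1
    revert h2
    decide +kernel

end Cfsg.Agent.S5547
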