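import Cfsg.Statements.S5548
import Cfsg.Agent.M24.Words

set_option autoImplicit false
open Cfsg

namespace Cfsg.Agent.S5548

open CA.M24
open scoped Pointwise symmDiff
set_option maxRecDepth 100000
set_option maxHeartbeats 400000



/-- For the automorphism group of the length-24 binary Golay code of the definitions (the Mathieu group of degree 24) acting on binary words of length 24 by permuting coordinates, the only invariant subspaces of the space of all words are: zero, the span of the all-ones word, the code itself, the even-weight words, and the whole space. (So the permutation module has a unique composition series.) -/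
theorem result (W : Submodule (ZMod 2) (Cfsg.GolayPt → ZMod 2)) (hW : ∀ σ ∈ Cfsg.M24, ∀ w ∈ W, (fun p => w (σ.symm p)) ∈ W) : W = ⊥ ∨ W = Submodule.span (ZMod 2) {fun _ => (1 : ZMod 2)} ∨ W = Cfsg.golayCode ∨ (W : Set (Cfsg.GolayPt → ZMod 2)) = {w | ∑ p, w p = 0} ∨ W = ⊤ := by
  by_cases h : W ≤ golayCode
  · rcases code_cases hW h with h1 | h1
    · by_cases h2 : (fun _ => (1 : ZMod 2)) ∈ W
      · refine Or.inr (Or.inl (le_antisymm h1 ?_))
        rwa [Submodule.span_le, Set.singleton_subset_iff]
      · refine Or.inl (eq_bot_iff.2 fun w hw => ?_)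
        obtain ⟨a, rfl⟩ := Submodule.mem_span_singleton.1 (h1 hw)
        rcases zmod2_cases a with rfl | rfl
        · rw [zero_smul]; exact zero_mem _
        · rw [one_smul] at hw; exact absurd hw h2
    · exact Or.inr (Or.inr (Or.inl h1))
  · obtain ⟨w, hw, h1⟩ := SetLike.not_le_iff_exists.1 h
    have h2 := fun v => mem_of_duads (W := W) (w := v) ((inv_of_submodule hW).duad (s := support₂ w)
      (by rwa [Set.mem_setOf_eq, wordOf_support₂]) (by rwa [support₂_mem_Cs]))
    refine Or.inr (Or.inr (Or.inr ?_))
    by_cases h3 : ∀ v ∈ W, ∑ p, v p = 0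
    · exact Or.inl (Set.ext fun v => ⟨h3 v, h2 v⟩)
    · push Not at h3
      obtain ⟨u, hu, h4⟩ := h3
      refine Or.inr (eq_top_iff.2 fun v _ => ?_)
      rcases zmod2_cases (∑ p, v p) with e | e
      · exact h2 v e
      · refine (W.add_mem_iff_left hu).1 (h2 _ ?_)
        simp only [Pi.add_apply, Finset.sum_add_distrib, e, zmod2_ne_zero.1 h4]
        rfl

end Cfsg.Agent.S5548
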