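import Cfsg.Statements.S5549
import Cfsg.Agent.M24.Words

set_option autoImplicit false
open Cfsg

namespace Cfsg.Agent.S5549

open CA.M24 Equiv
open scoped Pointwise symmDiff
set_option maxRecDepth 100000
set_option maxHeartbeats 400000

noncomputable def pr (s c : Finset Pt) : ZMod 2 := ((s ∩ c).card : ℕ)

theorem pr_comm (s c : Finset Pt) : pr s c = pr c s := by rw [pr, pr, Finset.inter_comm]

theorem pr_symmDiff (s t c : Finset Pt) : pr (s ∆ t) c = pr s c + pr t c := by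
  have h1 : s ∆ t ∩ c = (s ∩ c) ∆ (t ∩ c) := by
    ext x
    simp only [Finset.mem_inter, Finset.mem_symmDiff]
    tauto
  have h2 := congrArg (Nat.cast (R := ZMod 2)) (card_symmDiff_add (s ∩ c) (t ∩ c))
  rw [Nat.cast_add, Nat.cast_add, Nat.cast_mul, show ((2 : ℕ) : ZMod 2) = 0 from rfl, zero_mul, add_zero] at h2
  rw [pr, h1, h2, pr, pr]

theorem pr_symmDiff' (s c d : Finset Pt) : pr s (c ∆ d) = pr s c + pr s d := by
  rw [pr_comm, pr_symmDiff, pr_comm c, pr_comm d]

theorem pr_code {c d : Finset Pt} (hc : c ∈ Cs) (hd : d ∈ Cs) : pr c d = 0 :=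
  (ZMod.natCast_eq_zero_iff_even).2 (even_card_inter hc hd)

theorem pr_single (p : Pt) (c : Finset Pt) : pr {p} c = wordOf c p := by
  by_cases h : p ∈ c
  · rw [pr, Finset.singleton_inter_of_mem h, wordOf, if_pos h]; rfl
  · rw [pr, Finset.singleton_inter_of_notMem h, wordOf, if_neg h]; rfl

theorem pr_smul (g : Perm Pt) (s c : Finset Pt) : pr (g • s) (g • c) = pr s c := by
  rw [pr, pr, ← Finset.smul_finset_inter, Finset.card_smul_finset]

theorem pr_duad_compl (p q : Pt) (c : Finset Pt) : pr ({p} ∆ {q}) cᶜ = pr ({p} ∆ {q}) c := by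
  simp only [pr_symmDiff, pr_single, wordOf, Finset.mem_compl]
  by_cases hp : p ∈ c <;> by_cases hq : q ∈ c <;> simp [hp, hq] <;> rfl

theorem basis_sys : ∀ a ∈ basisL, ∃ p : Pt, idx p < 12 ∧ cw (2 ^ idx p) = a ∧
    ∀ q : Pt, idx q < 12 → (a.testBit (idx q) = true ↔ q = p) := by decide +kernel

theorem exists_dual (l : Finset Pt → ZMod 2) (hl : ∀ c ∈ Cs, ∀ d ∈ Cs, l (c ∆ d) = l c + l d) :
    ∃ r : Finset Pt, r.card ≤ 4 ∧ ∀ c ∈ Cs, l c = pr r c := by
  let s : Finset Pt := Finset.univ.filter fun p => idx p < 12 ∧ l (unmask (cw (2 ^ idx p))) = 1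
  have hs : ∀ c ∈ Cs, l c = pr s c := fun c hc => by
    refine (Cs_induction (fun c => c ∈ Cs ∧ l c = pr s c) ⟨empty_mem_Cs, ?_⟩ ?_ ?_ hc).2
    · have := hl ∅ empty_mem_Cs ∅ empty_mem_Cs
      rw [symmDiff_self, CharTwo.add_self_eq_zero] at this
      rw [pr, Finset.inter_empty]
      exact this
    · rintro c d ⟨h1, h2⟩ ⟨h3, h4⟩
      exact ⟨symmDiff_mem_Cs h1 h3, by rw [hl c h1 d h3, pr_symmDiff', h2, h4]⟩
    · intro a ha
      obtain ⟨p, h1, rfl, h3⟩ := basis_sys a ha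
      refine ⟨(unmask_cw _).1, ?_⟩
      rcases zmod2_cases (l (unmask (cw (2 ^ idx p)))) with e | e
      · have : s ∩ unmask (cw (2 ^ idx p)) = ∅ := Finset.eq_empty_of_forall_notMem fun q hq => by
          obtain ⟨h4, h5⟩ := Finset.mem_inter.1 hq
          have h6 := (Finset.mem_filter.1 h4).2
          rw [(h3 q h6.1).1 (mem_unmask.1 h5), e] at h6
          exact absurd h6.2 (by decide)
        rw [pr, this, e]; rfl
      · have : s ∩ unmask (cw (2 ^ idx p)) = {p} := Finset.eq_singleton_iff_unique_mem.2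
          ⟨Finset.mem_inter.2 ⟨Finset.mem_filter.2 ⟨Finset.mem_univ _, h1, e⟩,
            mem_unmask.2 ((h3 p h1).2 rfl)⟩, fun q hq => by
            obtain ⟨h4, h5⟩ := Finset.mem_inter.1 hq
            exact (h3 q (Finset.mem_filter.1 h4).2.1).1 (mem_unmask.1 h5)⟩
        rw [pr, this, e]; rfl
  obtain ⟨d, hd, h4⟩ := exists_small_rep s
  exact ⟨_, h4, fun c hc => by rw [pr_symmDiff, pr_code hd hc, add_zero, hs c hc]⟩

noncomputable def num (r : Finset Pt) : ℕ := {o | o ∈ octads ∧ pr r o = 1}.ncard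

theorem num_smul {g : Perm Pt} (hg : g ∈ M24) (r : Finset Pt) : num (g • r) = num r := by
  rw [num, num, ← Set.ncard_smul_set g {o | o ∈ octads ∧ pr r o = 1}]
  congr 1
  ext o
  rw [Set.mem_smul_set_iff_inv_smul_mem, Set.mem_setOf_eq, Set.mem_setOf_eq, smul_mem_octads_iff (inv_mem hg),
    ← pr_smul g r, smul_inv_smul]

theorem num_eq (r : Finset Pt) :
    num r = octT.cnt fun o => Nat.beq (Nat.mod (pcnt (Nat.land (mask r) o)) 2) 1 :=
  ncard_octads_filter _ _ fun o => and_congr_right fun _ => by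
    rw [beq_iff, ← mask_inter, pcnt_mask, pr, ZMod.natCast_eq_one_iff_odd, Nat.odd_iff]
    rfl

theorem num_iff {r : Finset Pt} (h : r.card ≤ 4) : num r = 352 ↔ r.card = 2 := by
  obtain ⟨g, hg, e⟩ := exists_small_base h
  rw [← num_smul hg, ← Finset.card_smul_finset g, num_eq, ← pcnt_mask]
  generalize mask (g • r) = m at e
  revert m
  decide +kernel

theorem card_duad {p q : Pt} (h : p ≠ q) : (({p} : Finset Pt) ∆ {q}).card = 2 := by
  have := card_symmDiff_add {p} {q}
  rw [Finset.singleton_inter_of_notMem (Finset.notMem_singleton.2 h)] at this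
  simpa using this

theorem pair (s : Finset Pt) (x y : Pt) (hxy : x ≠ y) (h : (s ∩ {x, y}).card = 1) : x ∈ s ↔ y ∉ s := by
  rw [Finset.inter_comm] at h
  by_cases hx : x ∈ s <;> by_cases hy : y ∈ s
  · rw [Finset.insert_inter_of_mem hx, Finset.singleton_inter_of_mem hy, Finset.card_pair hxy] at h
    omega
  · exact iff_of_true hx hy
  · exact iff_of_false hx (not_not.2 hy)
  · rw [Finset.insert_inter_of_notMem hx, Finset.singleton_inter_of_notMem hy] at h
    exact absurd h (by decide)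

theorem common (R : Pt → Finset Pt) (h2 : ∀ p, p ≠ none → (R p).card = 2)
    (h1 : ∀ p q, p ≠ none → q ≠ none → p ≠ q → (R p ∩ R q).card = 1) : ∃ a, ∀ p, p ≠ none → a ∈ R p := by
  obtain ⟨a, ha⟩ := Finset.card_eq_one.1 (h1 (pt 0) (pt 1) (by decide) (by decide) (by decide))
  have ha' := Finset.mem_inter.1 (ha ▸ Finset.mem_singleton_self a)
  refine ⟨a, fun p hp => ?_⟩
  by_contra hn
  have p0 : p ≠ pt 0 := fun e => hn (e ▸ ha'.1)
  have p1 : p ≠ pt 1 := fun e => hn (e ▸ ha'.2)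
  obtain ⟨q, hq⟩ := exists_notMem {none, pt 0, pt 1, p} (lt_of_le_of_lt Finset.card_le_four (by norm_num))
  simp only [Finset.mem_insert, Finset.mem_singleton, not_or] at hq
  have other : ∀ s : Finset Pt, s.card = 2 → a ∈ s → ∃ b, b ≠ a ∧ s = {a, b} := fun s hs h => by
    obtain ⟨x, y, hxy, rfl⟩ := Finset.card_eq_two.1 hs
    rcases Finset.mem_insert.1 h with rfl | h
    · exact ⟨y, hxy.symm, rfl⟩
    · rw [Finset.mem_singleton.1 h]
      exact ⟨x, hxy, Finset.pair_comm _ _⟩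
  obtain ⟨b, hb, e0⟩ := other _ (h2 (pt 0) (by decide)) ha'.1
  obtain ⟨c, hc, e1⟩ := other _ (h2 (pt 1) (by decide)) ha'.2
  have hbc : b ≠ c := by
    rintro rfl
    rw [e0, e1, Finset.inter_self] at ha
    exact hb (Finset.mem_singleton.1 (ha ▸ Finset.mem_insert_of_mem (Finset.mem_singleton_self b)))
  have b1 := (pair _ b a hb (by rw [Finset.pair_comm, ← e0]; exact h1 p _ hp (by decide) p0)).2 hn
  have c1 := (pair _ c a hc (by rw [Finset.pair_comm, ← e1]; exact h1 p _ hp (by decide) p1)).2 hn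
  have e2 : R p = {b, c} := (Finset.eq_of_subset_of_card_le (Finset.insert_subset b1
    (Finset.singleton_subset_iff.2 c1)) (by rw [h2 p hp, Finset.card_pair hbc])).symm
  have k0 := pair _ a b hb.symm (by rw [← e0]; exact h1 q _ hq.1 (by decide) hq.2.1)
  have k1 := pair _ a c hc.symm (by rw [← e1]; exact h1 q _ hq.1 (by decide) hq.2.2.1)
  have k2 := pair _ b c hbc (by rw [← e2]; exact h1 q _ hq.1 hp hq.2.2.2)
  by_cases h : a ∈ R q
  · exact k0.1 h (k2.2 (k1.1 h))
  · exact k2.1 (not_not.1 (mt k0.2 h)) (not_not.1 (mt k1.2 h))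

theorem key (F : Finset Pt → Finset Pt) (h1 : ∀ c ∈ Cs, F c ∈ Cs)
    (h2 : ∀ c ∈ Cs, ∀ d ∈ Cs, F (c ∆ d) = F c ∆ F d) (h3 : ∀ c ∈ Cs, F cᶜ = (F c)ᶜ)
    (h4 : ∀ c ∈ Cs, ∀ d ∈ Cs, F c = F d → c = d)
    (h5 : ∀ c ∈ Cs, ∃ σ ∈ M24, F c = σ • c ∨ F c = (σ • c)ᶜ) :
    ∃ σ ∈ M24, ∀ c ∈ Cs, F c = σ • c ∨ F c = (σ • c)ᶜ := by
  have h6 : ∀ o ∈ octads, ∃ o' ∈ octads, F o = o' ∨ F o = o'ᶜ := fun o ho => by
    obtain ⟨σ, hσ, h⟩ := h5 o (mem_octads.1 ho).1
    exact ⟨_, smul_mem_octads hσ ho, h⟩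
  choose! G hG1 hG2 using h6
  have hne : ∀ o ∈ octads, ∀ o' ∈ octads, o ≠ o'ᶜ := fun o ho o' ho' e => by
    have := (mem_octads.1 ho).2
    rw [e, Finset.card_compl, (mem_octads.1 ho').2, card_Pt] at this
    omega
  have hinj : Set.InjOn G octads := fun o ho o' ho' e => by
    have c1 := (mem_octads.1 ho).1
    have c2 := (mem_octads.1 ho').1
    rcases hG2 o ho with e1 | e1 <;> rcases hG2 o' ho' with e2 | e2
    · exact h4 o c1 o' c2 (by rw [e1, e2, e])
    · exact absurd (h4 o c1 _ (compl_mem_Cs c2) (by rw [h3 _ c2, e1, e2, e, compl_compl])) (hne o ho o' ho')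
    · exact absurd (h4 o c1 _ (compl_mem_Cs c2) (by rw [h3 _ c2, e1, e2, e])) (hne o ho o' ho')
    · exact h4 o c1 o' c2 (by rw [e1, e2, e])
  have hbij : Set.BijOn G octads octads := ((Set.toFinite _).injOn_iff_bijOn_of_mapsTo hG1).1 hinj
  have two : ∀ (r : Finset Pt) (p q : Pt), r.card ≤ 4 → p ≠ q →
      (∀ c ∈ Cs, pr ({p} ∆ {q}) (F c) = pr r c) → r.card = 2 := by
    intro r p q hr hpq h
    rw [← num_iff hr, ← (num_iff (by rw [card_duad hpq]; norm_num)).2 (card_duad hpq), num, num,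
      ← Set.InjOn.ncard_image (f := G) (hinj.mono fun o ho => ho.1)]
    have hh : ∀ o ∈ octads, pr ({p} ∆ {q}) (G o) = pr r o := fun o ho => by
      rw [← h o (mem_octads.1 ho).1]
      rcases hG2 o ho with e | e <;> rw [e]
      rw [pr_duad_compl]
    congr 1
    ext o'
    constructor
    · rintro ⟨o, ho, rfl⟩
      exact ⟨hG1 o ho.1, by rw [hh o ho.1, ho.2]⟩
    · rintro ⟨ho', e⟩
      obtain ⟨o, ho, rfl⟩ := hbij.surjOn ho'
      exact ⟨o, ⟨ho, by rw [← hh o ho, e]⟩, rfl⟩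
  choose R hR1 hR2 using fun p : Pt => exists_dual (fun c => pr ({p} ∆ {none}) (F c))
    fun c hc d hd => by rw [h2 c hc d hd, pr_symmDiff']
  have k2 : ∀ p, p ≠ none → (R p).card = 2 := fun p hp => two _ p none (hR1 p) hp (hR2 p)
  have k1 : ∀ p q, p ≠ none → q ≠ none → p ≠ q → (R p ∩ R q).card = 1 := fun p q hp hq hpq => by
    have e1 := card_symmDiff_add (R p) (R q)
    rw [k2 p hp, k2 q hq] at e1
    have := two (R p ∆ R q) p q (by omega) hpq fun c hc => by
      rw [pr_symmDiff (R p), ← hR2 p c hc, ← hR2 q c hc, ← pr_symmDiff, symmDiff_symmDiff_symmDiff_comm,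
        symmDiff_self, symmDiff_bot]
    omega
  obtain ⟨a, ha⟩ := common R k2 k1
  have hτ : ∀ p, ∃ b, (p = none → b = a) ∧ (p ≠ none → b ≠ a ∧ R p = {b} ∆ {a}) := fun p => by
    by_cases hp : p = none
    · exact ⟨a, fun _ => rfl, fun h => absurd hp h⟩
    · obtain ⟨b, hb⟩ := Finset.card_eq_one.1 (show ((R p).erase a).card = 1 by
        rw [Finset.card_erase_of_mem (ha p hp), k2 p hp])
      have hb' := Finset.mem_erase.1 (hb ▸ Finset.mem_singleton_self b)
      refine ⟨b, fun h => absurd h hp, fun _ => ⟨hb'.1, ?_⟩⟩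
      rw [← Finset.insert_erase (ha p hp), hb]
      ext x
      simp only [Finset.mem_insert, Finset.mem_singleton, Finset.mem_symmDiff]
      constructor
      · rintro (rfl | rfl)
        exacts [Or.inr ⟨rfl, hb'.1.symm⟩, Or.inl ⟨rfl, hb'.1⟩]
      · tauto
  choose τ t1 t2 using hτ
  have hτ : Function.Injective τ := fun p q e => by
    by_contra hpq
    by_cases hp : p = none
    · exact (t2 q fun h => hpq (hp.trans h.symm)).1 (e.symm.trans (t1 p hp))
    by_cases hq : q = none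
    · exact (t2 p hp).1 (e.trans (t1 q hq))
    have := k1 p q hp hq hpq
    rw [(t2 q hq).2, ← e, ← (t2 p hp).2, Finset.inter_self, k2 p hp] at this
    omega
  let σ : Perm Pt := Equiv.ofBijective τ (Finite.injective_iff_bijective.1 hτ)
  have main : ∀ c ∈ Cs, F c = σ⁻¹ • c ∨ F c = (σ⁻¹ • c)ᶜ := fun c hc => by
    have e : ∀ p, wordOf (F c) p + wordOf (F c) none = wordOf c (τ p) + wordOf c a := fun p => by
      by_cases hp : p = none
      · rw [t1 p hp, hp, CharTwo.add_self_eq_zero, CharTwo.add_self_eq_zero]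
      · have := hR2 p c hc
        simp only [(t2 p hp).2, pr_symmDiff, pr_single] at this
        exact this
    have m : ∀ p, p ∈ σ⁻¹ • c ↔ τ p ∈ c := fun p => by
      rw [← Finset.inv_smul_mem_iff, inv_inv]; rfl
    by_cases h : none ∈ F c ↔ a ∈ c
    · refine Or.inl (Finset.ext fun p => ?_)
      have := e p
      rw [m]
      by_cases k0 : a ∈ c <;> by_cases k1 : p ∈ F c <;> by_cases k2 : τ p ∈ c <;>
        simp_all [wordOf] <;> exact absurd this (by decide)
    · refine Or.inr (Finset.ext fun p => ?_)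
      have := e p
      rw [Finset.mem_compl, m]
      by_cases k0 : a ∈ c <;> by_cases k1 : p ∈ F c <;> by_cases k2 : τ p ∈ c <;>
        simp_all [wordOf] <;> exact absurd this (by decide)
  refine ⟨σ⁻¹, mem_M24_iff.2 fun c hc => ?_, main⟩
  rcases main c hc with e | e
  · exact e ▸ h1 c hc
  · have := compl_mem_Cs (h1 c hc)
    rwa [e, compl_compl] at this

theorem wordOf_compl (s : Finset Pt) : wordOf sᶜ = wordOf s + fun _ => 1 := by
  rw [← wordOf_univ, ← wordOf_symmDiff]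
  congr 1
  ext x
  simp [Finset.mem_symmDiff]


/-- Let X be a group of linear automorphisms of the length-24 binary Golay code of the definitions that fix the all-ones word, containing the coordinate-permutation action of every element of the code's automorphism group (the Mathieu group of degree 24), and such that every element of X sends each codeword into its orbit under that Mathieu group up to adding the all-ones word (X has the same orbits as the Mathieu group on the code modulo the all-ones word). Then every element of X agrees, modulo the all-ones word, with the action of a single element of the Mathieu group: X induces exactly the Mathieu group on the code modulo the all-ones word. -/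
theorem result (X : Subgroup (↥Cfsg.golayCode ≃ₗ[ZMod 2] ↥Cfsg.golayCode)) (h1 : ∀ x ∈ X, ∀ e : ↥Cfsg.golayCode, (e : (Cfsg.GolayPt → ZMod 2)) = (fun _ => (1 : ZMod 2)) → x e = e) (hM : ∀ σ ∈ Cfsg.M24, ∃ x ∈ X, ∀ c : ↥Cfsg.golayCode, ((x c : ↥Cfsg.golayCode) : (Cfsg.GolayPt → ZMod 2)) = fun p => (c : (Cfsg.GolayPt → ZMod 2)) (σ.symm p)) (horb : ∀ x ∈ X, ∀ c : ↥Cfsg.golayCode, ∃ σ ∈ Cfsg.M24, ((x c : ↥Cfsg.golayCode) : (Cfsg.GolayPt → ZMod 2)) = (fun p => (c : (Cfsg.GolayPt → ZMod 2)) (σ.symm p)) ∨ ((x c : ↥Cfsg.golayCode) : (Cfsg.GolayPt → ZMod 2)) = (fun p => (c : (Cfsg.GolayPt → ZMod 2)) (σ.symm p)) + fun _ => (1 : ZMod 2)) (x : ↥Cfsg.golayCode ≃ₗ[ZMod 2] ↥Cfsg.golayCode) (hx : x ∈ X) : ∃ σ ∈ Cfsg.M24, ∀ c : ↥Cfsg.golayCode, ((x c : ↥Cfsg.golayCode) : (Cfsg.GolayPt → ZMod 2)) = (fun p => (c : (Cfsg.GolayPt → ZMod 2)) (σ.symm p)) ∨ ((x c : ↥Cfsg.golayCode) : (Cfsg.GolayPt → ZMod 2)) = (fun p => (c : (Cfsg.GolayPt → ZMod 2)) (σ.symm p)) + fun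 _ => (1 : ZMod 2) := by
  classical
  let F : Finset Pt → Finset Pt := fun c =>
    if h : c ∈ Cs then support₂ (x ⟨wordOf c, mem_Cs.1 h⟩ : Pt → ZMod 2) else ∅
  have hF : ∀ c (h : c ∈ Cs), wordOf (F c) = (x ⟨wordOf c, mem_Cs.1 h⟩ : Pt → ZMod 2) := fun c h => by
    simp only [F, dif_pos h, wordOf_support₂]
  have tr : ∀ (σ : Perm Pt) c (h : c ∈ Cs), (F c = σ • c ∨ F c = (σ • c)ᶜ) ↔
      ((x ⟨wordOf c, mem_Cs.1 h⟩ : Pt → ZMod 2) = (fun p => wordOf c (σ.symm p)) ∨
      (x ⟨wordOf c, mem_Cs.1 h⟩ : Pt → ZMod 2) = (fun p => wordOf c (σ.symm p)) + fun _ => 1) := by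
    intro σ c h
    rw [← hF c h, wordOf_smul, ← wordOf_compl, wordOf_inj.eq_iff, wordOf_inj.eq_iff]
  obtain ⟨σ, hσ, h⟩ := key F (fun c hc => by rw [mem_Cs, hF c hc]; exact Subtype.property _)
    (fun c hc d hd => wordOf_inj (by
      rw [wordOf_symmDiff, hF c hc, hF d hd, hF _ (symmDiff_mem_Cs hc hd), ← Submodule.coe_add, ← map_add]
      congr 2
      exact Subtype.ext (wordOf_symmDiff c d)))
    (fun c hc => wordOf_inj (by
      have e := congrArg Subtype.val (h1 x hx ⟨_, one_mem_code⟩ rfl)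
      rw [wordOf_compl, hF c hc, hF _ (compl_mem_Cs hc)]
      refine Eq.trans ?_ (congrArg _ e)
      rw [← Submodule.coe_add, ← map_add]
      congr 2
      exact Subtype.ext (wordOf_compl c)))
    (fun c hc d hd e => by
      have := congrArg wordOf e
      rw [hF c hc, hF d hd] at this
      exact wordOf_inj (congrArg Subtype.val (x.injective (Subtype.ext this))))
    (fun c hc => (horb x hx ⟨wordOf c, mem_Cs.1 hc⟩).imp fun σ h => ⟨h.1, (tr σ c hc).2 h.2⟩)
  refine ⟨σ, hσ, fun c => ?_⟩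
  have := (tr σ _ (support₂_mem_Cs.2 c.2)).1 (h _ (support₂_mem_Cs.2 c.2))
  simpa only [wordOf_support₂] using this

end Cfsg.Agent.S5549
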