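import Cfsg.Statements.S5588
import Cfsg.Agent.Loc.Y5

set_option autoImplicit false
open Cfsg

namespace Cfsg.Agent.S5588

section
open CA.Loc CA.TC Subgroup

open Cfsg.Spor Cfsg.Spor.Bimonster in
theorem arm (x : FreeGroup Gen) (em : Fin 11 → Gen) (h1 : ∀ i, em i ∈ coxNodes edges)
    (h2 : ∀ i j, coxLabel CA.DC.Y5.ed i j = coxLabel edges (em i) (em j))
    (τ : Fin 11 → CoxPresented Gen edges [x]) (hτ : ∀ i, τ i = PresentedGroup.of (em i))
    (h3 : (τ 1 * τ 0 * τ 8 * τ 1 * τ 2 * τ 3 * τ 1 * τ 5 * τ 6) ^ 10 = 1) :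
    τ 10 = (τ 1 * τ 2 * τ 5 * τ 0 * τ 3 * τ 6 * τ 4) ^ 9 ∧
      τ 10 = (τ 1 * τ 2 * τ 0 * τ 5 * τ 3 * τ 8 * τ 4) ^ 9 :=
  CA.DC.y352 τ (fun i j => by rw [hτ, hτ, h2]; exact CA.DC.cox_of (h1 i) (h1 j)) h3

theorem rot {H : Type*} [Group H] {x y : H} {n : ℕ} (h : (x * y) ^ n = 1) : (y * x) ^ n = 1 := by
  rw [show y * x = x⁻¹ * (x * y) * x⁻¹⁻¹ by simp, conj_pow, h]; simp
end

/-- In the group presented by the sixteen involutions of the Y₅₅₅ Coxeter diagram subject only to the Coxeter relations and the single spider relation (a b₁ c₁ a b₂ c₂ a b₃ c₃)^10 = 1, each of the further relators used in the definitions' presentation of the Bimonster (each end node equals the ninth power of the Coxeter element of a sub-diagram of type E₇) already holds. Equivalently, the Y₅₅₅ diagram with the spider relation alone presents the Bimonster. -/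
theorem result :
    ∀ r ∈ Cfsg.Spor.Bimonster.extra,
      (PresentedGroup.mk (Cfsg.Spor.coxRelators Cfsg.Spor.Bimonster.edges ∪ {r' | r' ∈ [(Cfsg.Spor.Bimonster.a * Cfsg.Spor.Bimonster.b1 * Cfsg.Spor.Bimonster.c1 * Cfsg.Spor.Bimonster.a * Cfsg.Spor.Bimonster.b2 * Cfsg.Spor.Bimonster.c2 * Cfsg.Spor.Bimonster.a * Cfsg.Spor.Bimonster.b3 * Cfsg.Spor.Bimonster.c3) ^ 10]}) r) = 1 := by
  open CA.Loc CA.TC Subgroup in
  · skip
    open Cfsg.Spor Cfsg.Spor.Bimonster in
    set x := (a * b1 * c1 * a * b2 * c2 * a * b3 * c3) ^ 10 with hx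
    have h0 := CA.DC.extra_of (edges := Spor.Bimonster.edges) (extra := [x]) List.mem_cons_self
    let o : Spor.Bimonster.Gen → Spor.CoxPresented Spor.Bimonster.Gen Spor.Bimonster.edges [x] :=
      PresentedGroup.of
    have h1 : ((o .a * o .b1 * o .c1) * ((o .a * o .b2 * o .c2) * (o .a * o .b3 * o .c3))) ^ 10 = 1 := by
      simp only [hx, map_pow, map_mul, mul_assoc] at h0 ⊢; exact h0
    have h2 := rot h1
    rw [mul_assoc] at h2
    have h3 := rot h2
    rw [mul_assoc] at h3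
    have k1 := arm x ![.b3, .a, .b1, .c1, .d1, .b2, .c2, .d3, .c3, .e1, .f1] (by decide) (by decide) _
      (fun _ => rfl) (by simp only [mul_assoc] at h3 ⊢; exact h3)
    have k2 := arm x ![.b1, .a, .b2, .c2, .d2, .b3, .c3, .d1, .c1, .e2, .f2] (by decide) (by decide) _
      (fun _ => rfl) (by simp only [mul_assoc] at h1 ⊢; exact h1)
    have k3 := arm x ![.b2, .a, .b3, .c3, .d3, .b1, .c1, .d2, .c2, .e3, .f3] (by decide) (by decide) _
      (fun _ => rfl) (by simp only [mul_assoc] at h2 ⊢; exact h2)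
    intro r hr
    simp only [Spor.Bimonster.extra, List.mem_cons, List.not_mem_nil, or_false] at hr
    rcases hr with rfl | rfl | rfl | rfl | rfl | rfl | rfl
    · exact h0
    all_goals simp only [map_mul, map_inv, map_pow, mul_inv_eq_one]
    exacts [k1.1, k1.2, k2.2, k2.1, k3.1, k3.2]

end Cfsg.Agent.S5588
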