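import Cfsg.Statements.S5594
import Cfsg.Agent.M24.Leech4
import Cfsg.Agent.M24.OctPair

set_option autoImplicit false
open Cfsg

namespace Cfsg.Agent.S5594

open CA.M24
open scoped Pointwise
set_option maxRecDepth 100000
set_option maxHeartbeats 400000



/-- The automorphism group of the Leech lattice contains the negation map, and the subgroup of order 2 it generates has no complement: the automorphism group is a non-split extension of its quotient by that subgroup (it is not the direct product of a group of order 2 with the first Conway group). -/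
theorem result :
    ∃ n : ↥Cfsg.Co0, (∀ v : ↥Cfsg.leechLattice, ((n • v : ↥Cfsg.leechLattice) : Cfsg.GolayPt → ℤ) = -(v : Cfsg.GolayPt → ℤ)) ∧
    ∀ K : Subgroup ↥Cfsg.Co0, ¬ (Subgroup.zpowers n).IsComplement' K := by
  refine ⟨ng, fun v => by rw [← act_coe, act_ng v.2], fun K hK => ?_⟩
  have h2 : K.index = 2 := by
    rw [hK.index_eq_card, Nat.card_zpowers]
    exact orderOf_eq_prime (by rw [pow_two, ng_mul_ng]) ng_ne_one
  have hn := Subgroup.normal_of_index_eq_two h2
  have h3 : ∀ o ∈ Cfsg.octads, ∀ o' ∈ Cfsg.octads, eps o ∈ K → eps o' ∈ K := by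
    intro o ho o' ho' h
    obtain ⟨g, hg, rfl⟩ := octad_transitive ho ho'
    rw [← pC_conj_eps hg ho.1]
    exact hn.conj_mem _ h _
  have h4 : ∀ o ∈ Cfsg.octads, eps o ∈ K := by
    have h5 : eps (unmask O0) * eps (unmask Q4) ∈ K :=
      (Subgroup.mul_mem_iff_of_index_two h2).2 ⟨h3 _ O0_mem _ Q4_spec.1, h3 _ Q4_spec.1 _ O0_mem⟩
    rw [eps_mul O0_mem.1 Q4_spec.1.1] at h5
    exact fun o ho => h3 _ ⟨symmDiff_mem_Cs O0_mem.1 Q4_spec.1.1, by decide +kernel⟩ o ho h5
  have h5 : ng ∈ K := by
    have h6 := symmDiff_mem_Cs O0_mem.1 Q0_spec.1.1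
    have := mul_mem (mul_mem (h4 _ O0_mem) (h4 _ Q0_spec.1))
      (h4 _ ⟨compl_mem_Cs h6, by decide +kernel⟩)
    rw [eps_mul O0_mem.1 Q0_spec.1.1, eps_mul h6 (compl_mem_Cs h6)] at this
    have e : symmDiff (symmDiff (unmask O0) (unmask Q0)) (symmDiff (unmask O0) (unmask Q0))ᶜ =
      Finset.univ := by decide +kernel
    rwa [e] at this
  exact ng_ne_one (Subgroup.disjoint_def.1 hK.disjoint (Subgroup.mem_zpowers _) h5)

end Cfsg.Agent.S5594
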