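import Cfsg.Statements.S5599
import Cfsg.Agent.M24.Misc
import Cfsg.Prelude.Def_Spor_Mathieu

set_option autoImplicit false
open scoped Pointwise
open Cfsg

namespace Cfsg.Agent.S5599

open CA.M24
open scoped Pointwise
set_option maxRecDepth 100000
set_option maxHeartbeats 400000

theorem mem_M22 {x : Equiv.Perm Pt} : x ∈ Spor.M22 ↔ x ∈ M24 ∧ x none = none ∧ x (some 0) = some 0 :=
  and_assoc

def XL : List (ℕ × ℕ) := [(nat_lit 4, nat_lit 965908021065144686163668466410312064), (nat_lit 6, nat_lit 965160629329856182802027505434384448), (nat_lit 7, nat_lit 980559678634941505006330895191787840), (nat_lit 9, nat_lit 956948387967191010533236080690601376), (nat_lit 10, nat_lit 963273867669979030861518184466784544), (nat_lit 12, nat_lit 969928252101360214402696130393134496), (nat_lit 14, nat_lit 969060670253523985767460934765301984), (nat_lit 19, nat_lit 960995274100521244694038938532780480), (nat_lit 22, nat_lit 984075225637909620326864873705491072)]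

theorem XL_chk : allL (fun t => band (chk t.2) (band (blt' t.1 24)
    (Nat.beq (pfix t.2) (mask {none, some 0, pt t.1})))) XL = true := by decide +kernel


/-- In the automorphism group of the length-24 code, the two-point Mathieu group (permutations of the code's group fixing the extra point and the residue 0) has index 2 in the setwise stabiliser of that pair of points, and an element of the code's group interchanging the two points normalises the two-point group and induces on it, by conjugation, an automorphism that is not inner. -/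
theorem result (g : Equiv.Perm Cfsg.GolayPt) (hg : g ∈ Cfsg.M24) (h₁ : g none = some 0) (h₂ : g (some 0) = none) : Cfsg.Spor.M22.relIndex (Cfsg.M24 ⊓ MulAction.stabilizer (Equiv.Perm Cfsg.GolayPt) ({none, some 0} : Finset Cfsg.GolayPt)) = 2 ∧ (∀ x ∈ Cfsg.Spor.M22, g * x * g⁻¹ ∈ Cfsg.Spor.M22) ∧ ¬ ∃ h ∈ Cfsg.Spor.M22, ∀ x ∈ Cfsg.Spor.M22, g * x * g⁻¹ = h * x * h⁻¹ := by
  have hg' : g⁻¹ (some 0) = none := by rw [Equiv.Perm.inv_eq_iff_eq, h₁]
  have hg'' : g⁻¹ none = some 0 := by rw [Equiv.Perm.inv_eq_iff_eq, h₂]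
  refine ⟨?_, fun x hx => ?_, ?_⟩
  · rw [Subgroup.relIndex, Subgroup.index_eq_two_iff]
    refine ⟨⟨g, hg, ?_⟩, ?_⟩
    · change g • ({none, some 0} : Finset Pt) = _
      rw [Finset.smul_finset_insert, Finset.smul_finset_singleton, Finset.pair_comm]
      change ({g (some 0), g none} : Finset Pt) = _
      rw [h₁, h₂]
    · rintro ⟨b, hb, hb'⟩
      have hb2 : b • ({none, some 0} : Finset Pt) = {none, some 0} := hb'
      have a1 : b none ∈ ({none, some 0} : Finset Pt) := by
        rw [← hb2]; exact Finset.smul_mem_smul_finset (by simp)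
      have a2 : b (some 0) ∈ ({none, some 0} : Finset Pt) := by
        rw [← hb2]; exact Finset.smul_mem_smul_finset (by simp)
      have a3 : b none ≠ b (some 0) := b.injective.ne (by simp)
      have hb0 : b ∈ M24 := hb
      change Xor (b * g ∈ Spor.M22) (b ∈ Spor.M22)
      simp only [mem_M22, Equiv.Perm.mul_apply, h₁, h₂, hb0, mul_mem hb0 hg, true_and]
      clear hb hb' hb0 hg hb2
      simp only [Finset.mem_insert, Finset.mem_singleton] at a1 a2
      rcases a1 with a1 | a1 <;> rcases a2 with a2 | a2 <;> simp_all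
  · rw [mem_M22] at hx ⊢
    refine ⟨mul_mem (mul_mem hg hx.1) (inv_mem hg), ?_, ?_⟩
    · simp only [Equiv.Perm.mul_apply, hg'', hx.2.2, h₂]
    · simp only [Equiv.Perm.mul_apply, hg', hx.2.1, h₁]
  · rintro ⟨h, hh, H⟩
    rw [mem_M22] at hh
    have c1 : (h⁻¹ * g) none = some 0 := by
      rw [Equiv.Perm.mul_apply, h₁, Equiv.Perm.inv_eq_iff_eq, hh.2.2]
    have c2 : (h⁻¹ * g) (some 0) = none := by
      rw [Equiv.Perm.mul_apply, h₂, Equiv.Perm.inv_eq_iff_eq, hh.2.1]
    have key : ∀ t ∈ XL, (h⁻¹ * g) (pt t.1) = pt t.1 := by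
      intro t ht
      have h1 := allL_eq_true.1 XL_chk t ht
      simp only [band_eq_true, beq_iff] at h1
      obtain ⟨x, hx, e⟩ := inM_of_chk h1.1
      have h2 : fixS x = {none, some 0, pt t.1} := by
        apply mask_inj
        rw [← h1.2.2, ← e, pfix_code]
      have h3 : x ∈ Spor.M22 := mem_M22.2 ⟨hx, mem_fixS.1 (by simp [h2]), mem_fixS.1 (by simp [h2])⟩
      have h4 : (h⁻¹ * g) * x * (h⁻¹ * g)⁻¹ = x := by
        rw [show (h⁻¹ * g) * x * (h⁻¹ * g)⁻¹ = h⁻¹ * (g * x * g⁻¹) * h by group, H x h3]; group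
      have h5 : (h⁻¹ * g) (pt t.1) ∈ fixS x := by
        rw [← h4, fixS_conj]
        exact Finset.smul_mem_smul_finset (by simp [h2])
      have h6 : pt t.1 ≠ none ∧ pt t.1 ≠ some 0 :=
        (by decide +kernel : ∀ t ∈ XL, pt t.1 ≠ none ∧ pt t.1 ≠ some 0) t ht
      rw [h2] at h5
      simp only [Finset.mem_insert, Finset.mem_singleton] at h5
      rcases h5 with h5 | h5 | h5
      · exact absurd ((h⁻¹ * g).injective (h5.trans c2.symm)) h6.2
      · exact absurd ((h⁻¹ * g).injective (h5.trans c1.symm)) h6.1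
      · exact h5
    have h7 : h⁻¹ * g = 1 := by
      refine eq_one_of_nine (mul_mem (inv_mem hh.1) hg) ?_
      have e : ((XL.map fun t => pt t.1).toFinset).card = 9 := by decide +kernel
      rw [← e]
      refine Finset.card_le_card fun x hx => ?_
      obtain ⟨t, ht, rfl⟩ := List.mem_map.1 (List.mem_toFinset.1 hx)
      exact mem_fixS.2 (key t ht)
    rw [h7] at c1
    exact absurd c1 (by decide)

end Cfsg.Agent.S5599
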