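import Cfsg.Statements.S5600
import Cfsg.Agent.M24.Six

set_option autoImplicit false
open scoped Pointwise
open Cfsg

namespace Cfsg.Agent.S5600

open CA.M24
set_option maxRecDepth 100000
set_option maxHeartbeats 400000



/-- Although the group of the length-24 code is only 5-transitive on the 24 points, it induces the full symmetric group on every 6-element subset: every permutation of a 6-set E is the restriction of an element of the group mapping E to itself. The pointwise stabiliser of E has order 16 when E lies in an octad and order 3 otherwise; in the latter case the setwise stabiliser of E has order 2160. -/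
theorem result (E : Finset Cfsg.GolayPt) (hE : E.card = 6) : (∀ σ : Equiv.Perm ↥E, ∃ g ∈ Cfsg.M24, ∀ p : ↥E, g p = σ p) ∧ ((∃ o ∈ Cfsg.octads, E ⊆ o) → Nat.card {g : Equiv.Perm Cfsg.GolayPt // g ∈ Cfsg.M24 ∧ ∀ p ∈ E, g p = p} = 16) ∧ ((¬ ∃ o ∈ Cfsg.octads, E ⊆ o) → Nat.card {g : Equiv.Perm Cfsg.GolayPt // g ∈ Cfsg.M24 ∧ ∀ p ∈ E, g p = p} = 3 ∧ Nat.card ↥(MulAction.stabilizer Cfsg.M24 E) = 2160) := by
  refine ⟨exists_induces hE, card_pointwise_special hE, fun h => ⟨card_pointwise_umbral hE h, ?_⟩⟩
  have hmem : ∀ (g : MulAction.stabilizer M24 E) (x : Pt), g.1.1 x ∈ E ↔ x ∈ E := fun g x => by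
    have h1 : g.1.1 • E = E := g.2
    have h2 := Finset.smul_mem_smul_finset_iff g.1.1 (b := x) (s := E)
    rwa [h1] at h2
  let φ : MulAction.stabilizer M24 E →* Equiv.Perm E :=
    { toFun := fun g => g.1.1.subtypePerm (hmem g)
      map_one' := Equiv.ext fun x => Subtype.ext rfl
      map_mul' := fun a b => Equiv.ext fun x => Subtype.ext rfl }
  have hsurj : Function.Surjective φ := by
    intro σ
    obtain ⟨g, hg, e⟩ := exists_induces hE σ
    refine ⟨⟨⟨g, hg⟩, ?_⟩, Equiv.ext fun x => Subtype.ext (e x)⟩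
    change g • E = E
    refine Finset.eq_of_subset_of_card_le (fun x hx => ?_) (by rw [Finset.card_smul_finset])
    obtain ⟨y, hy, rfl⟩ := Finset.mem_smul_finset.1 hx
    change g y ∈ E
    rw [e ⟨y, hy⟩]
    exact Subtype.property _
  have hker : Nat.card φ.ker = 3 := by
    rw [← card_pointwise_umbral hE h]
    refine Nat.card_congr
      { toFun := fun g => ⟨g.1.1.1, g.1.1.2, fun p hp =>
          congrArg Subtype.val (DFunLike.congr_fun (show φ g.1 = 1 from g.2) (⟨p, hp⟩ : E))⟩
        invFun := fun g => ⟨⟨⟨g.1, g.2.1⟩, ?_⟩, ?_⟩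
        left_inv := fun _ => rfl
        right_inv := fun _ => rfl }
    · change g.1 • E = E
      refine Finset.eq_of_subset_of_card_le (fun x hx => ?_) (by rw [Finset.card_smul_finset])
      obtain ⟨y, hy, rfl⟩ := Finset.mem_smul_finset.1 hx
      change g.1 y ∈ E
      rwa [g.2.2 y hy]
    · exact Equiv.ext fun x => Subtype.ext (g.2.2 x x.2)
  rw [← φ.ker.index_mul_card, Subgroup.index_ker, MonoidHom.range_eq_top.2 hsurj, hker,
    Subgroup.card_top, Nat.card_perm, Nat.card_eq_fintype_card, Fintype.card_coe, hE]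
  rfl

end Cfsg.Agent.S5600
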