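import Cfsg.Statements.S5601
import Cfsg.Agent.M24.Misc

set_option autoImplicit false
open scoped Pointwise
open Cfsg

namespace Cfsg.Agent.S5601

open CA.M24
set_option maxRecDepth 100000
set_option maxHeartbeats 400000

theorem ncard_fix (g : Equiv.Perm Pt) (hg : g ∈ M24) :
    {p : Pt | ∀ y ∈ Subgroup.zpowers (⟨g, hg⟩ : M24), ((y : M24) : Equiv.Perm Pt) p = p}.ncard =
      (fixS g).card := by
  rw [fixed_zpowers, Set.ncard_coe_finset]

theorem card_zp (g : Equiv.Perm Pt) (hg : g ∈ M24) :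
    Nat.card (Subgroup.zpowers (⟨g, hg⟩ : M24)) = orderOf g := by
  rw [Nat.card_zpowers, ← Subgroup.orderOf_coe]


/-- The group of the length-24 code has exactly two conjugacy classes of subgroups of order 3: a subgroup of order 3 fixes either exactly 6 of the 24 points or none of them, both cases occur, and two subgroups of order 3 with the same number of fixed points are conjugate. -/
theorem result : (∀ X : Subgroup ↥Cfsg.M24, Nat.card X = 3 → {p : Cfsg.GolayPt | ∀ x ∈ X, ((x : ↥Cfsg.M24) : Equiv.Perm Cfsg.GolayPt) p = p}.ncard = 6 ∨ {p : Cfsg.GolayPt | ∀ x ∈ X, ((x : ↥Cfsg.M24) : Equiv.Perm Cfsg.GolayPt) p = p}.ncard = 0) ∧ (∃ X : Subgroup ↥Cfsg.M24, Nat.card X = 3 ∧ {p : Cfsg.GolayPt | ∀ x ∈ X, ((x : ↥Cfsg.M24) : Equiv.Perm Cfsg.GolayPt) p = p}.ncard = 6) ∧ (∃ X : Subgroup ↥Cfsg.M24, Nat.card X = 3 ∧ {p : Cfsg.GolayPt | ∀ x ∈ X, ((x : ↥Cfsg.M24) : Equiv.Perm Cfsg.GolayPt) p = p}.ncard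 = 0) ∧ ∀ X Y : Subgroup ↥Cfsg.M24, Nat.card X = 3 → Nat.card Y = 3 → {p : Cfsg.GolayPt | ∀ x ∈ X, ((x : ↥Cfsg.M24) : Equiv.Perm Cfsg.GolayPt) p = p}.ncard = {p : Cfsg.GolayPt | ∀ x ∈ Y, ((x : ↥Cfsg.M24) : Equiv.Perm Cfsg.GolayPt) p = p}.ncard → ∃ k : ↥Cfsg.M24, MulAut.conj k • X = Y := by
  refine ⟨?_, ⟨Subgroup.zpowers ⟨perm r3A, r3A_in.perm_mem⟩, ?_, ?_⟩,
    ⟨Subgroup.zpowers ⟨perm r3B, r3B_in.perm_mem⟩, ?_, ?_⟩, ?_⟩
  · intro X hX
    obtain ⟨x, hx, rfl⟩ := exists_zpowers_of_card_prime Nat.prime_three hX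
    rw [fixed_zpowers, Set.ncard_coe_finset]
    exact card_fix_three x.2 (by rwa [Subgroup.orderOf_coe])
  · rw [card_zp, orderOf_r3A]
  · rw [ncard_fix, card_fix_r3A]
  · rw [card_zp, orderOf_r3B]
  · rw [ncard_fix, card_fix_r3B]
  · intro X Y hX hY h
    obtain ⟨x, hx, rfl⟩ := exists_zpowers_of_card_prime Nat.prime_three hX
    obtain ⟨y, hy, rfl⟩ := exists_zpowers_of_card_prime Nat.prime_three hY
    rw [fixed_zpowers, fixed_zpowers, Set.ncard_coe_finset, Set.ncard_coe_finset] at h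
    rw [← Subgroup.orderOf_coe] at hx hy
    have : ∃ k ∈ M24, k * x.1 * k⁻¹ = y.1 := by
      by_cases hf : (fixS x.1).card = 0
      · obtain ⟨k, hk, e⟩ := conj_3B x.2 hx (card_fixS_eq_zero.1 hf)
        obtain ⟨k', hk', e'⟩ := conj_3B y.2 hy (card_fixS_eq_zero.1 (h ▸ hf))
        exact ⟨_, mul_mem (inv_mem hk') hk, conj_of_conj e e'⟩
      · obtain ⟨k, hk, e⟩ := conj_3A x.2 hx hf
        obtain ⟨k', hk', e'⟩ := conj_3A y.2 hy (h ▸ hf)
        exact ⟨_, mul_mem (inv_mem hk') hk, conj_of_conj e e'⟩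
    obtain ⟨k, hk, e⟩ := this
    refine ⟨⟨k, hk⟩, ?_⟩
    rw [conj_smul_zpowers]
    congr 1
    exact Subtype.ext e

end Cfsg.Agent.S5601
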