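import Cfsg.Statements.S5603
import Cfsg.Agent.M24.Classes

set_option autoImplicit false
open scoped Pointwise
open Cfsg

namespace Cfsg.Agent.S5603

open CA.M24
set_option maxRecDepth 100000



/-- A fixed-point-free element of order 3 of the group of the length-24 code maps to themselves exactly 7 sextets and exactly 15 trios. -/
theorem result (g : Equiv.Perm Cfsg.GolayPt) (hg : g ∈ Cfsg.M24) (h₃ : orderOf g = 3) (h₀ : ∀ p, g p ≠ p) : {S : Finset (Finset Cfsg.GolayPt) | S ∈ Cfsg.sextets ∧ g • S = S}.ncard = 7 ∧ {T : Finset (Finset Cfsg.GolayPt) | T ∈ Cfsg.trios ∧ g • T = T}.ncard = 15 := by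
  obtain ⟨k, hk, e⟩ := conj_3B hg h₃ h₀
  refine ⟨?_, ?_⟩
  · rw [← ncard_fixed_conj sextets_inv hk, e, sextets_eq, ncard_fixed_TS (famC 6) sexT_good r3B_in.code_perm]
    decide +kernel
  · rw [← ncard_fixed_conj trios_inv hk, e, trios_eq, ncard_fixed_TS (famC 3) triT_good r3B_in.code_perm]
    decide +kernel

end Cfsg.Agent.S5603
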