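import Cfsg.Statements.S5604
import Cfsg.Agent.M24.M12

set_option autoImplicit false
open scoped Pointwise
open Cfsg

namespace Cfsg.Agent.S5604

open CA.M24
open scoped Pointwise
set_option maxRecDepth 100000
set_option maxHeartbeats 400000

def L126 : List ℕ := [nat_lit 8339367652962878777098405578595490, nat_lit 12470142778494962636810569737389093, nat_lit 15844747036600220001708861812804673, nat_lit 17373878287749928363964521697592357, nat_lit 23738511095580568416355184752516258, nat_lit 25409331748320891820108966844861505, nat_lit 54049229663579423466396318720103522, nat_lit 55067556855441389803108711830510673, nat_lit 59317831896522102619150110285141090, nat_lit 62686201326817003310773136388119633, nat_lit 68177326458462672558240074663264803, nat_lit 70527379850483108279798624570901027, nat_lit 92822950828307573200134696468643959, nat_lit 93876643295366179243976196794515575, nat_lit 96564840624045044301720368752346275, nat_lit 99002900360207824501802861802391269, nat_lit 104629678293615405615720162123302051, nat_lit 108039728951468779093005655767877349, nat_lit 134077713064182101719898757360803365, nat_lit 135536390189869743428787053579492901,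 nat_lit 136760829206314503320836889059166225, nat_lit 139205046103226349617529205183513760, nat_lit 142353661573437722788416219762558993, nat_lit 152213526779692371220323802689340576, nat_lit 216355643519159809144104154957580833, nat_lit 220936747177167854428600348808088631, nat_lit 222646596191025776000067769772049137, nat_lit 229204751871508712184182684817853495, nat_lit 231511441363554425275821781451246113, nat_lit 235371747056029898180875511161455345, nat_lit 251470644219332858952413999253501334, nat_lit 251881287185143719904149938903589578, nat_lit 258683199782348429177859453449745814, nat_lit 261388332250448373521655275312600396, nat_lit 263796487278226303958707395969295050, nat_lit 279178797030434557976502583645918540, nat_lit 291715171151901803898416734668399987, nat_lit 297287424800078952645298225621090930, nat_lit 304276911453044754402689828054967667, nat_lit 308565192521494712124081313174639179, nat_lit 319739157197084196315728269797606002, nat_lit 320844046209349259450288444412645963, nat_lit 333261087636746471019611237436831404, nat_lit 338823093700694297302275081068259718, nat_lit 344830140660307529746220642619250901,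 nat_lit 353441472409265035031548755381008044, nat_lit 358924772705679105251146575337138566, nat_lit 362377596581104756225181565422295253, nat_lit 377158629506010415713434153996799559, nat_lit 380445246383561725658056364616396016, nat_lit 390336321368719755410021942881931794, nat_lit 396131513599076498678235600065384978, nat_lit 401594444299403178833138798991789639, nat_lit 403261883881603939823597511674244336, nat_lit 420234541690455909076351528491824853, nat_lit 427866425699685257915501952440643862, nat_lit 437597171948039836766775792785627816, nat_lit 439118646014995563914310098138445525, nat_lit 440799793384622584188977540634450600, nat_lit 445941193328929632351938098647183638, nat_lit 457624735268048479466701992431505042, nat_lit 458230842325432969084236794454229577, nat_lit 467714313503293703013677209926386249, nat_lit 470389711889590053171010646734851730, nat_lit 472845087079938580117565297629142324, nat_lit 479045566040800787027950789285453108, nat_lit 499970994731142071273116132226554538, nat_lit 502418910354732915851254438669492557, nat_lit 505098214391078326727612771162462645, nat_lit 508359729503673674590870082402310826,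 nat_lit 522113792394346968516139694020010317, nat_lit 525158527636903844126160888856385973, nat_lit 543299380748775652375949909166469320, nat_lit 546596502445792182133384119394194698, nat_lit 555051155437600238092487034268889288, nat_lit 562293489649016328337640368816544070, nat_lit 565495211092309102635596862537881926, nat_lit 566413586462175871880739884082877706, nat_lit 669449303315171791279095575685080715, nat_lit 672934264197093756477797366157780619, nat_lit 680456745107030582002224396040292711, nat_lit 682005018498070549608509221527473396, nat_lit 686818708382168506398422753223526759, nat_lit 695176050618059958317791415773809908, nat_lit 714288960416859052690668251881997335, nat_lit 716060583758142955414439507445650496, nat_lit 717438990385474820218520055036220480, nat_lit 729810165978036791608559526076285975, nat_lit 732872241468639048441480939178036962, nat_lit 734979044568103397683587130287197922, nat_lit 749932798617997478128562227876734580, nat_lit 750354611739225161767524268349431440, nat_lit 758604031306700690062895978291668596, nat_lit 765446775682116200835764709109673491, nat_lit 775278292508773767424876322920963728,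 nat_lit 777644408094979165823032686739598867, nat_lit 790740416499438691634034545222013296, nat_lit 793172414160494895765361273865608713, nat_lit 795869405930060796832069255565953323, nat_lit 797346090638931209512355255021837833, nat_lit 800507557899302159755869042988339568, nat_lit 818036522275350663472723564369037611, nat_lit 830902715521975222669577688555571433, nat_lit 833390514756834681925030608679190835, nat_lit 834750868414697838214149596228398695, nat_lit 839411635901900795491372545482206823, nat_lit 843991729154215916488007150488635625, nat_lit 858435360163802802127705534225432883, nat_lit 873016045341800367674582024310928070, nat_lit 873613597904685572343209822117374157, nat_lit 882043376615487700228808737263659213, nat_lit 893845859632912302692890471985230534, nat_lit 894438440583037986599986105172566454, nat_lit 897274790213436734280803407481741750, nat_lit 913986684068935083716774438258481421, nat_lit 916455061662672640717363838194035116, nat_lit 917843062457875507636793540946089352, nat_lit 928774756204636638739231022350870956, nat_lit 935343702395516635290786236201310477, nat_lit 937659627789473081045734116693562760,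 nat_lit 970459674651378202929055161480397921, nat_lit 971876468450167513867394678674985987, nat_lit 980873382123817031433564829579777027, nat_lit 981818691054096003685363657089320992, nat_lit 983143714755946380332222681372968033, nat_lit 984818244535754528103549039458486304]

theorem chk1 : allR (fun j => force (ppow r7A j) fun s => allR (fun a => force (dig s a) fun b =>
    bor (Nat.beq b a) (force (dig s b) fun c => force (dig s c) fun d => enum5L a b c d (dig s d) fun v r =>
      bimp (Nat.beq (dig v (dig r 22)) (dig s (dig v (dig r 6))))
        (force (pmul v r) fun c => bimp (Nat.beq (pmul c r7A) (pmul s c)) (memL c L126)))) 24) 7 = true := by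
  decide +kernel

theorem chk2 : allL (fun c => band (chk c) (anyR (fun j => Nat.beq (pmul c r7A) (pmul (ppow r7A j) c)) 7))
    L126 = true := by decide +kernel

theorem mem_L126 {g : Equiv.Perm Pt} (hg : g ∈ M24) :
    code g ∈ L126 ↔ ∃ j < 7, g * perm r7A = perm r7A ^ j * g := by
  have e := r7A_in.code_perm
  constructor
  · intro h
    have := allL_eq_true.1 chk2 _ h
    simp only [band_eq_true, anyR_eq_true, beq_iff] at this
    obtain ⟨-, j, hj, h1⟩ := this
    refine ⟨j, hj, code_inj ?_⟩
    rw [← pmul_code, ← pmul_code, ← ppow_code, e, h1]
  · rintro ⟨j, hj, h⟩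
    have h0 := congrArg code h
    rw [← pmul_code, ← pmul_code, ← ppow_code, e] at h0
    have h1 : ∀ i < 24, dig (code g) (dig r7A i) = dig (ppow r7A j) (dig (code g) i) := fun i hi => by
      rw [← dig_pmul _ _ hi, ← dig_pmul _ _ hi, h0]
    have := allR_eq_true.1 chk1 j hj
    rw [force_eq] at this
    have := allR_eq_true.1 this _ (dig_code_lt g (i := 23) (by norm_num))
    simp only [force_eq, bor_eq_true, beq_iff] at this
    have a1 : dig (code g) 0 = _ := h1 23 (by norm_num)
    have a2 : dig (code g) 1 = _ := h1 0 (by norm_num)
    have a3 : dig (code g) 2 = _ := h1 1 (by norm_num)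
    have a4 : dig (code g) 3 = _ := h1 2 (by norm_num)
    have a5 : dig (code g) 22 = _ := h1 6 (by norm_num)
    rw [← a1, ← a2, ← a3, ← a4] at this
    obtain ⟨v, r, e1, h2⟩ := enum5L_spec (this.resolve_left
      (dig_code_ne g (by norm_num) (by norm_num) (by norm_num))) hg rfl rfl rfl rfl rfl
    simp only [bimp_eq_true, beq_iff, ← e1, memL_eq_true] at h2
    refine h2 ?_ h0
    rw [← dig_pmul v r (by norm_num), ← dig_pmul v r (by norm_num), ← e1, a5]

theorem L126_in {c : ℕ} (h : c ∈ L126) : InH M24 c :=
  inM_of_chk (band_eq_true.1 (allL_eq_true.1 chk2 c h)).1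

theorem orderOf_r7A : orderOf (perm r7A) = 7 :=
  haveI : Fact (Nat.Prime 7) := ⟨by norm_num⟩
  orderOf_perm r7A_in.code_perm (by decide +kernel)

theorem normal_form (S : Subgroup M24) (hS : Nat.card S = 7) :
    ∃ (k x : M24), S = Subgroup.zpowers x ∧ ((k * x * k⁻¹ : M24) : Equiv.Perm Pt) = perm r7A := by
  obtain ⟨x, hx, rfl⟩ := exists_zpowers_of_card_prime (by norm_num) hS
  obtain ⟨h1, h2⟩ := of_orderOf hx (by norm_num)
  obtain ⟨k, hk, e | e⟩ := classes_seven x.2 (congrArg Subtype.val h1) fun e => h2 (Subtype.ext e)
  · exact ⟨⟨k, hk⟩, x, rfl, e⟩
  · refine ⟨⟨k, hk⟩, x ^ 5, ?_, ?_⟩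
    · refine le_antisymm (Subgroup.zpowers_le.2 ⟨3, ?_⟩) (Subgroup.zpowers_le.2 (Subgroup.npow_mem_zpowers x 5))
      show (x ^ 5) ^ (3 : ℕ) = x
      rw [← pow_mul, show 5 * 3 = 7 * 2 + 1 by norm_num, pow_succ, pow_mul, h1, one_pow, one_mul]
    · show k * (x : Equiv.Perm Pt) ^ 5 * k⁻¹ = _
      rw [← conj_pow, e]
      apply code_inj
      rw [← ppow_code, r7B_in.code_perm, r7A_in.code_perm]
      decide +kernel


/-- For a subgroup S of order 7 of the group of the length-24 code (a Sylow 7-subgroup): the normaliser of S has order 126, the centraliser of S has order 42 and is non-abelian, and the whole normaliser leaves some trio invariant. (These are the orders of a Frobenius group of order 21 times a symmetric group of degree 3; the isomorphism type itself is not asserted here.) -/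
theorem result (S : Subgroup ↥Cfsg.M24) (hS : Nat.card S = 7) : Nat.card ↥(Subgroup.normalizer (S : Set ↥Cfsg.M24)) = 126 ∧ Nat.card ↥(Subgroup.centralizer (S : Set ↥Cfsg.M24)) = 42 ∧ (∃ x ∈ Subgroup.centralizer (S : Set ↥Cfsg.M24), ∃ y ∈ Subgroup.centralizer (S : Set ↥Cfsg.M24), x * y ≠ y * x) ∧ ∃ T ∈ Cfsg.trios, ∀ n ∈ Subgroup.normalizer (S : Set ↥Cfsg.M24), ((n : ↥Cfsg.M24) : Equiv.Perm Cfsg.GolayPt) • T = T := by
  obtain ⟨k, x, rfl, e⟩ := normal_form S hS
  let ι : M24 →* Equiv.Perm Pt := M24.subtype.comp (MulAut.conj k).toMonoidHom
  have hι : Function.Injective ι := Subtype.val_injective.comp (MulAut.conj k).injective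
  have hx : ι x = perm r7A := e
  have hs : ∀ g ∈ M24, ∃ n, ι n = g := fun g hg => ⟨k⁻¹ * ⟨g, hg⟩ * k, by
    show ((k * (k⁻¹ * ⟨g, hg⟩ * k) * k⁻¹ : M24) : Equiv.Perm Pt) = g
    rw [show k * (k⁻¹ * ⟨g, hg⟩ * k) * k⁻¹ = ⟨g, hg⟩ by group]⟩
  have hm : ∀ n, ι n ∈ M24 := fun n => (k * n * k⁻¹).2
  have hnd : L126.Nodup := incL_nodup (lo := 0) (by decide +kernel)
  rw [Nat.card_zpowers] at hS
  have hN : ∀ n, n ∈ Subgroup.normalizer (Subgroup.zpowers x : Set M24) ↔ code (ι n) ∈ L126 := fun n => by
    rw [mem_L126 (hm n), ← hx]
    constructor
    · intro h
      have := (Subgroup.mem_normalizer_iff.1 h x).1 (Subgroup.mem_zpowers x)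
      classical
      rw [mem_zpowers_iff_mem_range_orderOf, Finset.mem_image] at this
      obtain ⟨j, hj, e1⟩ := this
      exact ⟨j, hS ▸ Finset.mem_range.1 hj, by rw [← map_pow, e1, ← map_mul, ← map_mul, inv_mul_cancel_right]⟩
    · rintro ⟨j, -, h⟩
      rw [← map_pow, ← map_mul, ← map_mul] at h
      refine Subgroup.mem_normalizer_fintype ?_
      rintro _ ⟨i, rfl⟩
      show n * x ^ i * n⁻¹ ∈ Subgroup.zpowers x
      rw [← conj_zpow, hι h, mul_inv_cancel_right]
      exact Subgroup.zpow_mem _ (Subgroup.npow_mem_zpowers x j) i
  have hC : ∀ n, n ∈ Subgroup.centralizer (Subgroup.zpowers x : Set M24) ↔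
      commB (code (ι n)) r7A = true := fun n => by
    rw [← r7A_in.code_perm, commB_code, ← hx, ← map_mul, ← map_mul, hι.eq_iff]
    refine ⟨fun h => (h x (Subgroup.mem_zpowers x)).symm, fun h => ?_⟩
    rintro _ ⟨i, rfl⟩
    exact (Commute.zpow_right h i).symm
  have hc : ∀ c ∈ L126, ∃ n, code (ι n) = c := fun c hc => by
    obtain ⟨g, hg, rfl⟩ := L126_in hc
    obtain ⟨n, rfl⟩ := hs g hg
    exact ⟨n, rfl⟩
  refine ⟨?_, ?_, ?_, ?_⟩
  · rw [← Subgroup.card_map_of_injective hι]
    refine (card_eq_countP _ L126 (fun _ => true) hnd ?_ ?_).trans (by decide +kernel)
    · rintro _ ⟨n, hn, rfl⟩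
      exact ⟨(hN n).1 hn, rfl⟩
    · intro c h _
      obtain ⟨n, rfl⟩ := hc c h
      exact ⟨_, ⟨n, (hN n).2 h, rfl⟩, rfl⟩
  · rw [← Subgroup.card_map_of_injective hι]
    refine (card_eq_countP _ L126 (fun c => commB c r7A) hnd ?_ ?_).trans (by decide +kernel)
    · rintro _ ⟨n, hn, rfl⟩
      exact ⟨(hN n).1 (Subgroup.centralizer_le_normalizer _ hn), (hC n).1 hn⟩
    · intro c h h'
      obtain ⟨n, rfl⟩ := hc c h
      exact ⟨_, ⟨n, (hC n).2 h', rfl⟩, rfl⟩
  · obtain ⟨a, ha⟩ := hc (nat_lit 25409331748320891820108966844861505) (by decide +kernel)
    obtain ⟨b, hb⟩ := hc (nat_lit 251470644219332858952413999253501334) (by decide +kernel)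
    refine ⟨a, (hC a).2 (by rw [ha]; decide +kernel), b, (hC b).2 (by rw [hb]; decide +kernel), fun h => ?_⟩
    have := commB_code.2 (show ι a * ι b = ι b * ι a by rw [← map_mul, h, map_mul])
    rw [ha, hb] at this
    exact absurd this (by decide +kernel)
  · obtain ⟨d1, d2⟩ := (famC 3).canon_spec (nat_lit 2402701751256155490960) (by decide +kernel)
    have hT := mem_trios_of_isT d1 (by rw [d2]; decide +kernel)
    refine ⟨_, smul_mem_trios (inv_mem k.2) hT, fun n hn => ?_⟩
    have := ((famC 3).smul_eq_iff (g := ι n) d1 d1).2 (by
      rw [d2]
      exact (show ∀ c ∈ L126, (famC 3).act c (nat_lit 2402701751256155490960) = nat_lit 2402701751256155490960 by decide +kernel) _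
        ((hN n).1 hn))
    rw [eq_inv_smul_iff, ← mul_smul, ← mul_smul]
    exact this

end Cfsg.Agent.S5604
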