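import Cfsg.Statements.S5605
import Cfsg.Agent.M24.Classes

set_option autoImplicit false
open scoped Pointwise
open Cfsg

namespace Cfsg.Agent.S5605

open CA.M24
set_option maxRecDepth 100000



/-- An involution of the group of the length-24 code with exactly 8 fixed points maps to themselves exactly 71 octads, exactly 99 trios and exactly 91 sextets. -/
theorem result (g : Equiv.Perm Cfsg.GolayPt) (hg : g ∈ Cfsg.M24) (h₂ : orderOf g = 2) (h₈ : (Finset.univ.filter fun p => g p = p).card = 8) : {o : Finset Cfsg.GolayPt | o ∈ Cfsg.octads ∧ g • o = o}.ncard = 71 ∧ {T : Finset (Finset Cfsg.GolayPt) | T ∈ Cfsg.trios ∧ g • T = T}.ncard = 99 ∧ {S : Finset (Finset Cfsg.GolayPt) | S ∈ Cfsg.sextets ∧ g • S = S}.ncard = 91 := by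
  obtain ⟨k, hk, e⟩ := conj_2A hg h₂ (by rw [h₈]; norm_num)
  refine ⟨?_, ?_, ?_⟩
  · rw [← ncard_fixed_conj octads_inv hk, e, octads_eq, ncard_fixed_TS setC octT_good r2A_in.code_perm]
    decide +kernel
  · rw [← ncard_fixed_conj trios_inv hk, e, trios_eq, ncard_fixed_TS (famC 3) triT_good r2A_in.code_perm]
    decide +kernel
  · rw [← ncard_fixed_conj sextets_inv hk, e, sextets_eq, ncard_fixed_TS (famC 6) sexT_good r2A_in.code_perm]
    decide +kernel

end Cfsg.Agent.S5605
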