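import Cfsg.Statements.S5608
import Cfsg.Agent.M24.Misc

set_option autoImplicit false
open scoped Pointwise
open Cfsg

namespace Cfsg.Agent.S5608

open CA.M24
set_option maxRecDepth 100000
set_option maxHeartbeats 400000

noncomputable def commL (v r x : ℕ) : Bool :=
  allR (fun i => Nat.beq (dig v (dig r (dig x i))) (dig x (dig v (dig r i)))) 24

theorem commL_of {s x : Equiv.Perm Pt} {v r : ℕ} (e : code s = pmul v r) (h : s * x = x * s) :
    commL v r (code x) = true := by
  have := commB_code.2 h
  simp only [commB, commL, allR_eq_true, beq_iff] at this ⊢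
  intro i hi
  rw [← dig_pmul v r (dig_code_lt x hi), ← dig_pmul v r hi, ← e]
  exact this i hi

noncomputable def test (x n : ℕ) : Bool :=
  allR (fun a => allR (fun d => enum5L a (dig x a) (dig x (dig x a)) d (dig x d) fun v r =>
    bimp (commL v r x) (force (pmul v r) fun c => bimp (Nat.beq (pmul c c) pone)
      (bor (Nat.beq c pone) (Nat.beq (pcnt (pfix c)) n)))) 24) 24

theorem test_spec {x s : Equiv.Perm Pt} {n : ℕ} (h : test (code x) n = true) (h1 : dig (code x) 23 = 0)
    (h2 : dig (code x) 0 = 1) (h3 : dig (code x) 2 = 3) (hs : s ∈ M24) (hc : s * x = x * s)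
    (ho : s ^ 2 = 1) (ho' : s ≠ 1) : (fixS s).card = n := by
  simp only [test, allR_eq_true] at h
  have h4 := h _ (dig_code_lt s (i := 23) (by norm_num)) _ (dig_code_lt s (i := 2) (by norm_num))
  have e0 := dig_comm hc (by norm_num) h1
  obtain ⟨v, r, e, h5⟩ := enum5L_spec h4 hs rfl e0 (by rw [dig_comm hc (by norm_num) h2, e0]) rfl
    (dig_comm hc (by norm_num) h3)
  rw [bimp_eq_true, force_eq, ← e, bimp_eq_true, bor_eq_true, beq_iff, beq_iff, beq_iff, pmul_code,
    ← code_one, code_inj.eq_iff, code_inj.eq_iff, pfix_code, pcnt_mask, ← pow_two] at h5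
  exact (h5 (commL_of e hc) ho).resolve_left ho'

theorem testA : test r3A 8 = true := by decide +kernel
theorem testB : test r3B 0 = true := by decide +kernel


/-- If an element of order 3 and an involution of the group of the length-24 code commute, then either the element of order 3 has exactly 6 fixed points and the involution exactly 8, or both are fixed-point-free. -/
theorem result (x s : Equiv.Perm Cfsg.GolayPt) (hx : x ∈ Cfsg.M24) (hs : s ∈ Cfsg.M24) (h₃ : orderOf x = 3) (h₂ : orderOf s = 2) (hc : Commute x s) : ((Finset.univ.filter fun p => x p = p).card = 6 ∧ (Finset.univ.filter fun p => s p = p).card = 8) ∨ ((Finset.univ.filter fun p => x p = p).card = 0 ∧ (Finset.univ.filter fun p => s p = p).card = 0) := by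
  obtain ⟨a1, a2⟩ := of_orderOf h₃ (by norm_num)
  obtain ⟨b1, b2⟩ := of_orderOf h₂ (by norm_num)
  obtain ⟨k, hk, e⟩ := classes_three hx a1 a2
  have hs' := mul_mem (mul_mem hk hs) (inv_mem hk)
  have hc' : (k * s * k⁻¹) * (k * x * k⁻¹) = (k * x * k⁻¹) * (k * s * k⁻¹) := by
    rw [show (k * s * k⁻¹) * (k * x * k⁻¹) = k * (s * x) * k⁻¹ by group, ← hc.eq]
    group
  have b3 : k * s * k⁻¹ ≠ 1 := by rwa [ne_eq, mul_inv_eq_one, mul_eq_left]
  change ((fixS x).card = 6 ∧ (fixS s).card = 8) ∨ ((fixS x).card = 0 ∧ (fixS s).card = 0)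
  rw [← card_fixS_conj k x, ← card_fixS_conj k s]
  rcases e with e | e
  · rw [e] at hc' ⊢
    refine Or.inl ⟨card_fix_r3A, test_spec (x := perm r3A) ?_ ?_ ?_ ?_ hs' hc' (conj_pow_eq_one b1) b3⟩ <;>
      rw [r3A_in.code_perm]
    · exact testA
    all_goals decide +kernel
  · rw [e] at hc' ⊢
    refine Or.inr ⟨card_fix_r3B, test_spec (x := perm r3B) ?_ ?_ ?_ ?_ hs' hc' (conj_pow_eq_one b1) b3⟩ <;>
      rw [r3B_in.code_perm]
    · exact testB
    all_goals decide +kernel

end Cfsg.Agent.S5608
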