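import Cfsg.Statements.S5609
import Cfsg.Agent.M24.OctPair

set_option autoImplicit false
open scoped Pointwise
open Cfsg

namespace Cfsg.Agent.S5609

open CA.M24
open scoped Pointwise
set_option maxRecDepth 100000
set_option maxHeartbeats 400000

theorem disj_smul {k : Equiv.Perm Pt} {a b : Finset Pt} (h : Disjoint a b) :
    Disjoint (k • a) (k • b) := by
  rw [Finset.disjoint_iff_inter_eq_empty] at *
  rw [← Finset.smul_finset_inter, h, Finset.smul_finset_empty]

theorem disj_unmask {a b : ℕ} (ha : isO a = true) (hb : isO b = true) (h : Nat.land a b = 0) :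
    Disjoint (unmask a) (unmask b) := by
  rw [disjoint_iff_mask, (unmask_mem_octads ha).2, (unmask_mem_octads hb).2, h]

theorem adj_iff (a b : octads) : (blockGraph octads).Adj a b ↔ Disjoint a.1 b.1 := by
  rw [blockGraph, SimpleGraph.fromRel_adj, disjoint_comm (a := b.1), or_self, and_iff_right_iff_imp]
  intro h e
  rw [e, disjoint_self, Finset.bot_eq_empty] at h
  have := b.2.2
  rw [h] at this
  exact absurd this (by decide)

theorem case4 (a b : octads) (h : (a.1 ∩ b.1).card = 4) :
    ∃ p : octads, Disjoint a.1 p.1 ∧ Disjoint p.1 b.1 := by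
  obtain ⟨k, hk, e1, e2⟩ := pair_normal Q4_spec.2.2 a.2 b.2 h
  refine ⟨⟨k • unmask (nat_lit 4038912), smul_mem_octads hk (unmask_mem_octads (by decide +kernel)).1⟩, ?_⟩
  rw [← e1, ← e2]
  exact ⟨disj_smul (disj_unmask (by decide +kernel) (by decide +kernel) (by decide +kernel)),
    disj_smul (disj_unmask (by decide +kernel) (by decide +kernel) (by decide +kernel))⟩

theorem case2 (a b : octads) (h : (a.1 ∩ b.1).card = 2) :
    ∃ p q : octads, Disjoint a.1 p.1 ∧ Disjoint p.1 q.1 ∧ Disjoint q.1 b.1 := by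
  obtain ⟨k, hk, e1, e2⟩ := pair_normal Q2_spec.2.2 a.2 b.2 h
  refine ⟨⟨k • unmask (nat_lit 337856), smul_mem_octads hk (unmask_mem_octads (by decide +kernel)).1⟩,
    ⟨k • unmask (nat_lit 6832158), smul_mem_octads hk (unmask_mem_octads (by decide +kernel)).1⟩, ?_⟩
  rw [← e1, ← e2]
  exact ⟨disj_smul (disj_unmask (by decide +kernel) (by decide +kernel) (by decide +kernel)),
    disj_smul (disj_unmask (by decide +kernel) (by decide +kernel) (by decide +kernel)),
    disj_smul (disj_unmask (by decide +kernel) (by decide +kernel) (by decide +kernel))⟩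

theorem case2' (a b : octads) (h : (a.1 ∩ b.1).card = 2) (p : octads) (h1 : Disjoint a.1 p.1) :
    ¬ Disjoint p.1 b.1 := by
  intro h2
  obtain ⟨k, hk, e1, e2⟩ := pair_normal Q2_spec.2.2 a.2 b.2 h
  have h3 : octT.all (fun p => bimp (Nat.beq (Nat.land O0 p) 0) (bne' (Nat.land p Q2) 0)) = true := by
    decide +kernel
  have h4 := forall_octads h3 (smul_mem_octads (inv_mem hk) p.2)
  have e : mask (unmask Q2) = Q2 := by decide +kernel
  rw [bimp_eq_true, beq_iff, bne'_eq_true, ← mask_O0, ← e, ← disjoint_iff_mask, ne_eq,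
    ← disjoint_iff_mask] at h4
  have h5 := disj_smul (k := k⁻¹) h1
  have h6 := disj_smul (k := k⁻¹) h2
  rw [← e1, inv_smul_smul] at h5
  rw [← e2, inv_smul_smul] at h6
  exact h4 h5 h6

theorem walk4 (a b : octads) (h : (a.1 ∩ b.1).card = 4) :
    ∃ w : (blockGraph octads).Walk a b, w.length = 2 := by
  obtain ⟨p, h1, h2⟩ := case4 a b h
  exact ⟨.cons ((adj_iff _ _).2 h1) (.cons ((adj_iff _ _).2 h2) .nil), rfl⟩

theorem walk2 (a b : octads) (h : (a.1 ∩ b.1).card = 2) :
    ∃ w : (blockGraph octads).Walk a b, w.length = 3 := by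
  obtain ⟨p, q, h1, h2, h3⟩ := case2 a b h
  exact ⟨.cons ((adj_iff _ _).2 h1) (.cons ((adj_iff _ _).2 h2) (.cons ((adj_iff _ _).2 h3) .nil)), rfl⟩

theorem adj_iff' (a b : octads) : (blockGraph octads).Adj a b ↔ (a.1 ∩ b.1).card = 0 := by
  rw [adj_iff, Finset.disjoint_iff_inter_eq_empty, Finset.card_eq_zero]

theorem conn : (blockGraph octads).Connected := by
  have : Nonempty octads := ⟨⟨_, O0_mem⟩⟩
  refine ⟨fun a b => ?_⟩
  rcases octad_inter a.2 b.2 with h | h | h | h
  · rw [Subtype.ext h]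
  · exact ((adj_iff' a b).2 h).reachable
  · exact (walk2 a b h).choose.reachable
  · exact (walk4 a b h).choose.reachable

theorem dist4 (a b : octads) (hne : a ≠ b) (h : (a.1 ∩ b.1).card = 4) :
    (blockGraph octads).dist a b = 2 := by
  obtain ⟨w, hw⟩ := walk4 a b h
  have h1 := SimpleGraph.dist_le w
  have h2 : (blockGraph octads).dist a b ≠ 0 := fun e => hne (w.reachable.dist_eq_zero_iff.1 e)
  have h3 : (blockGraph octads).dist a b ≠ 1 := by
    rw [ne_eq, SimpleGraph.dist_eq_one_iff_adj, adj_iff']; omega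
  omega

theorem dist2 (a b : octads) (hne : a ≠ b) (h : (a.1 ∩ b.1).card = 2) :
    (blockGraph octads).dist a b = 3 := by
  obtain ⟨w, hw⟩ := walk2 a b h
  have h1 := SimpleGraph.dist_le w
  have h2 : (blockGraph octads).dist a b ≠ 0 := fun e => hne (w.reachable.dist_eq_zero_iff.1 e)
  have h3 : (blockGraph octads).dist a b ≠ 1 := by
    rw [ne_eq, SimpleGraph.dist_eq_one_iff_adj, adj_iff']; omega
  have h4 : (blockGraph octads).dist a b ≠ 2 := by
    intro e
    obtain ⟨v, hv⟩ := w.reachable.exists_walk_length_eq_dist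
    rw [e] at hv
    cases v with
    | nil => simp at hv
    | cons h5 v =>
      cases v with
      | nil => simp at hv
      | cons h6 v =>
        cases v with
        | nil => exact case2' _ _ h _ ((adj_iff _ _).1 h5) ((adj_iff _ _).1 h6)
        | cons h7 v => simp at hv
  omega


/-- In the graph on the 759 octads of the length-24 code in which two octads are adjacent when they are disjoint, the graph is connected (of diameter 3) and two distinct octads are at distance 1, 2 or 3 exactly when they meet in 0, 4 or 2 points respectively. -/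
theorem result (o o' : Finset Cfsg.GolayPt) (ho : o ∈ Cfsg.octads) (ho' : o' ∈ Cfsg.octads) (hne : o ≠ o') : (Cfsg.blockGraph Cfsg.octads).Connected ∧ ((Cfsg.blockGraph Cfsg.octads).dist ⟨o, ho⟩ ⟨o', ho'⟩ = 1 ↔ (o ∩ o').card = 0) ∧ ((Cfsg.blockGraph Cfsg.octads).dist ⟨o, ho⟩ ⟨o', ho'⟩ = 2 ↔ (o ∩ o').card = 4) ∧ ((Cfsg.blockGraph Cfsg.octads).dist ⟨o, ho⟩ ⟨o', ho'⟩ = 3 ↔ (o ∩ o').card = 2) := by
  have hne' : (⟨o, ho⟩ : octads) ≠ ⟨o', ho'⟩ := fun e => hne (congrArg Subtype.val e)
  refine ⟨conn, ?_⟩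
  rcases octad_inter ho ho' with h | h | h | h
  · exact absurd h hne
  · rw [SimpleGraph.dist_eq_one_iff_adj.2 ((adj_iff' ⟨o, ho⟩ ⟨o', ho'⟩).2 h), h]; decide
  · rw [dist2 _ _ hne' h, h]; decide
  · rw [dist4 _ _ hne' h, h]; decide

end Cfsg.Agent.S5609
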