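import Cfsg.Statements.S5614
import Cfsg.Agent.M24.OctPair
import Cfsg.Agent.M24.Enum

set_option autoImplicit false
open scoped Pointwise
open Cfsg

namespace Cfsg.Agent.S5614

open CA.M24
set_option maxRecDepth 100000
set_option maxHeartbeats 400000



/-- In the group of the length-24 code, the joint stabiliser of two octads meeting in exactly two points is isomorphic to the symmetric group of degree 6. -/
theorem result (o o' : Finset Cfsg.GolayPt) (ho : o ∈ Cfsg.octads) (ho' : o' ∈ Cfsg.octads) (h₂ : (o ∩ o').card = 2) : Nonempty (↥(MulAction.stabilizer Cfsg.M24 o ⊓ MulAction.stabilizer Cfsg.M24 o') ≃* Equiv.Perm (Fin 6)) := by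
  have hc := card_pair Q2_spec (l := 720) (by norm_num) (by norm_num) ho ho' h₂
  refine equiv_perm_of_faithful (M24.subtype.comp (Subgroup.subtype _)) (o \ o') ?_ hc ?_ ?_
  · have := Finset.card_sdiff_add_card_inter o o'
    rw [h₂, ho.2] at this
    omega
  · rintro ⟨⟨g, hg⟩, h1, h2⟩
    change g • (o \ o') = _
    rw [Finset.smul_finset_sdiff, show g • o = o from h1, show g • o' = o' from h2]
  · rintro ⟨⟨g, hg⟩, h1, h2⟩ h3
    obtain ⟨k, hk, rfl, rfl⟩ := pair_normal Q2_spec.2.2 ho ho' h₂
    have h4 : k⁻¹ * g * k = 1 := by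
      refine eq_one_of_fix5_set (a := 1) (b := 2) (c := 3) (d := 14) (e := 17) (m := Q2)
        (by decide +kernel) (by decide) (by decide) (by decide +kernel) (conj_mem_M24' hk hg) ?_
        (conj_mem_St' hk ⟨hg, h2⟩).2
      have e : ∀ x ∈ [1, 2, 3, 14, 17], pt x ∈ unmask O0 \ unmask Q2 := by decide +kernel
      intro x hx
      have : g (k (pt x)) = k (pt x) := h3 (k (pt x)) (by
        rw [← Finset.smul_finset_sdiff]; exact Finset.smul_mem_smul_finset (e x hx))
      simp [this]
    have := eq_one_of_conj h4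
    exact Subtype.ext (Subtype.ext this)

end Cfsg.Agent.S5614
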