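import Cfsg.Statements.S5615
import Cfsg.Agent.M24.Words
import Cfsg.Agent.M24.Enum

set_option autoImplicit false
open scoped Pointwise
open Cfsg

namespace Cfsg.Agent.S5615

open CA.M24
open scoped Pointwise
set_option maxRecDepth 100000
set_option maxHeartbeats 400000

def L15 : List ℕ := [nat_lit 2402701715425661395200, nat_lit 2402701721035962091200, nat_lit 2402701725787000943760, nat_lit 2402701729228343284560, nat_lit 2402701734698252245440, nat_lit 2402701737841094376960, nat_lit 2402701741902791019600, nat_lit 2402701747266131110800, nat_lit 2402701751256155490960, nat_lit 2402701756604463197520, nat_lit 2402701760514225381120, nat_lit 2402701763702164666560, nat_lit 2402701769227371328080, nat_lit 2402701772649386317200, nat_lit 2402701777519073634240]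
def T1 : ℕ := nat_lit 2402701715425661395200
def T2 : ℕ := nat_lit 2402701721035962091200
def A1 : List ℕ := [nat_lit 8182140478085668285372802285080098, nat_lit 967681863836107100297935982038649925, nat_lit 103454566804198987637206051528836215, nat_lit 594016462636358227390018902406236899, nat_lit 61764579643088713752235533832215633, nat_lit 607685956083064468616087581689481233, nat_lit 65081440221550244663511745165280418, nat_lit 14589762817605480720157031510292547, nat_lit 976891259683149991197465405833676323, nat_lit 232728422377460732128847128299101251, nat_lit 983266237758232403385800721800791104, nat_lit 17536169284213431234305064806418467, nat_lit 108173038983640567090989581925988389, nat_lit 980225072971824749759589187890742277, nat_lit 21117022673495381892282832026043493]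
def A2 : List ℕ := [nat_lit 232728422377460732128847128299101251, nat_lit 731715985807659220721161426604983767, nat_lit 67754939195631182693510380579371075, nat_lit 723323180585705165595769456524986082, nat_lit 108201752425562332317993590109998117, nat_lit 93631711443572293432242743466375904, nat_lit 234073837430283860959508549806962711, nat_lit 104216594304763219171715081844199137, nat_lit 983020113793557092506854762464974370, nat_lit 99205880627419784338061637062778307, nat_lit 12432375238893832592293383616119970, nat_lit 735059268545771916906669422419874818, nat_lit 67994526062172485212809857598592078, nat_lit 139529691936761447990434163673053189]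
def TL : List ℕ := [nat_lit 984818244535754528103549039458486304, nat_lit 972512676110088067912772961567868960, nat_lit 961365507626256404119956257276790816, nat_lit 976448692869377735270425038196672544, nat_lit 975346028712660580592452217730074656, nat_lit 968708902336673183175954409307867168, nat_lit 967812279691448225500382947153381408, nat_lit 981818691054096003685363657089320992, nat_lit 980224387687010295957922729495201824, nat_lit 965128854020860192151391391390468128, nat_lit 963721886883755259286232606933354528, nat_lit 966182099583441531322624363496310816, nat_lit 971592882964418941354553515258775584, nat_lit 970499966350631336865513127433832480, nat_lit 979121071158219704299181131031480352, nat_lit 983548720921252936276249910206105632]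
def E : List ℕ := [nat_lit 4202192, nat_lit 4536592, nat_lit 3421328, nat_lit 3216208, nat_lit 5350928, nat_lit 5538256, nat_lit 2460752, nat_lit 2141072, nat_lit 1903248, nat_lit 1584464, nat_lit 6889680, nat_lit 7079696, nat_lit 832080, nat_lit 628112, nat_lit 7903248]

theorem mem_O0_iff {T : Finset (Finset Pt)} (hT : T ∈ trios) :
    unmask O0 ∈ T ↔ memL O0 (unp 3 ((famC 3).enc T)) = true := by
  rw [mem_iff_unp hT.1, mask_O0, memL_eq_true]

theorem mem_L15 {T : Finset (Finset Pt)} (hT : T ∈ trios) (ho : unmask O0 ∈ T) : (famC 3).enc T ∈ L15 :=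
  memL_eq_true.1 (bimp_eq_true.1 (forall_trios (q := fun n => bimp (memL O0 (unp 3 n)) (memL n L15))
    (by decide +kernel) hT) ((mem_O0_iff hT).1 ho))

theorem A1_in : ∀ c ∈ A1, InH (St (setC.dec O0)) c :=
  inH_inf_stab_all setC (inM_of_allL (by decide +kernel)) (by decide +kernel) (by decide +kernel)

theorem A2_in : ∀ c ∈ A2, InH (St (setC.dec O0)) c :=
  inH_inf_stab_all setC (inM_of_allL (by decide +kernel)) (by decide +kernel) (by decide +kernel)

theorem chk1 : ∀ n ∈ L15, ∃ c ∈ A1, (famC 3).act c n = T1 := by decide +kernel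

theorem chk2 : ∀ n ∈ L15, n = T1 ∨ ∃ c ∈ A2, (famC 3).act c T1 = T1 ∧ (famC 3).act c n = T2 := by
  decide +kernel

theorem norm2 {S T : Finset (Finset Pt)} (hS : S ∈ trios) (hT : T ∈ trios) (h1 : unmask O0 ∈ S)
    (h2 : unmask O0 ∈ T) (hne : S ≠ T) :
    ∃ g ∈ St (unmask O0), (famC 3).enc (g • S) = T1 ∧ (famC 3).enc (g • T) = T2 := by
  obtain ⟨_, hc, e⟩ := chk1 _ (mem_L15 hS h1)
  obtain ⟨g, hg, rfl⟩ := A1_in _ hc
  rw [(famC 3).act_enc g S hS.1] at e
  have hT' := smul_mem_trios hg.1 hT
  have h3 : unmask O0 ∈ g • T := by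
    have := Finset.smul_mem_smul_finset (a := g) h2
    rwa [show g • unmask O0 = unmask O0 from hg.2] at this
  rcases chk2 _ (mem_L15 hT' h3) with e1 | ⟨_, hc, e1, e2⟩
  · exact absurd (MulAction.injective g ((famC 3).inj (smul_mem_trios hg.1 hS).1 hT'.1 (e.trans e1.symm))) hne
  · obtain ⟨k, hk, rfl⟩ := A2_in _ hc
    refine ⟨k * g, mul_mem hk hg, ?_, ?_⟩
    · rw [mul_smul, ← (famC 3).act_enc k _ (smul_mem_trios hg.1 hS).1, e, e1]
    · rw [mul_smul, ← (famC 3).act_enc k _ hT'.1, e2]

theorem chk3 : ∀ c ∈ RL, (∀ p ∈ unmask O0, dig c (idx p) = idx p) → ∀ n ∈ L15, (famC 3).act c n = n := by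
  decide +kernel

theorem ker1 {g : Equiv.Perm Pt} (hg : g ∈ M24) (h : ∀ p ∈ unmask O0, g p = p) {T : Finset (Finset Pt)}
    (hT : T ∈ trios) (ho : unmask O0 ∈ T) : g • T = T :=
  ((famC 3).smul_eq_iff hT.1 hT.1).2 (chk3 _ (code_mem_RL hg (h _ (by decide +kernel)) (h _ (by decide +kernel))
    (h _ (by decide +kernel)) (h _ (by decide +kernel)) (h _ (by decide +kernel)))
    (fun p hp => by rw [dig_code_idx, h p hp]) _ (mem_L15 hT ho))

theorem chk4 : ∀ x : Pt, x ∉ unmask O0 → ∃ c ∈ TL, chk c = true ∧ dig c (idx x) = 4 ∧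
    ∀ p ∈ unmask O0, dig c (idx p) = idx p := by decide +kernel

theorem chk5 : ∀ a ∈ E, tb a 4 = true ∧ a < 2 ^ 24 ∧ ∃ n ∈ L15, (famC 3).canon n = true ∧ isT n = true ∧
    a ∈ unp 3 n ∧ O0 ∈ unp 3 n ∧ ∀ m ∈ unp 3 n, tb m 4 = true → m = a := by decide +kernel

theorem ker2 {g : Equiv.Perm Pt} (hg : g ∈ M24) (h0 : g • unmask O0 = unmask O0)
    (h : ∀ T ∈ trios, unmask O0 ∈ T → g • T = T) : ∀ p ∈ unmask O0, g p = p := by
  obtain ⟨c, -, h1, h2, h3⟩ := chk4 (g (pt 4)) (by
    rw [← h0]
    exact fun e => absurd ((Finset.smul_mem_smul_finset_iff g).1 e) (by decide +kernel))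
  obtain ⟨t, ht, rfl⟩ := inM_of_chk h1
  have h4 : ∀ p ∈ unmask O0, t p = p := fun p hp => idx_inj (by rw [← dig_code_idx, h3 p hp])
  have h5 : (t * g) (pt 4) = pt 4 := by
    rw [Equiv.Perm.mul_apply, eq_pt_iff (by norm_num), ← dig_code_idx, h2]
  have h6 : t * g = 1 := by
    refine eq_one_of_refChk (mul_mem ht hg) (O0 :: E) (fun a ha => ?_) [([], nat_lit 8241104), ([nat_lit 15274244, nat_lit 15515712, nat_lit 15762208, nat_lit 15864000, nat_lit 16056344, nat_lit 16262146], nat_lit 16777215)] 16
      (fun x hx => ?_) (by decide +kernel)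
    · rcases List.mem_cons.1 ha with rfl | ha
      · rw [mul_smul, h0]
        exact (smul_congr_on (h := 1) h4).trans (one_smul _ _)
      obtain ⟨k1, k2, n, -, k3, k4, k5, k6, k7⟩ := chk5 a ha
      obtain ⟨d1, d2⟩ := (famC 3).canon_spec n k3
      have hT : (famC 3).dec n ∈ trios := mem_trios_of_isT d1 (by rwa [d2])
      have ho : unmask O0 ∈ (famC 3).dec n := by rwa [mem_iff_unp d1, d2, mask_O0]
      have ha' : unmask a ∈ (famC 3).dec n := by rwa [mem_iff_unp d1, d2, mask_unmask k2]
      have h7 := Finset.smul_mem_smul_finset (a := t * g) ha'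
      rw [mul_smul t g ((famC 3).dec n), h _ hT ho, ker1 ht h4 hT ho, mem_iff_unp d1, d2] at h7
      refine (mask_eq_iff k2).1 (k7 _ h7 ?_)
      rw [tb_eq_true, testBit_mask, ← h5]
      exact ⟨by norm_num, Finset.smul_mem_smul_finset (mem_unmask.2 (tb_eq_true.1 k1))⟩
    · rw [show x = pt 4 from (show ∀ x ∈ unmask 16, x = pt 4 by decide +kernel) x hx, h5]
  intro p hp
  rw [eq_inv_of_mul_eq_one_right h6, Equiv.Perm.inv_eq_iff_eq, h4 p hp]


/-- An octad of the length-24 code lies in exactly 15 trios; the stabiliser of the octad in the code's group acts doubly transitively on these 15 trios, and the kernel of this action is the pointwise stabiliser of the octad. -/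
theorem result (o : Finset Cfsg.GolayPt) (ho : o ∈ Cfsg.octads) : {T : Finset (Finset Cfsg.GolayPt) | T ∈ Cfsg.trios ∧ o ∈ T}.ncard = 15 ∧ (∀ T₁ T₂ T₁' T₂' : Finset (Finset Cfsg.GolayPt), T₁ ∈ Cfsg.trios → T₂ ∈ Cfsg.trios → T₁' ∈ Cfsg.trios → T₂' ∈ Cfsg.trios → o ∈ T₁ → o ∈ T₂ → o ∈ T₁' → o ∈ T₂' → T₁ ≠ T₂ → T₁' ≠ T₂' → ∃ g ∈ Cfsg.M24, g • o = o ∧ g • T₁ = T₁' ∧ g • T₂ = T₂') ∧ ∀ g ∈ Cfsg.M24, g • o = o → ((∀ T ∈ Cfsg.trios, o ∈ T → g • T = T) ↔ ∀ p ∈ o, g p = p) := by
  obtain ⟨k, hk, rfl⟩ := octad_transitive O0_mem ho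
  have tr : ∀ T : Finset (Finset Pt), k • unmask O0 ∈ T ↔ unmask O0 ∈ k⁻¹ • T := fun T =>
    Finset.mem_inv_smul_finset_iff.symm
  refine ⟨?_, fun T₁ T₂ T₁' T₂' a1 a2 a3 a4 b1 b2 b3 b4 c1 c2 => ?_, fun g hg h0 => ⟨fun h p hp => ?_, ?_⟩⟩
  · rw [← Set.ncard_smul_set k⁻¹, ncard_trios_filter fun n => memL O0 (unp 3 n)]
    · decide +kernel
    · intro T
      rw [Set.mem_smul_set_iff_inv_smul_mem, inv_inv, Set.mem_setOf_eq, smul_mem_trios_iff hk,
        Finset.smul_mem_smul_finset_iff]
      exact and_congr_right fun h => mem_O0_iff h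
  · have hk' := inv_mem hk
    obtain ⟨g, hg, e1, e2⟩ := norm2 (smul_mem_trios hk' a1) (smul_mem_trios hk' a2) ((tr _).1 b1) ((tr _).1 b2)
      ((MulAction.injective _).ne c1)
    obtain ⟨g', hg', e3, e4⟩ := norm2 (smul_mem_trios hk' a3) (smul_mem_trios hk' a4) ((tr _).1 b3)
      ((tr _).1 b4) ((MulAction.injective _).ne c2)
    have f1 := (famC 3).inj (smul_mem_trios hg.1 (smul_mem_trios hk' a1)).1
      (smul_mem_trios hg'.1 (smul_mem_trios hk' a3)).1 (e1.trans e3.symm)
    have f2 := (famC 3).inj (smul_mem_trios hg.1 (smul_mem_trios hk' a2)).1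
      (smul_mem_trios hg'.1 (smul_mem_trios hk' a4)).1 (e2.trans e4.symm)
    have := conj_mem_St hk (mul_mem (inv_mem hg') hg)
    refine ⟨_, this.1, this.2, ?_, ?_⟩
    · rw [mul_smul, mul_smul, mul_smul, f1, inv_smul_smul, smul_inv_smul]
    · rw [mul_smul, mul_smul, mul_smul, f2, inv_smul_smul, smul_inv_smul]
  · have h1 := conj_mem_St' hk (show g ∈ St (k • unmask O0) from ⟨hg, h0⟩)
    have := ker2 h1.1 h1.2 (fun T hT ho => by
      rw [mul_smul, mul_smul, h _ (smul_mem_trios hk hT) (Finset.smul_mem_smul_finset ho), inv_smul_smul])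
      (k⁻¹ p) (Finset.inv_smul_mem_iff.2 hp)
    simpa using this
  · intro h T hT ho
    have := ker1 (conj_mem_M24' hk hg) (fun p hp => by
      rw [Equiv.Perm.mul_apply, Equiv.Perm.mul_apply, h (k p) (Finset.smul_mem_smul_finset hp)]
      simp) (smul_mem_trios (inv_mem hk) hT) ((tr _).1 ho)
    rw [mul_smul, mul_smul, smul_inv_smul] at this
    exact MulAction.injective _ this

end Cfsg.Agent.S5615
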