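import Cfsg.Statements.S5618
import Cfsg.Agent.M24.M12

set_option autoImplicit false
open scoped Pointwise
open Cfsg

namespace Cfsg.Agent.S5618

open CA.M24
open scoped Pointwise
set_option maxRecDepth 100000
set_option maxHeartbeats 400000



/-- For a dodecad d of the length-24 code and a hexad C on it (a 6-point intersection of d with an octad): the joint stabiliser of d and C in the code's group is isomorphic to the symmetric group of degree 6, and it acts faithfully both on the six points of C and on the six points of d outside C. -/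
theorem result (d : Finset Cfsg.GolayPt) (hd : d ∈ Cfsg.dodecads) (C : Finset Cfsg.GolayPt) (hC : C ∈ Cfsg.hexadsOn d) : Nonempty (↥(MulAction.stabilizer Cfsg.M24 d ⊓ MulAction.stabilizer Cfsg.M24 C) ≃* Equiv.Perm (Fin 6)) ∧ (∀ g ∈ MulAction.stabilizer Cfsg.M24 d ⊓ MulAction.stabilizer Cfsg.M24 C, (∀ p ∈ C, ((g : ↥Cfsg.M24) : Equiv.Perm Cfsg.GolayPt) p = p) → g = 1) ∧ ∀ g ∈ MulAction.stabilizer Cfsg.M24 d ⊓ MulAction.stabilizer Cfsg.M24 C, (∀ p ∈ d \ C, ((g : ↥Cfsg.M24) : Equiv.Perm Cfsg.GolayPt) p = p) → g = 1 := by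
  obtain ⟨h6, o, ho, rfl⟩ := hC
  have f1 : ∀ g ∈ MulAction.stabilizer M24 d ⊓ MulAction.stabilizer M24 (o ∩ d),
      (∀ p ∈ o ∩ d, ((g : M24) : Equiv.Perm Pt) p = p) → g = 1 := fun g hg h =>
    Subtype.ext (eq_one_dodecad hd ⟨g.2, hg.1⟩ Finset.inter_subset_right (by omega) h)
  refine ⟨equiv_perm_of_full (M24.subtype.comp (Subgroup.subtype _)) (o ∩ d) h6 (fun g => g.2.2)
    (fun g h => Subtype.ext (f1 g g.2 h)) fun σ hσ => ?_, f1, fun g hg h =>
    Subtype.ext (eq_one_dodecad hd ⟨g.2, hg.1⟩ Finset.sdiff_subset ?_ h)⟩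
  · obtain ⟨a, ha⟩ := Finset.card_pos.1 (show 0 < (o ∩ d).card by omega)
    have h5 : ((o ∩ d).erase a).card = 5 := by rw [Finset.card_erase_of_mem ha, h6]
    let τ : Equiv.Perm Pt := Equiv.Perm.ofSubtype (σ.subtypePerm hσ)
    have hτ : ∀ p ∈ o ∩ d, τ p = σ p := fun p hp => Equiv.Perm.ofSubtype_apply_of_mem _ hp
    obtain ⟨g, hg, e⟩ := exists_agree_dodecad hd τ (fun x hx => by
      by_cases h : x ∈ o ∩ d
      · rw [hτ x h]; exact (Finset.mem_inter.1 ((hσ x).2 h)).2
      · rwa [show τ x = x from Equiv.Perm.ofSubtype_apply_of_not_mem _ h])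
      ((Finset.erase_subset a _).trans Finset.inter_subset_right) h5.le
    have e' : ∀ p ∈ (o ∩ d).erase a, g p = σ p := fun p hp => (e p hp).trans (hτ p (Finset.mem_of_mem_erase hp))
    have h1 : g • o = o := octad_eq_of_five (smul_mem_octads hg.1 ho) ho (s := g • (o ∩ d).erase a)
      (Finset.smul_finset_subset_smul_finset ((Finset.erase_subset a _).trans Finset.inter_subset_left))
      (fun x hx => by
        obtain ⟨y, hy, rfl⟩ := Finset.mem_smul_finset.1 hx
        rw [Equiv.Perm.smul_def, e' y hy]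
        exact (Finset.mem_inter.1 ((hσ y).2 (Finset.mem_of_mem_erase hy))).1)
      (by rw [Finset.card_smul_finset, h5])
    have h2 : g • (o ∩ d) = o ∩ d := by rw [Finset.smul_finset_inter, h1, show g • d = d from hg.2]
    exact ⟨⟨⟨g, hg.1⟩, hg.2, h2⟩, agree_of_erase (fun p => mem_of_St ⟨hg.1, h2⟩) hσ e'⟩
  · rw [Finset.card_sdiff_of_subset Finset.inter_subset_right, h6, (mem_dodecads.1 hd).2]
    norm_num

end Cfsg.Agent.S5618
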