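import Cfsg.Statements.S5619
import Cfsg.Agent.M24.M12

set_option autoImplicit false
open scoped Pointwise
open Cfsg

namespace Cfsg.Agent.S5619

open CA.M24
open scoped Pointwise
set_option maxRecDepth 100000
set_option maxHeartbeats 400000

def L72 : List ℕ := [nat_lit 227468939079694360949178429167896608, nat_lit 227578386318009578406903204956702752, nat_lit 227866200190482962309748417481934880, nat_lit 232652365823391711183829569059784736, nat_lit 232783362388564428185213343297439776, nat_lit 233054687951835244750033064009402400, nat_lit 303972014349329906305369256209090592, nat_lit 304382488815307602047787978285647904, nat_lit 304527279934878073638008567181674528, nat_lit 313063593285160742836699179059316768, nat_lit 313451266620471430272303061907212320, nat_lit 313626468097149398198142802389895200, nat_lit 424698032726113400716592269113985056, nat_lit 425085878865583144827023905643726880, nat_lit 425260589770023667920228681599158304, nat_lit 437673696385666828435562741295908896, nat_lit 438084364835391119001047119775926304, nat_lit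 438228640608320839931147656307705888, nat_lit 486073779993727295785104656607348768, nat_lit 486317894067777385906476470720956448, nat_lit 486349973926430203268823274221996064, nat_lit 487373122709212905255923294881187872, nat_lit 487607080158395075740321133224921120, nat_lit 487655643029606470073469406179395616, nat_lit 607974513007959930786473204517505056, nat_lit 608405391266436187982588441666881568, nat_lit 608460305594945736333983948957190176, nat_lit 609271311764373893382231684089481248, nat_lit 609718671646466476278175549440296992, nat_lit 609744425604512129277147896769742880, nat_lit 629863500390412654982178157189269536, nat_lit 629994123837064240816195434993748000, nat_lit 630264916018297267747726081680246816, nat_lit 648045425277649902928402440926824480, nat_lit 648154481660236051385864952584734752, nat_lit 648441755269428208718993426702993440, nat_lit 715461294005770680473893921775552544, nat_lit 715872302521680643580706198532491296, nat_lit 716016777081418520089506884598499360, nat_lit 719360590536681843314903822610073632,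 nat_lit 719748774308089385568610015441717280, nat_lit 719923664328491199848526586197411872, nat_lit 796025918939784314627536738561984544, nat_lit 796134455581813252778404696041064480, nat_lit 796422664143520048046740322637776928, nat_lit 808997782816701570676445371466909728, nat_lit 809127892823755776035426641505355808, nat_lit 809399594410595785774724965859756064, nat_lit 849414919297944031155053626894092320, nat_lit 849862808090484735685470734032308256, nat_lit 849887890532701421127722391426172960, nat_lit 858502712789113075489201924125100064, nat_lit 858934107515357207598970770041374752, nat_lit 858988336336270505570052787752405024, nat_lit 890954976140709938678640932563453984, nat_lit 891385682027558266148352467872712736, nat_lit 891440084380668137666183104591693856, nat_lit 898742143189044893377746329054414880, nat_lit 899189355044933402820830013086107680, nat_lit 899214583888558003150069357295700000, nat_lit 928718206277989008510816407558424608, nat_lit 928952864966028496604741530750814240, nat_lit 929000492124499343650182431580424224,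 nat_lit 944293816565412651426207388111472672, nat_lit 944538627742660781242037951888164896, nat_lit 944569772236290697579231267829188640, nat_lit 970254902120350598020240965873371168, nat_lit 970499966350631336865513127433832480, nat_lit 970531819526550031117983620406741024, nat_lit 984534996141977609297800625156032544, nat_lit 984769902586367543974814854303385632, nat_lit 984818244535754528103549039458486304]

def tab : QuaternionGroup 2 → ℕ
  | .a i => getL [nat_lit 984818244535754528103549039458486304, nat_lit 719923664328491199848526586197411872, nat_lit 970499966350631336865513127433832480, nat_lit 715872302521680643580706198532491296] 0 i.val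
  | .xa i => getL [nat_lit 608405391266436187982588441666881568, nat_lit 232652365823391711183829569059784736, nat_lit 609271311764373893382231684089481248, nat_lit 227578386318009578406903204956702752] 0 i.val

theorem L72_in : ∀ c ∈ L72, InH (St (setC.dec D0)) c :=
  inH_inf_stab_all setC (inM_of_allL (by decide +kernel)) (by decide +kernel) (by decide +kernel)

theorem chk1 : ∀ c ∈ L72, dig c 0 = 0 ∧ dig c 1 = 1 ∧ dig c 2 = 2 := by decide +kernel

theorem chk2 : ∀ a ∈ unmask D0, ∀ b ∈ unmask D0, a ≠ b → 2 < idx a → 2 < idx b →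
    ∃ c ∈ L72, dig c 3 = idx a ∧ dig c 4 = idx b := by decide +kernel

theorem mem_L72 {g : Equiv.Perm Pt} : code g ∈ L72 ↔
    g ∈ St (unmask D0) ∧ g (pt 0) = pt 0 ∧ g (pt 1) = pt 1 ∧ g (pt 2) = pt 2 := by
  constructor
  · intro h
    obtain ⟨h1, h2, h3⟩ := chk1 _ h
    refine ⟨inH_code.1 (L72_in _ h), ?_, ?_, ?_⟩
    · rw [apply_pt g (by norm_num), h1]
    · rw [apply_pt g (by norm_num), h2]
    · rw [apply_pt g (by norm_num), h3]
  · rintro ⟨hg, h0, h1, h2⟩
    have key : ∀ x, x ≠ pt 0 → x ≠ pt 1 → x ≠ pt 2 → 2 < idx (g x) := fun x a b c =>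
      (show ∀ y, y ≠ pt 0 → y ≠ pt 1 → y ≠ pt 2 → 2 < idx y by decide +kernel) _
        (h0 ▸ g.injective.ne a) (h1 ▸ g.injective.ne b) (h2 ▸ g.injective.ne c)
    obtain ⟨c, hc, e3, e4⟩ := chk2 _ ((mem_of_St hg).2 (show pt 3 ∈ unmask D0 by decide +kernel)) _
      ((mem_of_St hg).2 (show pt 4 ∈ unmask D0 by decide +kernel)) (g.injective.ne (by decide +kernel))
      (key _ (by decide) (by decide) (by decide)) (key _ (by decide) (by decide) (by decide))
    obtain ⟨k, hk, rfl⟩ := L72_in c hc
    obtain ⟨e0, e1, e2⟩ := chk1 _ hc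
    have := eq_one_D0 (mul_mem (inv_mem hk) hg) fun i => by
      rw [Equiv.Perm.mul_apply, Equiv.Perm.inv_eq_iff_eq, apply_pt k (by omega)]
      fin_cases i
      · exact h0.trans (congrArg pt e0.symm)
      · exact h1.trans (congrArg pt e1.symm)
      · exact h2.trans (congrArg pt e2.symm)
      · exact (pt_idx _).symm.trans (congrArg pt e3.symm)
      · exact (pt_idx _).symm.trans (congrArg pt e4.symm)
    rwa [← inv_mul_eq_one.1 this]

theorem chk3 : ∀ c ∈ L72, ppow c 3 = pone → ∀ d ∈ L72, ppow d 3 = pone → ppow (pmul c d) 3 = pone := by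
  decide +kernel

theorem cube_iff (g : Equiv.Perm Pt) : ppow (code g) 3 = pone ↔ g ^ 3 = 1 := by
  rw [ppow_code, ← code_one, code_inj.eq_iff]

theorem abstract {H : Type} [Group H] [Finite H] (ι : H →* Equiv.Perm Pt) (hι : Function.Injective ι)
    (hr : ∀ x, x ∈ ι.range ↔ code x ∈ L72) :
    (∀ Q : Sylow 3 H, (Q : Subgroup H).Normal ∧ Nat.card Q = 9 ∧ ∀ x ∈ (Q : Subgroup H), x ^ 3 = 1) ∧
      ∀ P : Sylow 2 H, Nonempty (P ≃* QuaternionGroup 2) := by
  have hnd : L72.Nodup := incL_nodup (lo := 0) (by decide +kernel)
  have hc : Nat.card H = 72 := by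
    rw [Nat.card_congr (MonoidHom.ofInjective hι).toEquiv]
    exact (card_eq_countP (· ∈ ι.range) L72 (fun _ => true) hnd (fun g h => ⟨(hr g).1 h, rfl⟩)
      fun k hk _ => by
        obtain ⟨g, -, rfl⟩ := L72_in k hk
        exact ⟨g, (hr g).2 hk, rfl⟩).trans (by decide +kernel)
  have h3 : ∀ x : H, x ^ 3 = 1 ↔ ppow (code (ι x)) 3 = pone := fun x => by
    rw [cube_iff, ← map_pow, map_eq_one_iff _ hι]
  constructor
  · let N : Subgroup H :=
      { carrier := {x | x ^ 3 = 1}
        one_mem' := one_pow 3
        mul_mem' := fun {a b} ha hb => (h3 _).2 (by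
          rw [map_mul, ← pmul_code]
          exact chk3 _ ((hr _).1 ⟨a, rfl⟩) ((h3 a).1 ha) _ ((hr _).1 ⟨b, rfl⟩) ((h3 b).1 hb))
        inv_mem' := fun {a} ha => by rw [Set.mem_setOf_eq, inv_pow, show a ^ 3 = 1 from ha, inv_one] }
    have hN : N.Normal := ⟨fun x hx g => by
      show (g * x * g⁻¹) ^ 3 = 1
      rw [conj_pow, show x ^ 3 = 1 from hx, mul_one, mul_inv_cancel]⟩
    have hN9 : Nat.card N = 9 := by
      rw [← Subgroup.card_map_of_injective hι]
      refine (card_eq_countP (· ∈ N.map ι) L72 (fun c => Nat.beq (ppow c 3) pone) hnd ?_ ?_).trans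
        (by decide +kernel)
      · rintro _ ⟨x, hx, rfl⟩
        exact ⟨(hr _).1 ⟨x, rfl⟩, beq_iff.2 ((h3 x).1 hx)⟩
      · intro k hk h
        obtain ⟨g, -, rfl⟩ := L72_in k hk
        obtain ⟨x, rfl⟩ := (hr g).2 hk
        exact ⟨_, ⟨x, (h3 x).2 (beq_iff.1 h), rfl⟩, rfl⟩
    intro Q
    have h1 : N ≤ Q := (IsPGroup.of_card (n := 2) hN9).le_sylow_of_normal Q
    have h2 : Nat.card Q = 9 := by
      rw [Q.card_eq_multiplicity, hc]
      decide +kernel
    rw [← Subgroup.eq_of_le_of_card_ge h1 (by rw [h2, hN9])]
    exact ⟨hN, hN9, fun x hx => hx⟩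
  · have t1 : ∀ x, tab x ∈ L72 := by decide +kernel
    have t2 : ∀ x y, tab (x * y) = pmul (tab x) (tab y) := by decide +kernel
    have t3 : Function.Injective tab := by decide +kernel
    have t4 : ∀ x, ∃ h, code (ι h) = tab x := fun x => by
      obtain ⟨g, -, e⟩ := L72_in _ (t1 x)
      obtain ⟨h, rfl⟩ := (hr g).2 (e ▸ t1 x)
      exact ⟨h, e⟩
    choose f hf using t4
    let F : QuaternionGroup 2 →* H := MonoidHom.mk' f fun x y => hι (code_inj (by
      rw [map_mul, ← pmul_code, hf, hf, hf, t2]))
    have hF : Function.Injective F := fun x y h => t3 (by rw [← hf, ← hf]; exact congrArg _ (congrArg ι h))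
    have h8 : Nat.card F.range = 2 ^ (Nat.card H).factorization 2 := by
      rw [← Nat.card_congr (MonoidHom.ofInjective hF).toEquiv, hc, Nat.card_eq_fintype_card,
        QuaternionGroup.card]
      decide +kernel
    intro P
    exact ⟨(P.equiv (Sylow.ofCard F.range h8)).trans (MonoidHom.ofInjective hF).symm⟩


/-- In the group of the length-24 code, the subgroup fixing a dodecad setwise and three of its points individually (a group of order 72) has a normal Sylow 3-subgroup that is elementary abelian of order 9, and its Sylow 2-subgroups are quaternion of order 8. -/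
theorem result (d : Finset Cfsg.GolayPt) (hd : d ∈ Cfsg.dodecads) (p q r : Cfsg.GolayPt) (hp : p ∈ d) (hq : q ∈ d) (hr : r ∈ d) (hpq : p ≠ q) (hpr : p ≠ r) (hqr : q ≠ r) : (∀ Q : Sylow 3 ↥(MulAction.stabilizer Cfsg.M24 d ⊓ MulAction.stabilizer Cfsg.M24 p ⊓ MulAction.stabilizer Cfsg.M24 q ⊓ MulAction.stabilizer Cfsg.M24 r), (Q : Subgroup ↥(MulAction.stabilizer Cfsg.M24 d ⊓ MulAction.stabilizer Cfsg.M24 p ⊓ MulAction.stabilizer Cfsg.M24 q ⊓ MulAction.stabilizer Cfsg.M24 r)).Normal ∧ Nat.card ↥Q = 9 ∧ ∀ x ∈ (Q : Subgroup ↥(MulAction.stabilizer Cfsg.M24 d ⊓ MulAction.stabilizer Cfsg.M24 p ⊓ MulAction.stabilizer Cfsg.M24 q ⊓ MulAction.stabilizer Cfsg.M24 r)), x ^ 3 = 1) ∧ ∀ P : Sylow 2 ↥(MulAction.stabilizer Cfsg.M24 d ⊓ MulAction.stabilizer Cfsg.M24 p ⊓ MulAction.stabilizer Cfsg.M24 q ⊓ MulAction.stabilizer Cfsg.M24 r), Nonempty (↥P ≃* QuaternionGroup 2) := by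
  obtain ⟨k, hk, e0, e1, e2, e3⟩ : ∃ k ∈ M24, k • unmask D0 = d ∧ k (pt 0) = p ∧ k (pt 1) = q ∧
      k (pt 2) = r := by
    obtain ⟨s, hs, hs'⟩ := Finset.exists_mem_notMem_of_card_lt_card (s := {p, q, r}) (t := d)
      (lt_of_le_of_lt Finset.card_le_three (by rw [(mem_dodecads.1 hd).2]; norm_num))
    obtain ⟨t, ht, ht'⟩ := Finset.exists_mem_notMem_of_card_lt_card (s := {p, q, r, s}) (t := d)
      (lt_of_le_of_lt Finset.card_le_four (by rw [(mem_dodecads.1 hd).2]; norm_num))
    simp only [Finset.mem_insert, Finset.mem_singleton, not_or] at hs' ht'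
    obtain ⟨k, hk, e, h⟩ := to_base_dodecad hd ⟨![p, q, r, s, t], by
      intro i j h
      fin_cases i <;> fin_cases j <;> simp_all [eq_comm]⟩ (by
      intro i
      fin_cases i <;> assumption)
    exact ⟨k, hk, e, h 0, h 1, h 2⟩
  subst e0 e1 e2 e3
  refine abstract ((MulAut.conj k⁻¹).toMonoidHom.comp (M24.subtype.comp (Subgroup.subtype _)))
    ((MulAut.conj k⁻¹).injective.comp (Subtype.val_injective.comp Subtype.val_injective)) fun x => ?_
  rw [mem_L72]
  constructor
  · rintro ⟨⟨⟨g, hg⟩, ⟨⟨h0, h1⟩, h2⟩, h3⟩, rfl⟩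
    change k⁻¹ * g * k⁻¹⁻¹ ∈ _ ∧ (k⁻¹ * g * k⁻¹⁻¹) _ = _ ∧ (k⁻¹ * g * k⁻¹⁻¹) _ = _ ∧ (k⁻¹ * g * k⁻¹⁻¹) _ = _
    simp only [inv_inv, Equiv.Perm.mul_apply, Equiv.Perm.inv_eq_iff_eq]
    exact ⟨conj_mem_St' hk ⟨hg, h0⟩, h1, h2, h3⟩
  · rintro ⟨hx, h1, h2, h3⟩
    have := conj_mem_St hk hx
    refine ⟨⟨⟨_, this.1⟩, ⟨⟨this.2, ?_⟩, ?_⟩, ?_⟩, ?_⟩
    · show (k * x * k⁻¹) _ = _
      simp [h1]
    · show (k * x * k⁻¹) _ = _
      simp [h2]
    · show (k * x * k⁻¹) _ = _
      simp [h3]
    · show k⁻¹ * (k * x * k⁻¹) * k⁻¹⁻¹ = x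
      group

end Cfsg.Agent.S5619
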