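import Cfsg.Statements.S5620
import Cfsg.Agent.M24.Misc
import Cfsg.Prelude.Def_Spor_Mathieu

set_option autoImplicit false
open scoped Pointwise
open Cfsg

namespace Cfsg.Agent.S5620

open CA.M24
open scoped Pointwise
set_option maxRecDepth 100000
set_option maxHeartbeats 400000

theorem sq_eq : Spor.squareDodecad = unmask D0 := by decide +kernel

theorem mem_M12 {x : Equiv.Perm Pt} : x ∈ Spor.M12 ↔ x ∈ M24 ∧ x • unmask D0 = unmask D0 := by
  rw [← sq_eq]; rfl

theorem mem_M11 {x : Equiv.Perm Pt} : x ∈ Spor.M11 ↔ x ∈ Spor.M12 ∧ x (some 0) = some 0 := Iff.rfl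

def cg : ℕ := nat_lit 670053822813108095401789426258029911
def ca : ℕ := nat_lit 977873576462505118479315019693988224
def cb : ℕ := nat_lit 970580691259948790598114166208332162

theorem third : ∃ g ∈ M24, g • Spor.squareDodecad = Finset.univ \ Spor.squareDodecad ∧
    MulAut.conj g • Spor.M11 = Spor.M12 ⊓ MulAction.stabilizer (Equiv.Perm Pt) (none : Pt) := by
  obtain ⟨g, hg, e⟩ : InH M24 cg := inM_of_chk (by decide +kernel)
  have h1 : g • unmask D0 = Finset.univ \ unmask D0 := by
    apply mask_inj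
    rw [← mapp_code, mask_sdiff_univ, e, mask_D0]
    decide +kernel
  have h2 : g (some 0) = none := by
    rw [apply_eq g, e]; decide +kernel
  refine ⟨g, hg, by rw [sq_eq, h1], ?_⟩
  ext x
  rw [Subgroup.mem_pointwise_smul_iff_inv_smul_mem, Subgroup.mem_inf, mem_M11, mem_M12, mem_M12,
    MulAction.mem_stabilizer_iff]
  change ((g⁻¹ * x * g⁻¹⁻¹) ∈ M24 ∧ (g⁻¹ * x * g⁻¹⁻¹) • _ = _) ∧ (g⁻¹ * x * g⁻¹⁻¹) _ = _ ↔ _ ∧ x none = none
  rw [inv_inv, mul_smul, mul_smul, inv_smul_eq_iff, h1, Equiv.Perm.mul_apply, Equiv.Perm.mul_apply,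
    Equiv.Perm.inv_eq_iff_eq, h2, Finset.smul_finset_sdiff, Finset.smul_finset_univ,
    ← Finset.compl_eq_univ_sdiff, ← Finset.compl_eq_univ_sdiff, compl_inj_iff]
  refine and_congr_left fun _ => and_congr_left fun _ => ⟨fun h => ?_, fun h => ?_⟩
  · simpa [mul_assoc] using mul_mem (mul_mem hg h) (inv_mem hg)
  · exact mul_mem (mul_mem (inv_mem hg) h) hg


/-- Inside the stabiliser of the dodecad of squares (a Mathieu group of degree 12), the stabiliser of the residue 0 (a point of the dodecad) and the stabiliser of the extra point (a point outside the dodecad) are isomorphic but not conjugate; conjugation by a suitable element of the code's group that maps the dodecad of squares onto its complement carries the first onto the second. -/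
theorem result : Nonempty (↥(Cfsg.Spor.M12 ⊓ MulAction.stabilizer (Equiv.Perm Cfsg.GolayPt) (none : Cfsg.GolayPt)) ≃* ↥Cfsg.Spor.M11) ∧ (¬ ∃ k ∈ Cfsg.Spor.M12, MulAut.conj k • Cfsg.Spor.M11 = Cfsg.Spor.M12 ⊓ MulAction.stabilizer (Equiv.Perm Cfsg.GolayPt) (none : Cfsg.GolayPt)) ∧ ∃ g ∈ Cfsg.M24, g • Cfsg.Spor.squareDodecad = Finset.univ \ Cfsg.Spor.squareDodecad ∧ MulAut.conj g • Cfsg.Spor.M11 = Cfsg.Spor.M12 ⊓ MulAction.stabilizer (Equiv.Perm Cfsg.GolayPt) (none : Cfsg.GolayPt) := by
  refine ⟨?_, ?_, third⟩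
  · obtain ⟨g, -, -, e⟩ := third
    exact ⟨((Subgroup.equivSMul (MulAut.conj g) Spor.M11).trans (MulEquiv.subgroupCongr e)).symm⟩
  · rintro ⟨k, hk, e⟩
    rw [mem_M12] at hk
    have h0 : k (some 0) ∈ unmask D0 := by
      rw [← hk.2]; exact Finset.smul_mem_smul_finset (by decide +kernel)
    have key : ∀ c, band (chk c) (band (Nat.beq (mapp c D0) D0) (Nat.beq (dig c 23) 23)) = true →
        (pfix c).testBit (idx (k (some 0))) = true := by
      intro c hc
      simp only [band_eq_true, beq_iff] at hc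
      obtain ⟨x, hx, rfl⟩ := inM_of_chk hc.1
      have h1 : x ∈ MulAut.conj k • Spor.M11 := by
        rw [e, Subgroup.mem_inf, mem_M12]
        refine ⟨⟨hx, mask_inj ?_⟩, ?_⟩
        · rw [← mapp_code, mask_D0, hc.2.1]
        · change x none = none
          rw [apply_eq x]
          exact congrArg pt hc.2.2
      rw [Subgroup.mem_pointwise_smul_iff_inv_smul_mem, mem_M11] at h1
      have h2 : (k⁻¹ * x * k⁻¹⁻¹) (some 0) = some 0 := h1.2
      rw [inv_inv, Equiv.Perm.mul_apply, Equiv.Perm.mul_apply, Equiv.Perm.inv_eq_iff_eq] at h2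
      rw [pfix_code, ← mem_iff_mask]
      exact mem_fixS.2 h2
    have h3 := key ca (by decide +kernel)
    have h4 := key cb (by decide +kernel)
    revert h0 h3 h4
    generalize k (some 0) = y
    revert y
    decide +kernel

end Cfsg.Agent.S5620
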