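import Cfsg.Statements.S5623
import Cfsg.Agent.M24.AbsGolay

set_option autoImplicit false
open Cfsg

namespace Cfsg.Agent.S5623

open CA.M24.Abs
open scoped symmDiff
set_option maxRecDepth 100000
set_option maxHeartbeats 400000



/-- Let C be a self-dual binary code of length 24 with minimum weight at least 8 (a 12-dimensional subspace of the 24-dimensional space over the field with two elements, any two of whose words have dot product zero, with no non-zero word of weight below 8 — an abstract extended binary Golay code). Then every coset w + C of C in the ambient space contains either exactly one word of weight at most 4, which then has weight at most 3, or exactly six words of weight at most 4, all of weight exactly 4 and with pairwise disjoint supports (a sextet). -/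
theorem result (C : Submodule (ZMod 2) (Fin 24 → ZMod 2)) (hdim : Module.finrank (ZMod 2) C = 12) (horth : ∀ v ∈ C, ∀ w ∈ C, ∑ i, v i * w i = 0) (hmin : ∀ w ∈ C, w ≠ 0 → 8 ≤ hammingNorm w) (w : Fin 24 → ZMod 2) : (∃ u : Fin 24 → ZMod 2, {u : Fin 24 → ZMod 2 | u - w ∈ C ∧ hammingNorm u ≤ 4} = {u} ∧ hammingNorm u ≤ 3) ∨ ({u : Fin 24 → ZMod 2 | u - w ∈ C ∧ hammingNorm u ≤ 4}.ncard = 6 ∧ ∀ u ∈ {u : Fin 24 → ZMod 2 | u - w ∈ C ∧ hammingNorm u ≤ 4}, hammingNorm u = 4 ∧ ∀ u' ∈ {u : Fin 24 → ZMod 2 | u - w ∈ C ∧ hammingNorm u ≤ 4}, u ≠ u' → Disjoint (Finset.univ.filter fun i => u i ≠ 0) (Finset.univ.filter fun i => u' i ≠ 0)) := by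
  obtain ⟨t, h4, ht⟩ := (cosets hdim hmin).1 (support₂ w)
  have key : ∀ u : Fin 24 → ZMod 2, u - w ∈ C ↔ wd (support₂ u ∆ t) ∈ C := fun u => by
    rw [← wd_sub, wd_supp] at ht ⊢
    rw [← C.sub_mem_iff_left ht, sub_sub_sub_cancel_right]
  have inj : Function.Injective (support₂ : (Fin 24 → ZMod 2) → _) := fun a b h => by
    rw [← wd_supp a, h, wd_supp]
  by_cases h : t.card = 4
  · have h1 : ∀ u : Fin 24 → ZMod 2, u - w ∈ C → hammingNorm u ≤ 4 → hammingNorm u = 4 := fun u h1 h2 => by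
      by_cases e : support₂ u = t
      · rw [norm_eq, e, h]
      · exact (disj4 hmin ((key u).1 h1) e h2 h4).1
    refine Or.inr ⟨?_, fun u hu => ⟨h1 u hu.1 hu.2, fun u' hu' hne => (disj4 hmin ?_ (inj.ne hne) hu.2 hu'.2).2.2⟩⟩
    · rw [← (cosets hdim hmin).2 t h, ← Set.ncard_image_of_injective _ inj]
      refine congrArg _ (Set.ext fun s => ⟨?_, fun hs => ⟨wd s, ⟨?_, ?_⟩, supp_wd s⟩⟩)
      · rintro ⟨u, hu, rfl⟩
        exact ⟨h1 u hu.1 hu.2, (key u).1 hu.1⟩
      · rw [key, supp_wd]; exact hs.2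
      · rw [norm_wd]; exact hs.1.le
    · rw [← wd_sub, wd_supp, wd_supp, ← sub_sub_sub_cancel_right u u' w]
      exact C.sub_mem hu.1 hu'.1
  · refine Or.inl ⟨wd t, Set.eq_singleton_iff_unique_mem.2 ⟨⟨?_, ?_⟩, fun u hu => ?_⟩, ?_⟩
    · rw [key, supp_wd, symmDiff_self]
      exact wd_empty ▸ C.zero_mem
    · rwa [norm_wd]
    · by_contra hne
      exact h (disj4 hmin ((key u).1 hu.1) (fun e => hne (by rw [← e, wd_supp])) hu.2 h4).2.1
    · rw [norm_wd]; omega

end Cfsg.Agent.S5623
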