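import Cfsg.Statements.S5624
import Cfsg.Agent.M24.AbsGolay

set_option autoImplicit false
open Cfsg

namespace Cfsg.Agent.S5624

open CA.M24.Abs
open scoped symmDiff
set_option maxRecDepth 100000
set_option maxHeartbeats 400000



/-- Let C be a self-dual binary code of length 24 with minimum weight at least 8 (a 12-dimensional subspace of the 24-dimensional space over the field with two elements, any two of whose words have dot product zero, with no non-zero word of weight below 8 — an abstract extended binary Golay code). Then C is spanned, as a vector space over the field with two elements, by its words of weight 8. -/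
theorem result (C : Submodule (ZMod 2) (Fin 24 → ZMod 2)) (hdim : Module.finrank (ZMod 2) C = 12) (horth : ∀ v ∈ C, ∀ w ∈ C, ∑ i, v i * w i = 0) (hmin : ∀ w ∈ C, w ≠ 0 → 8 ≤ hammingNorm w) : Submodule.span (ZMod 2) {w : Fin 24 → ZMod 2 | w ∈ C ∧ hammingNorm w = 8} = C := by
  refine le_antisymm (Submodule.span_le.2 fun w hw => hw.1) fun w hw => ?_
  rw [← wd_supp w] at hw ⊢
  refine oct_induction hdim hmin (fun s => wd s ∈ Submodule.span (ZMod 2) _) (wd_empty ▸ zero_mem _)
    (fun s o _ ho h8 h => ?_) _ hw
  rw [wd_symmDiff]
  exact add_mem h (Submodule.subset_span ⟨ho, by rw [norm_wd, h8]⟩)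

end Cfsg.Agent.S5624
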