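import Cfsg.Statements.S5625
import Cfsg.Agent.EqAll

set_option autoImplicit false
open Cfsg

namespace Cfsg.Agent.S5625


set_option maxRecDepth 100000
set_option maxHeartbeats 400000

theorem lam_succ {α : Type*} [Fintype α] [DecidableEq α] (B : Finset (Finset α)) {k : ℕ}
    (hB : ∀ b ∈ B, b.card = k) {i m : ℕ} (h : ∀ s : Finset α, s.card = i + 1 → (B.filter (s ⊆ ·)).card = m)
    (s : Finset α) (hs : s.card = i) :
    (B.filter (s ⊆ ·)).card * (k - i) = (Fintype.card α - i) * m := by
  have := Finset.sum_card_bipartiteAbove_eq_sum_card_bipartiteBelow (s := B.filter (s ⊆ ·)) (t := sᶜ)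
    (fun b x => x ∈ b)
  rw [Finset.sum_const_nat (m := k - i), Finset.sum_const_nat (m := m), Finset.card_compl, hs] at this
  · exact this
  · intro x hx
    rw [← h (insert x s) (by rw [Finset.card_insert_of_notMem (Finset.mem_compl.1 hx), hs])]
    congr 1
    ext b
    simp only [Finset.mem_bipartiteBelow, Finset.mem_filter, Finset.insert_subset_iff]
    tauto
  · intro b hb
    obtain ⟨h1, h2⟩ := Finset.mem_filter.1 hb
    rw [← hB b h1, ← hs, ← Finset.card_sdiff_of_subset h2]
    congr 1
    ext x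
    simp only [Finset.mem_bipartiteAbove, Finset.mem_compl, Finset.mem_sdiff]
    tauto

theorem sum_choose {α : Type*} [DecidableEq α] (B : Finset (Finset α)) (Y : Finset α) {j m : ℕ}
    (h : ∀ s : Finset α, s.card = j → (B.filter (s ⊆ ·)).card = m) :
    ∑ b ∈ B, (b ∩ Y).card.choose j = Y.card.choose j * m := by
  have := Finset.sum_card_bipartiteAbove_eq_sum_card_bipartiteBelow (s := B) (t := Y.powersetCard j)
    (fun b s => s ⊆ b)
  replace this := this.trans (Finset.sum_const_nat fun s hs => h s (Finset.mem_powersetCard.1 hs).2)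
  rw [← Finset.card_powersetCard j Y, ← this]
  refine Finset.sum_congr rfl fun b _ => ?_
  rw [← Finset.card_powersetCard]
  congr 1
  ext s
  simp only [Finset.mem_bipartiteAbove, Finset.mem_powersetCard, Finset.subset_inter_iff]
  tauto


/-- In any Steiner system S(5, 8, 24) and for any set Y of three points, the blocks meeting Y in exactly 3, 2, 1 and 0 points number 21, 168, 360 and 210 respectively (so there are 759 blocks in all). -/
theorem result (α : Type*) [Fintype α] [DecidableEq α] (hα : Fintype.card α = 24) (B : Set (Finset α)) (hB : Cfsg.IsSteinerSystem 5 8 B) (Y : Finset α) (hY : Y.card = 3) : {b : Finset α | b ∈ B ∧ (b ∩ Y).card = 3}.ncard = 21 ∧ {b : Finset α | b ∈ B ∧ (b ∩ Y).card = 2}.ncard = 168 ∧ {b : Finset α | b ∈ B ∧ (b ∩ Y).card = 1}.ncard = 360 ∧ {b : Finset α | b ∈ B ∧ (b ∩ Y).card = 0}.ncard = 210 := by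
  classical
  let B' : Finset (Finset α) := Finset.univ.filter (· ∈ B)
  have mB : ∀ b, b ∈ B' ↔ b ∈ B := fun b => by simp [B']
  have h8 : ∀ b ∈ B', b.card = 8 := fun b hb => hB.1 b ((mB b).1 hb)
  have l5 : ∀ s : Finset α, s.card = 5 → (B'.filter (s ⊆ ·)).card = 1 := fun s hs => by
    obtain ⟨b, h1, h2⟩ := hB.2 s hs
    refine Finset.card_eq_one.2 ⟨b, Finset.eq_singleton_iff_unique_mem.2
      ⟨Finset.mem_filter.2 ⟨(mB b).2 h1.1, h1.2⟩, fun c hc => h2 c ?_⟩⟩
    exact ⟨(mB c).1 (Finset.mem_filter.1 hc).1, (Finset.mem_filter.1 hc).2⟩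
  have l4 : ∀ s : Finset α, s.card = 4 → (B'.filter (s ⊆ ·)).card = 5 := fun s hs => by
    have := lam_succ B' h8 l5 s hs
    omega
  have l3 : ∀ s : Finset α, s.card = 3 → (B'.filter (s ⊆ ·)).card = 21 := fun s hs => by
    have := lam_succ B' h8 l4 s hs
    omega
  have l2 : ∀ s : Finset α, s.card = 2 → (B'.filter (s ⊆ ·)).card = 77 := fun s hs => by
    have := lam_succ B' h8 l3 s hs
    omega
  have l1 : ∀ s : Finset α, s.card = 1 → (B'.filter (s ⊆ ·)).card = 253 := fun s hs => by
    have := lam_succ B' h8 l2 s hs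
    omega
  have l0 : ∀ s : Finset α, s.card = 0 → (B'.filter (s ⊆ ·)).card = 759 := fun s hs => by
    have := lam_succ B' h8 l1 s hs
    omega
  have key : ∀ f : ℕ → ℕ, ∑ b ∈ B', f (b ∩ Y).card =
      ∑ i ∈ Finset.range 4, (B'.filter fun b => (b ∩ Y).card = i).card * f i := fun f => by
    rw [← Finset.sum_fiberwise_of_maps_to (g := fun b => (b ∩ Y).card) (t := Finset.range 4) fun b _ =>
      Finset.mem_range.2 (Nat.lt_succ_of_le (hY ▸ Finset.card_le_card Finset.inter_subset_right))]
    exact Finset.sum_congr rfl fun i _ => Finset.sum_const_nat fun b hb => by rw [(Finset.mem_filter.1 hb).2]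
  have e0 := (key (·.choose 0)).symm.trans (sum_choose B' Y l0)
  have e1 := (key (·.choose 1)).symm.trans (sum_choose B' Y l1)
  have e2 := (key (·.choose 2)).symm.trans (sum_choose B' Y l2)
  have e3 := (key (·.choose 3)).symm.trans (sum_choose B' Y l3)
  have tr : ∀ i, {b : Finset α | b ∈ B ∧ (b ∩ Y).card = i}.ncard = (B'.filter fun b => (b ∩ Y).card = i).card :=
    fun i => by
      rw [← Set.ncard_coe_finset]
      refine congrArg _ (Set.ext fun b => ?_)
      rw [Finset.mem_coe, Finset.mem_filter, mB]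
      rfl
  simp only [Finset.sum_range_succ, Finset.sum_range_zero, hY] at e0 e1 e2 e3
  rw [tr, tr, tr, tr]
  generalize (B'.filter fun b => (b ∩ Y).card = 0).card = n0 at *
  generalize (B'.filter fun b => (b ∩ Y).card = 1).card = n1 at *
  generalize (B'.filter fun b => (b ∩ Y).card = 2).card = n2 at *
  generalize (B'.filter fun b => (b ∩ Y).card = 3).card = n3 at *
  norm_num [Nat.choose] at e0 e1 e2 e3
  omega

end Cfsg.Agent.S5625
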