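import Cfsg.Statements.S5626
import Cfsg.Agent.M24.Plane

set_option autoImplicit false
open Cfsg

namespace Cfsg.Agent.S5626

open CA.M24.Plane
set_option maxRecDepth 100000
set_option maxHeartbeats 400000



/-- Uniqueness of the projective plane of order 4: any two Steiner systems S(2, 5, 21) (21 points, lines of 5 points, two points on exactly one line) are isomorphic. -/
theorem result {α β : Type*} [Fintype α] [DecidableEq α] [Fintype β] [DecidableEq β] (hα : Fintype.card α = 21) (hβ : Fintype.card β = 21) {L : Set (Finset α)} {L' : Set (Finset β)} (hL : Cfsg.IsSteinerSystem 2 5 L) (hL' : Cfsg.IsSteinerSystem 2 5 L') : Cfsg.SetSystemIso L L' := by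
  have h : PP L := ⟨hα, hL⟩
  have h' : PP L' := ⟨hβ, hL'⟩
  obtain ⟨p, h1, h2⟩ := h.exists_oval
  obtain ⟨q, h3, h4⟩ := h'.exists_oval
  exact (h.iso h1 h2 h' h3 h4).imp fun g hg => hg.2

end Cfsg.Agent.S5626
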