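import Cfsg.Statements.S5628
import Cfsg.Agent.M24.Plane

set_option autoImplicit false
open Cfsg

namespace Cfsg.Agent.S5628

open CA.M24.Plane
open scoped Pointwise
set_option maxRecDepth 100000
set_option maxHeartbeats 400000



/-- In a projective plane of order 4 (a Steiner system S(2, 5, 21)), every permutation of the six points of a hyperoval (a 6-set met by no line in more than two points) is the restriction of exactly one automorphism of the plane. In particular the stabiliser of a hyperoval in the automorphism group is isomorphic to the symmetric group of degree 6 acting faithfully on the hyperoval. -/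
theorem result {α : Type*} [Fintype α] [DecidableEq α] (hα : Fintype.card α = 21) (L : Set (Finset α)) (hL : Cfsg.IsSteinerSystem 2 5 L) (H : Finset α) (hH : (H.card = 6 ∧ ∀ l ∈ L, (l ∩ H).card ≤ 2)) (σ : Equiv.Perm ↥H) : ∃! g : Equiv.Perm α, g ∈ Cfsg.setSystemAut L ∧ ∀ p : ↥H, g p = σ p := by
  have h : PP L := ⟨hα, hL⟩
  obtain ⟨p, h1, h2⟩ := PP.enum hH.1
  have hm : ∀ i, p i ∈ H := fun i => h2 ▸ Finset.mem_image_of_mem p (Finset.mem_univ i)
  have hi : Ind L (Finset.univ.image p) := h2 ▸ hH.2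
  obtain ⟨g, e1, e2⟩ := h.iso (q := fun i => ((σ ⟨p i, hm i⟩ : H) : α)) h1 hi h
    (fun i j e => h1 (congrArg Subtype.val (σ.injective (Subtype.ext e))))
    (Ind.mono hH.2 (Finset.image_subset_iff.2 fun i _ => Subtype.property _))
  have hg : g ∈ setSystemAut L := e2
  have e3 : ∀ x : H, g x = σ x := by
    rintro ⟨x, hx⟩
    obtain ⟨i, -, rfl⟩ := Finset.mem_image.1 (h2 ▸ hx : x ∈ Finset.univ.image p)
    exact e1 i
  refine ⟨g, ⟨hg, e3⟩, fun k hk => ?_⟩
  have h3 : (g⁻¹ * k) • L = L := mul_mem (inv_mem hg) hk.1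
  refine (inv_mul_eq_one.1 (h.eq_one h1 hi (fun l hl => ?_) fun i => ?_)).symm
  · rw [← h3]
    exact ⟨l, hl, rfl⟩
  · rw [Equiv.Perm.mul_apply, Equiv.Perm.inv_eq_iff_eq, hk.2 ⟨_, hm i⟩, e3 ⟨_, hm i⟩]

end Cfsg.Agent.S5628
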